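import Cfsg.Agent.Lib.Helper28.HSAut
import Cfsg.Agent.S0356

/-!
The block graph of an S(3,6,22).
-/

set_option autoImplicit false

namespace Cfsg.Agent.Lib.Helper28.HSGraph

open Cfsg Finset Cfsg.Agent.Lib.Helper28

variable {α : Type*} [DecidableEq α] {B : Set (Finset α)}

theorem adj_blk_blk (b c : B) :
    (pointBlockGraph B).Adj (some (Sum.inr b)) (some (Sum.inr c)) ↔ (blockGraph B).Adj b c := by
  rw [pbg_adj, blockGraph, SimpleGraph.fromRel_adj]
  simp [pointBlockRel]

theorem adj_blk_pt (a : α) (b : B) :
    (pointBlockGraph B).Adj (some (Sum.inr b)) (some (Sum.inl a)) ↔ a ∈ (b : Finset α) := by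
  rw [SimpleGraph.adj_comm, adj_pt_blk]

theorem not_adj_blk_none (b : B) : ¬ (pointBlockGraph B).Adj (some (Sum.inr b)) none := by
  rw [SimpleGraph.adj_comm, adj_none_iff]
  simp

/-- embedding of points -/
def embP (α : Type*) (B : Set (Finset α)) : α ↪ Option (α ⊕ B) :=
  ⟨fun a => some (Sum.inl a), fun a b h => by simpa using h⟩

/-- embedding of blocks -/
def embB (α : Type*) (B : Set (Finset α)) : B ↪ Option (α ⊕ B) :=
  ⟨fun a => some (Sum.inr a), fun a b h => by simpa using h⟩

theorem embP_apply (a : α) : embP α B a = some (Sum.inl a) := rfl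

theorem embB_apply (b : B) : embB α B b = some (Sum.inr b) := rfl

theorem disj_emb (s : Finset α) (t : Finset B) : Disjoint (s.map (embP α B)) (t.map (embB α B)) := by
  rw [Finset.disjoint_left]
  intro u hu hu'
  rw [Finset.mem_map] at hu hu'
  obtain ⟨a, _, rfl⟩ := hu
  obtain ⟨b, _, hb⟩ := hu'
  simp [embP_apply, embB_apply] at hb

theorem blockGraph_srg [Fintype α] (hα : Fintype.card α = 22) (hB : IsSteinerSystem 3 6 B)
    [Fintype B] [DecidableRel (blockGraph B).Adj] : (blockGraph B).IsSRGWith 77 16 0 4 := by
  classical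
  have h := pbg_isHSG hα hB
  have hdeg : ∀ b : B, (univ.filter (fun c => (blockGraph B).Adj b c)).card = 16 := by
    intro b
    have e : univ.filter (fun u => (pointBlockGraph B).Adj (some (Sum.inr b)) u)
        = (b : Finset α).map (embP α B) ∪
          (univ.filter (fun c => (blockGraph B).Adj b c)).map (embB α B) := by
      ext u
      rcases u with _ | a | c
      · simp [not_adj_blk_none, embP_apply, embB_apply]
      · simp [adj_blk_pt, embP_apply, embB_apply]
      · simp [adj_blk_blk, embP_apply, embB_apply]
    have h1 := h.deg (some (Sum.inr b))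
    rw [e, Finset.card_union_of_disjoint (disj_emb _ _), Finset.card_map, Finset.card_map,
      hB.1 b b.2] at h1
    omega
  refine ⟨?_, ?_, ?_, ?_⟩
  · have h1 := h.card
    rw [Fintype.card_option, Fintype.card_sum, hα] at h1
    omega
  · intro b
    rw [← hdeg b, ← SimpleGraph.card_neighborFinset_eq_degree]
    congr 1
    ext u
    simp
  · intro b c hbc
    rw [card_cn, Finset.card_eq_zero]
    ext d
    simp only [mem_filter, mem_univ, true_and, notMem_empty, iff_false, not_and]
    intro h1 h2
    rw [← adj_blk_blk] at hbc h1 h2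
    exact h.tri _ _ _ h1 h2.symm hbc
  · intro b c hne hn
    rw [card_cn]
    have e : univ.filter (fun u => (pointBlockGraph B).Adj (some (Sum.inr b)) u ∧
          (pointBlockGraph B).Adj (some (Sum.inr c)) u)
        = ((b : Finset α) ∩ (c : Finset α)).map (embP α B) ∪
          (univ.filter (fun d => (blockGraph B).Adj b d ∧ (blockGraph B).Adj c d)).map
            (embB α B) := by
      ext u
      rcases u with _ | a | d
      · simp [not_adj_blk_none, embP_apply, embB_apply]
      · simp [adj_blk_pt, embP_apply, embB_apply]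
      · simp [adj_blk_blk, embP_apply, embB_apply]
    have h1 := h.mu (some (Sum.inr b)) (some (Sum.inr c)) (by simpa using hne)
      (by rw [adj_blk_blk]; exact hn)
    rw [e, Finset.card_union_of_disjoint (disj_emb _ _), Finset.card_map, Finset.card_map] at h1
    have h2 : ((b : Finset α) ∩ (c : Finset α)).card = 2 := by
      rcases Cfsg.Agent.S0356.result hα hB b.2 c.2 (fun e => hne (Subtype.ext e)) with h0 | h0
      · exfalso
        apply hn
        rw [blockGraph, SimpleGraph.fromRel_adj]
        refine ⟨hne, Or.inl ?_⟩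
        rw [Finset.disjoint_iff_inter_eq_empty, ← Finset.card_eq_zero]
        exact h0
      · exact h0
    omega

end Cfsg.Agent.Lib.Helper28.HSGraph
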