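import Mathlib
import Cfsg.Prelude.Def_SporadicCombinatorics

/-!
The hexacode over a field of order 4, via a concrete Boolean model.
-/

set_option autoImplicit false
set_option linter.unusedSectionVars false

namespace Cfsg.Agent.Lib.Helper28.Hexa

open Cfsg Finset

/-- concrete field of order 4: `(a, b)` stands for `a + b ω` -/
abbrev K := Bool × Bool

def kadd (x y : K) : K := (xor x.1 y.1, xor x.2 y.2)

def kmul (x y : K) : K :=
  (xor (x.1 && y.1) (x.2 && y.2), xor (xor (x.1 && y.2) (x.2 && y.1)) (x.2 && y.2))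

def kz : K := (false, false)
def k1 : K := (true, false)
def kw : K := (false, true)
def kv : K := (true, true)

def g : Fin 3 → Fin 6 → K :=
  ![![kw, kv, kv, kw, kv, kw], ![kv, kw, kw, kv, kv, kw], ![kv, kw, kv, kw, kw, kv]]

abbrev K3 := K × K × K

def cw (m : K3) : Fin 6 → K := fun i =>
  kadd (kadd (kmul m.1 (g 0 i)) (kmul m.2.1 (g 1 i))) (kmul m.2.2 (g 2 i))

def dec (y : Fin 6 → K) : K3 :=
  (kadd (kmul (y 0) kw) (kmul (y 1) kv),
   kadd (kadd (kmul (y 0) kv) (kmul (y 1) kv)) (y 2),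
   kadd (y 1) (y 2))

def isC (y : Fin 6 → K) : Prop := y = cw (dec y)

instance : DecidablePred isC := fun y => by unfold isC; infer_instance

theorem dec_cw : ∀ m : K3, dec (cw m) = m := by decide +kernel

theorem isC_cw (m : K3) : isC (cw m) := by unfold isC; rw [dec_cw]

theorem cw_injective : Function.Injective cw := by
  intro m m' h
  rw [← dec_cw m, ← dec_cw m', h]

theorem g_isC : ∀ j, isC (g j) := by decide +kernel

def wtK (y : Fin 6 → K) : ℕ := (univ.filter fun i => y i ≠ kz).card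

theorem wts : ∀ m : K3, cw m = (fun _ => kz) ∨ wtK (cw m) = 4 ∨ wtK (cw m) = 6 := by
  decide +kernel

theorem c4 : (univ.filter fun m : K3 => wtK (cw m) = 4).card = 45 := by decide +kernel

theorem c6 : (univ.filter fun m : K3 => wtK (cw m) = 6).card = 18 := by decide +kernel

theorem kadd_eq : ∀ x y : K, kadd x y = kz → x = y := by decide

section

variable {F : Type*} [Field F]

def b2f (F : Type*) [Field F] : Bool → F
  | true => 1
  | false => 0

def phi (ω : F) (x : K) : F := b2f F x.1 + b2f F x.2 * ω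

/-- the standing hypotheses -/
structure Hyp (ω : F) : Prop where
  h2 : (2 : F) = 0
  hω : ω ^ 2 + ω + 1 = 0
  surj : Function.Surjective (phi ω)

theorem two_eq_zero [Fintype F] (hF : Fintype.card F = 4) : (2 : F) = 0 := by
  have h := card_nsmul_eq_zero (G := F) (x := (1 : F))
  rw [hF] at h
  have h4 : (2 : F) * 2 = 0 := by
    have : (4 : ℕ) • (1 : F) = 2 * 2 := by norm_num
    rw [← this]; exact h
  exact mul_self_eq_zero.1 h4

theorem b2f_xor (h2 : (2 : F) = 0) (a b : Bool) : b2f F (xor a b) = b2f F a + b2f F b := by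
  cases a <;> cases b
  · show (0 : F) = 0 + 0
    ring
  · show (1 : F) = 0 + 1
    ring
  · show (1 : F) = 1 + 0
    ring
  · show (0 : F) = 1 + 1
    linear_combination -h2

theorem b2f_and (a b : Bool) : b2f F (a && b) = b2f F a * b2f F b := by
  cases a <;> cases b
  · show (0 : F) = 0 * 0
    ring
  · show (0 : F) = 0 * 1
    ring
  · show (0 : F) = 1 * 0
    ring
  · show (1 : F) = 1 * 1
    ring

theorem phi_add' (h2 : (2 : F) = 0) (ω : F) (x y : K) :
    phi ω (kadd x y) = phi ω x + phi ω y := by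
  unfold phi kadd
  rw [b2f_xor h2, b2f_xor h2]
  ring

theorem phi_mul' (h2 : (2 : F) = 0) {ω : F} (hω : ω ^ 2 + ω + 1 = 0) (x y : K) :
    phi ω (kmul x y) = phi ω x * phi ω y := by
  unfold phi kmul
  simp only [b2f_xor h2, b2f_and]
  linear_combination (b2f F x.2 * b2f F y.2) * hω - (b2f F x.2 * b2f F y.2 * ω ^ 2) * h2

theorem phi_eq_zero' {ω : F} (hω : ω ^ 2 + ω + 1 = 0) (x : K) (h : phi ω x = 0) : x = kz := by
  rcases x with ⟨a, b⟩
  cases a <;> cases b
  · rfl
  · exfalso
    have h' : (0 : F) + 1 * ω = 0 := h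
    have : (1 : F) = 0 := by linear_combination hω - (ω + 1) * h'
    exact one_ne_zero this
  · exfalso
    have h' : (1 : F) + 0 * ω = 0 := h
    have : (1 : F) = 0 := by linear_combination h'
    exact one_ne_zero this
  · exfalso
    have h' : (1 : F) + 1 * ω = 0 := h
    have : (1 : F) = 0 := by linear_combination hω - ω * h'
    exact one_ne_zero this

theorem phi_injective' (h2 : (2 : F) = 0) {ω : F} (hω : ω ^ 2 + ω + 1 = 0) :
    Function.Injective (phi ω) := by
  intro x y h
  apply kadd_eq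
  apply phi_eq_zero' hω
  rw [phi_add' h2, h]
  linear_combination (phi ω y) * h2

theorem mkHyp [Fintype F] (hF : Fintype.card F = 4) {ω : F} (hω : ω ^ 2 + ω + 1 = 0) :
    Hyp ω where
  h2 := two_eq_zero hF
  hω := hω
  surj := ((Fintype.bijective_iff_injective_and_card _).2
    ⟨phi_injective' (two_eq_zero hF) hω, by rw [hF]; rfl⟩).2

variable {ω : F} (H : Hyp ω)

include H

theorem phi_add (x y : K) : phi ω (kadd x y) = phi ω x + phi ω y := phi_add' H.h2 ω x y

theorem phi_mul (x y : K) : phi ω (kmul x y) = phi ω x * phi ω y := phi_mul' H.h2 H.hω x y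

theorem phi_injective : Function.Injective (phi ω) := phi_injective' H.h2 H.hω

theorem phi_kz : phi ω kz = 0 := by
  show (0 : F) + 0 * ω = 0
  ring

theorem phi_eq_zero_iff (x : K) : phi ω x = 0 ↔ x = kz :=
  ⟨phi_eq_zero' H.hω x, fun h => by rw [h]; exact phi_kz H⟩

theorem phi_k1 : phi ω k1 = 1 := by
  show (1 : F) + 0 * ω = 1
  ring

theorem phi_kw : phi ω kw = ω := by
  show (0 : F) + 1 * ω = ω
  ring

theorem phi_kv : phi ω kv = ω ^ 2 := by
  show (1 : F) + 1 * ω = ω ^ 2
  linear_combination -H.hω + (ω + 1) * H.h2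

omit H in
/-- coordinatewise embedding -/
def E (ω : F) (y : Fin 6 → K) : Fin 6 → F := fun i => phi ω (y i)

theorem E_injective : Function.Injective (E ω) := by
  intro y y' h
  funext i
  exact phi_injective H (congrFun h i)

theorem E_g0 : E ω (g 0) = ![ω, ω ^ 2, ω ^ 2, ω, ω ^ 2, ω] := by
  funext i
  fin_cases i <;> first | exact phi_kw H | exact phi_kv H

theorem E_g1 : E ω (g 1) = ![ω ^ 2, ω, ω, ω ^ 2, ω ^ 2, ω] := by
  funext i
  fin_cases i <;> first | exact phi_kw H | exact phi_kv H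

theorem E_g2 : E ω (g 2) = ![ω ^ 2, ω, ω ^ 2, ω, ω, ω ^ 2] := by
  funext i
  fin_cases i <;> first | exact phi_kw H | exact phi_kv H

theorem E_cw (m : K3) : E ω (cw m) =
    phi ω m.1 • E ω (g 0) + phi ω m.2.1 • E ω (g 1) + phi ω m.2.2 • E ω (g 2) := by
  funext i
  simp only [E, cw, phi_add H, phi_mul H, Pi.add_apply, Pi.smul_apply, smul_eq_mul]

theorem mem_iff (x : Fin 6 → F) : x ∈ hexacode F ω ↔ ∃ m : K3, x = E ω (cw m) := by
  unfold hexacode
  rw [Submodule.mem_span_triple, ← E_g0 H, ← E_g1 H, ← E_g2 H]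
  constructor
  · rintro ⟨a, b, c, rfl⟩
    obtain ⟨a', rfl⟩ := H.surj a
    obtain ⟨b', rfl⟩ := H.surj b
    obtain ⟨c', rfl⟩ := H.surj c
    exact ⟨(a', b', c'), (E_cw H (a', b', c')).symm⟩
  · rintro ⟨m, rfl⟩
    exact ⟨_, _, _, (E_cw H m).symm⟩

theorem E_mem_iff (y : Fin 6 → K) : E ω y ∈ hexacode F ω ↔ isC y := by
  rw [mem_iff H]
  constructor
  · rintro ⟨m, hm⟩
    rw [E_injective H hm]
    exact isC_cw m
  · intro h
    exact ⟨dec y, congrArg (E ω) h⟩

theorem card_code : Nat.card ↥(hexacode F ω) = 64 := by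
  have e : K3 ≃ ↥(hexacode F ω) := Equiv.ofBijective
    (fun m => ⟨E ω (cw m), (mem_iff H _).2 ⟨m, rfl⟩⟩) ⟨by
    intro m m' h
    exact cw_injective (E_injective H (congrArg Subtype.val h)), by
    rintro ⟨x, hx⟩
    obtain ⟨m, rfl⟩ := (mem_iff H x).1 hx
    exact ⟨m, rfl⟩⟩
  rw [← Nat.card_congr e, Nat.card_eq_fintype_card]
  rfl

theorem wt_E [DecidableEq F] (y : Fin 6 → K) :
    (univ.filter fun i => E ω y i ≠ 0).card = wtK y := by
  unfold wtK
  congr 1
  ext i
  simp only [Finset.mem_filter, Finset.mem_univ, true_and, E, ne_eq, phi_eq_zero_iff H]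

theorem count [DecidableEq F] (n : ℕ) :
    {x : Fin 6 → F | x ∈ hexacode F ω ∧ (univ.filter fun i => x i ≠ 0).card = n}.ncard =
      (univ.filter (fun m : K3 => wtK (cw m) = n)).card := by
  have hinj : Function.Injective (fun m : K3 => E ω (cw m)) :=
    fun m m' h => cw_injective (E_injective H h)
  rw [← Set.ncard_coe_finset, ← Set.ncard_image_of_injective _ hinj]
  congr 1
  ext x
  simp only [Set.mem_ofPred_eq, Set.mem_image, Finset.coe_filter, Finset.mem_univ, true_and]
  constructor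
  · rintro ⟨hx, hP⟩
    obtain ⟨m, rfl⟩ := (mem_iff H x).1 hx
    exact ⟨m, by rw [← wt_E H]; exact hP, rfl⟩
  · rintro ⟨m, hm, rfl⟩
    exact ⟨(mem_iff H _).2 ⟨m, rfl⟩, by rw [wt_E H]; exact hm⟩

theorem wt_cases [DecidableEq F] {x : Fin 6 → F} (hx : x ∈ hexacode F ω) (hne : x ≠ 0) :
    (univ.filter fun i => x i ≠ 0).card = 4 ∨ (univ.filter fun i => x i ≠ 0).card = 6 := by
  obtain ⟨m, rfl⟩ := (mem_iff H x).1 hx
  rw [wt_E H]
  rcases wts m with h | h
  · exfalso
    apply hne
    funext i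
    show phi ω (cw m i) = 0
    rw [h]
    exact phi_kz H
  · exact h

end

end Cfsg.Agent.Lib.Helper28.Hexa
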