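import Cfsg.Agent.Lib.Helper28.Hexa2

/-! The monomial automorphism group of the hexacode. -/

set_option autoImplicit false
set_option linter.unusedSectionVars false

namespace Cfsg.Agent.Lib.Helper28.Hexa

open Cfsg Finset

variable {F : Type*} [Field F]

/-- the monomial map preserves the code -/
def Pres (ω : F) (σ : Equiv.Perm (Fin 6)) (c : Fin 6 → Fˣ) : Prop :=
  ∀ x ∈ hexacode F ω, monomialMap σ c x ∈ hexacode F ω

theorem mono_apply (σ : Equiv.Perm (Fin 6)) (c : Fin 6 → Fˣ) (x : Fin 6 → F) (p : Fin 6) :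
    monomialMap σ c x p = ((c p : Fˣ) : F) * x (σ.symm p) := rfl

/-- the monomial map as a linear map -/
def monoLin (σ : Equiv.Perm (Fin 6)) (c : Fin 6 → Fˣ) : (Fin 6 → F) →ₗ[F] (Fin 6 → F) where
  toFun := monomialMap σ c
  map_add' := by
    intro x y; funext p; simp only [mono_apply, Pi.add_apply, mul_add]
  map_smul' := by
    intro a x; funext p
    simp only [mono_apply, Pi.smul_apply, smul_eq_mul, RingHom.id_apply]; ring

theorem pres_one (ω : F) : Pres ω 1 (fun _ => 1) := by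
  intro x hx
  have : monomialMap (1 : Equiv.Perm (Fin 6)) (fun _ => (1 : Fˣ)) x = x := by
    funext p
    show (((1 : Fˣ)) : F) * x p = x p
    rw [Units.val_one, one_mul]
  rw [this]; exact hx

theorem pres_mul {ω : F} {σ τ : Equiv.Perm (Fin 6)} {c d : Fin 6 → Fˣ} (h1 : Pres ω σ c)
    (h2 : Pres ω τ d) : Pres ω (τ * σ) (fun p => d p * c (τ.symm p)) := by
  intro x hx
  have : monomialMap (τ * σ) (fun p => d p * c (τ.symm p)) x =
      monomialMap τ d (monomialMap σ c x) := by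
    funext p
    simp only [mono_apply, Units.val_mul, mul_assoc]
    rfl
  rw [this]; exact h2 _ (h1 _ hx)

theorem mono_injective (σ : Equiv.Perm (Fin 6)) (c : Fin 6 → Fˣ) :
    Function.Injective (monomialMap σ c : (Fin 6 → F) → (Fin 6 → F)) := by
  intro x y h
  funext q
  have := congrFun h (σ q)
  simp only [mono_apply, σ.symm_apply_apply] at this
  exact mul_left_cancel₀ (Units.ne_zero _) this

theorem pres_smul {ω : F} {σ : Equiv.Perm (Fin 6)} {c : Fin 6 → Fˣ} (h : Pres ω σ c)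
    (u : Fˣ) : Pres ω σ (fun p => u * c p) := by
  intro x hx
  have : monomialMap σ (fun p => u * c p) x = (u : F) • monomialMap σ c x := by
    funext p
    simp only [mono_apply, Units.val_mul, Pi.smul_apply, smul_eq_mul, mul_assoc]
  rw [this]; exact Submodule.smul_mem _ _ (h x hx)

theorem pres_surj [Finite F] {ω : F} {σ : Equiv.Perm (Fin 6)} {c : Fin 6 → Fˣ}
    (h : Pres ω σ c) {x : Fin 6 → F}
    (hx : x ∈ hexacode F ω) : ∃ y ∈ hexacode F ω, monomialMap σ c y = x := by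
  let T : ↥(hexacode F ω) → ↥(hexacode F ω) := fun y => ⟨monomialMap σ c y.1, h _ y.2⟩
  have hT : Function.Injective T := by
    intro y y' hy
    exact Subtype.ext (mono_injective σ c (congrArg Subtype.val hy))
  obtain ⟨y, hy⟩ := (Finite.injective_iff_surjective.1 hT) ⟨x, hx⟩
  exact ⟨y.1, y.2, congrArg Subtype.val hy⟩

variable {ω : F} (H : Hyp ω)

include H

theorem exists_tup (c : Fin 6 → Fˣ) : ∃ e : E6, ∀ i, ((c i : Fˣ) : F) = phi ω (pw (tup e i)) := by
  have hu : ∀ u : Fˣ, ∃ k : Fin 3, (u : F) = phi ω (pw k) := by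
    intro u
    obtain ⟨x, hx⟩ := H.surj (u : F)
    have hne : x ≠ kz := by
      intro h
      rw [h, phi_kz H] at hx
      exact Units.ne_zero u hx.symm
    obtain ⟨k, rfl⟩ := exists_pw x hne
    exact ⟨k, hx.symm⟩
  choose k hk using fun i => hu (c i)
  refine ⟨(k 0, k 1, k 2, k 3, k 4, k 5), ?_⟩
  intro i
  fin_cases i <;> exact hk _

theorem mono_E {σ : Equiv.Perm (Fin 6)} {c : Fin 6 → Fˣ} {e : E6}
    (hc : ∀ i, ((c i : Fˣ) : F) = phi ω (pw (tup e i))) (y : Fin 6 → K) :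
    monomialMap σ c (E ω y) = E ω (fun i => kmul (pw (tup e i)) (y (σ.symm i))) := by
  funext i
  show ((c i : Fˣ) : F) * phi ω (y (σ.symm i)) = phi ω (kmul (pw (tup e i)) (y (σ.symm i)))
  rw [phi_mul H, hc]

theorem pres_iff {σ : Equiv.Perm (Fin 6)} {c : Fin 6 → Fˣ} {e : E6}
    (hc : ∀ i, ((c i : Fˣ) : F) = phi ω (pw (tup e i))) : Pres ω σ c ↔ CP σ.symm e := by
  constructor
  · intro h j
    have h1 := h _ ((E_mem_iff H (g j)).2 (g_isC j))
    rw [mono_E H hc] at h1
    exact (E_mem_iff H _).1 h1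
  · intro h x hx
    obtain ⟨m, rfl⟩ := (mem_iff H x).1 hx
    have hj : ∀ j, monoLin σ c (E ω (g j)) ∈ hexacode F ω := by
      intro j
      show monomialMap σ c (E ω (g j)) ∈ hexacode F ω
      rw [mono_E H hc]
      exact (E_mem_iff H _).2 (h j)
    show monoLin σ c (E ω (cw m)) ∈ hexacode F ω
    rw [E_cw H, map_add, map_add, map_smul, map_smul, map_smul]
    exact Submodule.add_mem _ (Submodule.add_mem _ (Submodule.smul_mem _ _ (hj 0))
      (Submodule.smul_mem _ _ (hj 1))) (Submodule.smul_mem _ _ (hj 2))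

/-- units from exponents -/
noncomputable def cOf (e : E6) : Fin 6 → Fˣ := fun i =>
  Units.mk0 (phi ω (pw (tup e i))) (fun h => pw_ne _ ((phi_eq_zero_iff H _).1 h))

theorem pres_of_CP {σ : Equiv.Perm (Fin 6)} {e : E6} (h : CP σ.symm e) : Pres ω σ (cOf H e) :=
  (pres_iff H (c := cOf H e) (fun _ => rfl)).2 h

theorem diag {c : Fin 6 → Fˣ} (h : Pres ω 1 c) (i j : Fin 6) : c i = c j := by
  obtain ⟨e, he⟩ := exists_tup H c
  have h1 : CP id e := (pres_iff H he).1 h
  apply Units.ext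
  rw [he, he, diag_dec e h1 i j]

theorem not_swap (c : Fin 6 → Fˣ) : ¬ Pres ω (Equiv.swap (0 : Fin 6) 1) c := by
  intro h
  obtain ⟨e, he⟩ := exists_tup H c
  have h1 := (pres_iff H he).1 h
  rw [Equiv.symm_swap] at h1
  exact swap_dec e h1

omit H in
/-- the permutation parts -/
def PS (ω : F) : Set (Equiv.Perm (Fin 6)) := {σ | ∃ c, Pres ω σ c}

theorem prm_mem (i : Fin 4) (t : Fin 6) : prm i t ∈ PS ω :=
  ⟨_, pres_of_CP H (σ := prm i t) (tbl_CP i t)⟩

theorem exists_PS (t : Fin 4 → Fin 6) (ht : Function.Injective t) :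
    ∀ k : ℕ, k ≤ 4 → ∃ π ∈ PS ω, π ∈ alternatingGroup (Fin 6) ∧
      ∀ i : Fin 4, i.val < k → π (bs i) = t i := by
  intro k
  induction k with
  | zero =>
    intro _
    exact ⟨1, ⟨_, pres_one ω⟩, Subgroup.one_mem _, fun i hi => absurd hi (Nat.not_lt_zero _)⟩
  | succ k ih =>
    intro hk
    obtain ⟨π, ⟨c, hc⟩, hA, hπ⟩ := ih (by omega)
    obtain ⟨kk, hkk⟩ : ∃ kk : Fin 4, kk.val = k := ⟨⟨k, by omega⟩, rfl⟩
    have hs : ∀ j : Fin 4, j < kk → π.symm (t kk) ≠ bs j := by
      intro j hj h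
      have h1 : t kk = π (bs j) := by rw [← h, π.apply_symm_apply]
      rw [hπ j (by rw [← hkk]; exact hj)] at h1
      exact absurd (ht h1) (ne_of_gt hj)
    obtain ⟨h1, h2⟩ := tbl_spec kk (π.symm (t kk)) hs
    obtain ⟨d, hd⟩ := prm_mem H kk (π.symm (t kk))
    refine ⟨π * prm kk (π.symm (t kk)), ⟨_, pres_mul hd hc⟩,
      Subgroup.mul_mem _ hA (Equiv.Perm.mem_alternatingGroup.2 (tbl_sign _ _)), ?_⟩
    intro i hi
    rcases Nat.lt_succ_iff_lt_or_eq.1 hi with hi | hi
    · show π (fF kk _ (bs i)) = t i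
      rw [h2 i (by show i.val < kk.val; rw [hkk]; exact hi), hπ i hi]
    · have : i = kk := Fin.ext (hi.trans hkk.symm)
      subst this
      show π (fF i _ (bs i)) = t i
      rw [h1, π.apply_symm_apply]

omit H in
theorem card_A6 : Nat.card (alternatingGroup (Fin 6)) = 360 := by
  have h := two_mul_nat_card_alternatingGroup (α := Fin 6)
  rw [Nat.card_eq_fintype_card (α := Equiv.Perm (Fin 6)), Fintype.card_perm, Fintype.card_fin] at h
  have h6 : (6 : ℕ).factorial = 720 := by decide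
  omega

theorem A6_subset : (alternatingGroup (Fin 6) : Set (Equiv.Perm (Fin 6))) ⊆ PS ω := by
  have key : PS ω ∩ (alternatingGroup (Fin 6) : Set (Equiv.Perm (Fin 6))) =
      (alternatingGroup (Fin 6) : Set (Equiv.Perm (Fin 6))) := by
    apply Set.eq_of_subset_of_ncard_le Set.inter_subset_right _ (Set.toFinite _)
    have hA : ((alternatingGroup (Fin 6) : Set (Equiv.Perm (Fin 6)))).ncard = 360 :=
      (_root_.Nat.card_coe_set_eq _).symm.trans card_A6
    rw [hA]
    choose f hf1 hf1' hf2 using fun t : Fin 4 ↪ Fin 6 => exists_PS H t t.injective 4 le_rfl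
    have hinj : Function.Injective (fun t : Fin 4 ↪ Fin 6 =>
        (⟨f t, hf1 t, hf1' t⟩ : ↥(PS ω ∩ (alternatingGroup (Fin 6) :
          Set (Equiv.Perm (Fin 6)))))) := by
      intro t t' h
      have h1 : f t = f t' := congrArg Subtype.val h
      apply DFunLike.ext
      intro i
      rw [← hf2 t i i.isLt, ← hf2 t' i i.isLt, h1]
    have h2 := Nat.card_le_card_of_injective _ hinj
    have h3 : Nat.card (Fin 4 ↪ Fin 6) = 360 := by
      rw [Nat.card_eq_fintype_card, Fintype.card_embedding_eq]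
      decide
    rw [h3, _root_.Nat.card_coe_set_eq] at h2
    exact h2
  intro σ hσ
  rw [← key] at hσ
  exact hσ.1

theorem PS_eq : PS ω = (alternatingGroup (Fin 6) : Set (Equiv.Perm (Fin 6))) := by
  apply Set.Subset.antisymm _ (A6_subset H)
  rintro σ ⟨c, hc⟩
  by_contra hσ
  have hs : Equiv.Perm.sign σ = -1 := by
    rcases Int.units_eq_one_or (Equiv.Perm.sign σ) with h | h
    · exact absurd (Equiv.Perm.mem_alternatingGroup.2 h) hσ
    · exact h
  have hτ : Equiv.swap (0 : Fin 6) 1 * σ⁻¹ ∈ alternatingGroup (Fin 6) := by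
    rw [Equiv.Perm.mem_alternatingGroup, Equiv.Perm.sign_mul, Equiv.Perm.sign_inv, hs,
      Equiv.Perm.sign_swap (by decide)]
    rfl
  obtain ⟨d, hd⟩ := A6_subset H hτ
  have h := pres_mul hc hd
  rw [inv_mul_cancel_right] at h
  exact not_swap H _ h

theorem pres_unique [Finite F] {σ : Equiv.Perm (Fin 6)} {c c' : Fin 6 → Fˣ} (h : Pres ω σ c)
    (h' : Pres ω σ c') : ∃ u : Fˣ, ∀ p, c' p = u * c p := by
  have h1 : Pres ω 1 (fun p => c' p * (c p)⁻¹) := by
    intro x hx
    obtain ⟨y, hy, rfl⟩ := pres_surj h hx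
    have : monomialMap 1 (fun p => c' p * (c p)⁻¹) (monomialMap σ c y) = monomialMap σ c' y := by
      funext p
      show (((c' p * (c p)⁻¹ : Fˣ)) : F) * (((c p : Fˣ) : F) *
        y (σ.symm p)) = ((c' p : Fˣ) : F) * y (σ.symm p)
      rw [← mul_assoc, ← Units.val_mul, inv_mul_cancel_right]
    rw [this]; exact h' y hy
  refine ⟨c' 0 * (c 0)⁻¹, fun p => ?_⟩
  have h2 : c' p * (c p)⁻¹ = c' 0 * (c 0)⁻¹ := diag H h1 p 0
  rw [← h2, inv_mul_cancel_right]

theorem card_pres [Fintype F] (hF : Fintype.card F = 4) :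
    Nat.card {f : Equiv.Perm (Fin 6) × (Fin 6 → Fˣ) //
    ∀ x ∈ hexacode F ω, monomialMap f.1 f.2 x ∈ hexacode F ω} = 1080 := by
  classical
  choose cc hcc using fun σ : PS ω => σ.2
  let Φ : PS ω × Fˣ → {f : Equiv.Perm (Fin 6) × (Fin 6 → Fˣ) //
      ∀ x ∈ hexacode F ω, monomialMap f.1 f.2 x ∈ hexacode F ω} :=
    fun a => ⟨(a.1.1, fun p => a.2 * cc a.1 p), pres_smul (hcc a.1) a.2⟩
  have hΦ : Function.Bijective Φ := by
    constructor
    · rintro ⟨σ, u⟩ ⟨σ', u'⟩ h
      have h1 : σ.1 = σ'.1 := congrArg (fun f => f.1.1) h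
      have h1' : σ = σ' := Subtype.ext h1
      subst h1'
      have h2 : (fun p => u * cc σ p) = (fun p => u' * cc σ p) := congrArg (fun f => f.1.2) h
      have h3 := congrFun h2 0
      rw [mul_right_cancel h3]
    · rintro ⟨⟨σ, c'⟩, h⟩
      obtain ⟨u, hu⟩ := pres_unique H (hcc ⟨σ, ⟨c', h⟩⟩) h
      exact ⟨(⟨σ, ⟨c', h⟩⟩, u), Subtype.ext (Prod.ext rfl (funext fun p => (hu p).symm))⟩
  rw [← Nat.card_congr (Equiv.ofBijective Φ hΦ), Nat.card_prod]
  have h1 : Nat.card (PS ω) = 360 := by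
    rw [PS_eq H]; exact card_A6
  have h2 : Nat.card Fˣ = 3 := by
    rw [Nat.card_eq_fintype_card, Fintype.card_units, hF]
  rw [h1, h2]

end Cfsg.Agent.Lib.Helper28.Hexa
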