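import Cfsg.Agent.Lib.Helper28.LeechSimple

/-!
The stabiliser of a vector of type 3 is simple.
-/

set_option autoImplicit false

namespace Cfsg.Agent.Lib.Helper28

open Cfsg
open scoped Pointwise

/-- the translation `x ↦ x + 1`. -/
def shiftP : Equiv.Perm GolayPt := Equiv.optionCongr (Equiv.addRight (1 : ZMod 23))

theorem shiftP_mem : shiftP ∈ M24 := by
  rw [mem_M24_iff]
  decide +kernel

def shift24 : M24 := ⟨shiftP, shiftP_mem⟩

theorem shiftP_pow : shiftP ^ 23 = 1 := by
  apply Equiv.ext
  decide +kernel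

theorem shiftP_zero_ne : shiftP (some 0) ≠ some 0 := by decide +kernel

theorem orderOf_shift24 : orderOf shift24 = 23 := by
  haveI : Fact (Nat.Prime 23) := ⟨by norm_num⟩
  apply orderOf_eq_prime
  · apply Subtype.ext
    exact shiftP_pow
  · intro h
    have h1 : shiftP (some 0) = some 0 := congrArg (fun g : M24 => g.1 (some 0)) h
    exact shiftP_zero_ne h1

theorem shiftP_symm (i : ZMod 23) : shiftP.symm (some (i + 1)) = some i := by
  rw [Equiv.symm_apply_eq]
  rfl

/-- a vector fixed by the translation is constant on the 23 finite points. -/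
theorem const_of_shift_fix {y : leechLattice} (h : pEl shift24 • y = y) (i : ZMod 23) :
    (y : GolayPt → ℤ) (some i) = (y : GolayPt → ℤ) (some 0) := by
  have h1 : ∀ i : ZMod 23, (y : GolayPt → ℤ) (some (i + 1)) = (y : GolayPt → ℤ) (some i) := by
    intro i
    have h2 := congrFun (congrArg Subtype.val h) (some (i + 1))
    rw [pEl_smul] at h2
    have h3 : shift24.1.symm (some (i + 1)) = some i := shiftP_symm i
    rw [h3] at h2
    exact h2.symm
  have h2 : ∀ n : ℕ, (y : GolayPt → ℤ) (some (n : ZMod 23)) = (y : GolayPt → ℤ) (some 0) := by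
    intro n
    induction n with
    | zero => simp
    | succ n ih => rw [Nat.cast_succ, h1, ih]
  have := h2 i.val
  rwa [ZMod.natCast_zmod_val] at this

theorem eq_E8_of_shift_fix {y : leechLattice} (h : pEl shift24 • y = y)
    (hn : sqNorm (y : GolayPt → ℤ) = 64)
    (hd : dotInt ((u5 : leechLattice) : GolayPt → ℤ) (y : GolayPt → ℤ) = 40) : y = E8 none := by
  have hc := const_of_shift_fix h
  set a := (y : GolayPt → ℤ) none with ha
  set b := (y : GolayPt → ℤ) (some 0) with hb
  have h1 : a ^ 2 + 23 * b ^ 2 = 64 := by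
    rw [← hn]
    unfold sqNorm
    rw [Fintype.sum_option]
    simp only [hc]
    simp [ZMod.card, ha]
  have h2 : 5 * a + 23 * b = 40 := by
    rw [← hd, dot_u5, Fintype.sum_option]
    simp only [hc]
    simp [ZMod.card, ha]
    ring
  have hb1 : b ≤ 1 := by nlinarith [sq_nonneg a]
  have hb2 : -1 ≤ b := by nlinarith [sq_nonneg a]
  have hb0 : b = 0 := by
    interval_cases b <;> omega
  have ha8 : a = 8 := by rw [hb0] at h2; omega
  apply Subtype.ext
  rw [E8_coe]
  funext k
  cases k with
  | none => rw [Pi.single_eq_same]; exact ha8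
  | some i => rw [Pi.single_eq_of_ne (by simp), hc i]; exact hb0

theorem pEl_fix_u5 {σ : M24} (h1 : σ.1 none = none) :
    pEl σ • u5 = u5 ∧ pEl σ • E8 none = E8 none := by
  refine ⟨?_, ?_⟩
  · apply Subtype.ext
    funext k
    rw [pEl_smul, u5_coe]
    have := congrFun (shp_perm σ.1 ∅ {none}) k
    rw [this]
    have e1 : σ.1 • (∅ : Finset GolayPt) = ∅ := by simp
    have e2 : σ.1 • ({none} : Finset GolayPt) = {none} := by
      rw [Finset.smul_finset_singleton]
      exact congrArg _ h1
    rw [e1, e2]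
  · apply Subtype.ext
    funext k
    rw [pEl_smul, E8_coe, single_symm, h1]

theorem exists_pEl_u5 {g : Co0} (h1 : g • u5 = u5) (hE : g • E8 none = E8 none) :
    ∃ σ : M24, σ.1 none = none ∧ g = pEl σ := by
  obtain ⟨σ, c, rfl⟩ := exists_monoEl g (preserves_of_fix hE)
  have hfix : ∀ i, monoEl σ c • E8 i = E8 i → σ.1 i = i := by
    intro i hi
    have a1 := congrArg Subtype.val hi
    rw [monoEl_smul, E8_coe, signedPerm_single] at a1
    by_contra hne
    have a2 := congrFun a1 (σ.1 i)
    rw [Pi.single_eq_same, Pi.single_eq_of_ne hne] at a2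
    split_ifs at a2 <;> omega
  have hc : c.1 = ∅ := by
    rw [Finset.eq_empty_iff_forall_notMem]
    intro k hk
    have a1 := congrFun (congrArg Subtype.val h1) k
    rw [monoEl_smul] at a1
    unfold signedPerm at a1
    rw [if_pos hk] at a1
    have a2 := u5_pos k
    have a3 := u5_pos (σ.1.symm k)
    omega
  refine ⟨σ, hfix _ hE, ?_⟩
  unfold pEl
  congr 1
  exact Subtype.ext hc

theorem dot_u5_E8 : dotInt ((u5 : leechLattice) : GolayPt → ℤ) ((E8 none : leechLattice) : GolayPt → ℤ)
    = 40 := by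
  rw [u5_coe, E8_coe]; decide +kernel

theorem sqNorm_E8 : sqNorm ((E8 none : leechLattice) : GolayPt → ℤ) = 64 := by
  rw [E8_coe]; decide +kernel

theorem co3_simple_std : IsSimpleGroup (MulAction.stabilizer Co0 u5) := by
  haveI : Fact (Nat.Prime 23) := ⟨by norm_num⟩
  apply simple_of_pEl (MulAction.stabilizer Co0 u5) (E8 none) (MulAction.stabilizer M24 (none : GolayPt))
    (Cfsg.Agent.Lib.Helper3.M24S.m23_simple none) (p := 23)
    (fun σ hσ => pEl_fix_u5 hσ)
    (fun g hg hE => by
      obtain ⟨σ, h1, h2⟩ := exists_pEl_u5 hg hE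
      exact ⟨σ, h1, h2⟩)
    shift24 (by rfl) orderOf_shift24
    (fun h hh hfix => by
      apply eq_E8_of_shift_fix hfix
      · rw [co0_norm, sqNorm_E8]
      · have h1 : h • u5 = u5 := hh
        have h2 := co0_dot h u5 (E8 none)
        rw [h1, dot_u5_E8] at h2
        exact h2)
    (by rw [card_stab48 u5 sqNorm_u5]; norm_num) 3 5 2
    (by rw [card_stab48 u5 sqNorm_u5, Cfsg.Agent.Lib.Helper3.M24S.card_stabilizer]; norm_num)
  rintro r k (⟨rfl, hk⟩ | ⟨rfl, hk⟩ | ⟨rfl, hk⟩) hk0 <;> interval_cases k <;> norm_num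

theorem co3_simple (v : leechLattice) (hv : sqNorm (v : GolayPt → ℤ) = 48) :
    IsSimpleGroup (MulAction.stabilizer Co0 v) := by
  obtain ⟨g, hg⟩ := co0_trans48 v u5 hv sqNorm_u5
  haveI := co3_simple_std
  exact (MulAction.stabilizerEquivStabilizer hg.symm).isSimpleGroup

end Cfsg.Agent.Lib.Helper28
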