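import Cfsg.Agent.Lib.Helper28.SimpleCrit

/-!
A variant of the simplicity criterion with an external bound on the normal subgroups meeting the
simple subgroup trivially.
-/

set_option autoImplicit false

namespace Cfsg.Agent.Lib.Helper28

open scoped Pointwise

theorem card_mul_card_dvd_of_inf_eq_bot {G : Type*} [Group G] [Finite G] (N M : Subgroup G)
    [N.Normal] (hinf : N ⊓ M = ⊥) : Nat.card N * Nat.card M ∣ Nat.card G := by
  have h1 : N.relIndex (M ⊔ N) = Nat.card M := by
    rw [Subgroup.relIndex_sup_right, ← Subgroup.inf_relIndex_right, hinf,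
      Subgroup.relIndex_bot_left]
  have h2 : Nat.card N * N.relIndex (M ⊔ N) = Nat.card ↥(M ⊔ N) := by
    rw [← Subgroup.relIndex_bot_left, ← Subgroup.relIndex_bot_left]
    exact Subgroup.relIndex_mul_relIndex _ _ _ bot_le le_sup_right
  rw [← h1, h2]
  exact Subgroup.card_subgroup_dvd_card _

theorem card_dvd_index_of_inf_eq_bot {G : Type*} [Group G] [Finite G] (N M : Subgroup G)
    [N.Normal] (hinf : N ⊓ M = ⊥) : Nat.card N ∣ M.index := by
  have hmul := card_mul_card_dvd_of_inf_eq_bot N M hinf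
  rw [← Subgroup.card_mul_index M, mul_comm] at hmul
  exact Nat.dvd_of_mul_dvd_mul_left Nat.card_pos hmul

/-- a normal subgroup meets a simple subgroup trivially or contains it. -/
theorem inf_eq_bot_or_le {G : Type*} [Group G] (N M : Subgroup G) [N.Normal]
    (hM : IsSimpleGroup M) : N ⊓ M = ⊥ ∨ M ≤ N := by
  have hK : (N.subgroupOf M).Normal := inferInstance
  rcases hM.eq_bot_or_eq_top_of_normal _ hK with h | h
  · left
    rw [Subgroup.subgroupOf_eq_bot] at h
    exact disjoint_iff.1 h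
  · right
    rwa [Subgroup.subgroupOf_eq_top] at h

theorem isSimpleGroup_of_simple_subgroup' {G : Type*} [Group G] [Finite G] (M : Subgroup G)
    (hM : IsSimpleGroup M) {p : ℕ} [hp : Fact p.Prime] (ρ : G) (hρM : ρ ∈ M) (hρ : orderOf ρ = p)
    (hp2 : ¬ p ^ 2 ∣ Nat.card G)
    (hnorm : ∀ h : G, h * ρ * h⁻¹ ∈ Subgroup.zpowers ρ → h ∈ M) (D : ℕ)
    (hD : ∀ N : Subgroup G, N.Normal → N ⊓ M = ⊥ → Nat.card N ∣ D)
    (hpow : ∀ r k : ℕ, r.Prime → 0 < k → r ^ k ∣ D → r ^ k % p ≠ 1) : IsSimpleGroup G := by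
  haveI : Nontrivial G := by
    obtain ⟨x, y, hxy⟩ := hM.toNontrivial
    exact ⟨x, y, fun h => hxy (Subtype.ext h)⟩
  refine ⟨fun N hN => ?_⟩
  rcases inf_eq_bot_or_le N M hM with hinf | h
  · left
    have hcardM : p ∣ Nat.card M := by
      have h1 : orderOf (⟨ρ, hρM⟩ : M) = p := by
        rw [← hρ]; exact Subgroup.orderOf_mk ρ hρM
      rw [← h1]
      exact orderOf_dvd_natCard _
    have hmul := card_mul_card_dvd_of_inf_eq_bot N M hinf
    have hpN : ¬ p ∣ Nat.card N := by
      intro h1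
      apply hp2
      rw [pow_two]
      exact (mul_dvd_mul h1 hcardM).trans hmul
    apply eq_bot_of_fpf N ρ (hρ ▸ pow_orderOf_eq_one ρ) hpN _ D (hD N hN hinf) hpow
    intro n hn hc
    have h1 : n * ρ * n⁻¹ = ρ := by
      have : ρ * n = n * ρ := by
        rw [mul_inv_eq_iff_eq_mul] at hc
        exact hc
      rw [← this, mul_inv_cancel_right]
    have h2 : n ∈ M := hnorm n (by rw [h1]; exact Subgroup.mem_zpowers ρ)
    have h3 : n ∈ N ⊓ M := ⟨hn, h2⟩
    rw [hinf] at h3
    exact h3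
  · right
    rw [eq_top_iff]
    intro g _
    obtain ⟨h', n, hn, hh', rfl⟩ := exists_mul_of_frattini N ρ hρ hp2 (h hρM) g
    exact N.mul_mem (h (hnorm h' hh')) hn

end Cfsg.Agent.Lib.Helper28
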