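import Cfsg.Agent.Lib.Helper28.LeechHSMcL
import Cfsg.Agent.Lib.Helper28.LeechCo3
import Cfsg.Agent.Lib.Helper28.SimpleCrit3

/-!
The stabiliser of a minimal vector is simple.
-/

set_option autoImplicit false

namespace Cfsg.Agent.Lib.Helper28

open Cfsg
open scoped Pointwise

theorem simple_of_pEl' (S : Subgroup Co0) (e : leechLattice) (A : Subgroup M24)
    (hA : IsSimpleGroup A)
    (h1 : ∀ σ ∈ A, pEl σ ∈ S ∧ pEl σ • e = e)
    (h2 : ∀ g ∈ S, g • e = e → ∃ σ ∈ A, g = pEl σ)
    {p : ℕ} [hp : Fact p.Prime] (π : M24) (hπA : π ∈ A) (hπ : orderOf π = p)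
    (h3 : ∀ h ∈ S, pEl π • (h • e) = h • e → h • e = e)
    (hp2 : ¬ p ^ 2 ∣ Nat.card S) (D : ℕ)
    (hD : ∀ N : Subgroup S, N.Normal → Nat.card N * Nat.card A ∣ Nat.card S → Nat.card N ∣ D)
    (hpow : ∀ r k : ℕ, r.Prime → 0 < k → r ^ k ∣ D → r ^ k % p ≠ 1) :
    IsSimpleGroup S := by
  set M : Subgroup S := (MulAction.stabilizer Co0 e).subgroupOf S with hM
  have hmemM : ∀ g : S, g ∈ M ↔ (g : Co0) • e = e := fun g => Iff.rfl
  let f : A →* M :=
    { toFun := fun σ => ⟨⟨pEl σ.1, (h1 σ.1 σ.2).1⟩, (h1 σ.1 σ.2).2⟩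
      map_one' := by
        apply Subtype.ext; apply Subtype.ext
        exact pEl_one
      map_mul' := by
        intro σ τ
        apply Subtype.ext; apply Subtype.ext
        exact pEl_mul σ.1 τ.1 }
  have hfbij : Function.Bijective f := by
    constructor
    · intro σ τ h
      apply Subtype.ext
      apply pEl_injective
      exact congrArg (fun x : M => ((x : S) : Co0)) h
    · rintro ⟨⟨g, hgS⟩, hgM⟩
      obtain ⟨σ, hσ, rfl⟩ := h2 g hgS hgM
      exact ⟨⟨σ, hσ⟩, rfl⟩
  let E : A ≃* M := MulEquiv.ofBijective f hfbij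
  have hMs : IsSimpleGroup M := E.symm.isSimpleGroup
  have hcM : Nat.card M = Nat.card A := (Nat.card_congr E.toEquiv).symm
  set ρ : S := ⟨pEl π, (h1 π hπA).1⟩ with hρdef
  have hρe : pEl π • e = e := (h1 π hπA).2
  have hρo : orderOf ρ = p := by
    rw [← hπ, ← orderOf_pEl π]
    exact Subgroup.orderOf_mk _ _
  apply isSimpleGroup_of_simple_subgroup' M hMs ρ ((hmemM ρ).2 hρe) hρo hp2 _ D _ hpow
  · intro h hh
    obtain ⟨j, hj⟩ := Subgroup.mem_zpowers_iff.1 hh
    have hj' : (pEl π) ^ j = (h : Co0) * pEl π * (h : Co0)⁻¹ := by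
      have := congrArg (fun x : S => (x : Co0)) hj
      simpa using this
    have hfix : (pEl π) ^ j • e = e := by
      have : (pEl π) ^ j ∈ MulAction.stabilizer Co0 e :=
        Subgroup.zpow_mem _ (MulAction.mem_stabilizer_iff.2 hρe) j
      exact this
    have h5 : pEl π • ((h : Co0)⁻¹ • e) = (h : Co0)⁻¹ • e := by
      rw [hj', mul_smul, mul_smul] at hfix
      exact (eq_inv_smul_iff.2 hfix)
    have h6 := h3 (h : Co0)⁻¹ (S.inv_mem h.2) h5
    rw [hmemM]
    rw [inv_smul_eq_iff] at h6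
    exact h6.symm
  · intro N hN hinf
    apply hD N hN
    rw [← hcM]
    exact card_mul_card_dvd_of_inf_eq_bot N M hinf

/-- the minimal vector `(-3, 1, ..., 1)`. -/
def x0 : leechLattice := s3 none

theorem x0_coe : ((x0 : leechLattice) : GolayPt → ℤ) = shp {none} ∅ := rfl

theorem sqNorm_x0 : sqNorm ((x0 : leechLattice) : GolayPt → ℤ) = 32 := by
  rw [x0_coe]; decide +kernel

theorem dot_x0 (x : GolayPt → ℤ) :
    dotInt ((x0 : leechLattice) : GolayPt → ℤ) x = -4 * x none + ∑ i, x i := by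
  rw [x0_coe]
  unfold dotInt shp
  have h : ∀ i : GolayPt, (if i ∈ ({none} : Finset GolayPt) then (-3 : ℤ) else
      if i ∈ (∅ : Finset GolayPt) then 5 else 1) * x i
      = (if i = none then -4 * x none else 0) + x i := by
    intro i
    by_cases hi : i = none
    · subst hi; simp; ring
    · simp [hi]
  simp only [h, Finset.sum_add_distrib]
  simp

theorem eq_E8_of_shift_fix' {y : leechLattice} (h : pEl shift24 • y = y)
    (hn : sqNorm (y : GolayPt → ℤ) = 64)
    (hd : dotInt ((x0 : leechLattice) : GolayPt → ℤ) (y : GolayPt → ℤ) = -24) : y = E8 none := by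
  have hc := const_of_shift_fix h
  set a := (y : GolayPt → ℤ) none with ha
  set b := (y : GolayPt → ℤ) (some 0) with hb
  have h1 : a ^ 2 + 23 * b ^ 2 = 64 := by
    rw [← hn]
    unfold sqNorm
    rw [Fintype.sum_option]
    simp only [hc]
    simp [ZMod.card, ha]
  have h2 : -3 * a + 23 * b = -24 := by
    rw [← hd, dot_x0, Fintype.sum_option]
    simp only [hc]
    simp [ZMod.card, ha]
    ring
  have hb1 : b ≤ 1 := by nlinarith [sq_nonneg a]
  have hb2 : -1 ≤ b := by nlinarith [sq_nonneg a]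
  have hb0 : b = 0 := by
    interval_cases b
    · exfalso
      have : a ^ 2 = 41 := by linarith
      have h3 : a ≤ 6 := by nlinarith
      have h4 : -6 ≤ a := by nlinarith
      interval_cases a <;> omega
    · rfl
    · exfalso
      have : a ^ 2 = 41 := by linarith
      have h3 : a ≤ 6 := by nlinarith
      have h4 : -6 ≤ a := by nlinarith
      interval_cases a <;> omega
  have ha8 : a = 8 := by rw [hb0] at h2; omega
  apply Subtype.ext
  rw [E8_coe]
  funext k
  cases k with
  | none => rw [Pi.single_eq_same]; exact ha8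
  | some i => rw [Pi.single_eq_of_ne (by simp), hc i]; exact hb0

theorem pEl_fix_x0 {σ : M24} (h1 : σ.1 none = none) :
    pEl σ • x0 = x0 ∧ pEl σ • E8 none = E8 none := by
  refine ⟨?_, (pEl_fix_u5 h1).2⟩
  have := pEl_s3 σ none
  rw [h1] at this
  exact this

theorem exists_pEl_x0 {g : Co0} (h1 : g • x0 = x0) (hE : g • E8 none = E8 none) :
    ∃ σ : M24, σ.1 none = none ∧ g = pEl σ := by
  obtain ⟨σ, c, rfl⟩ := exists_monoEl g (preserves_of_fix hE)
  have a1 := congrArg Subtype.val hE
  rw [monoEl_smul, E8_coe, signedPerm_single] at a1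
  have hσ : σ.1 none = none := by
    by_contra hne
    have a2 := congrFun a1 (σ.1 none)
    rw [Pi.single_eq_same, Pi.single_eq_of_ne hne] at a2
    split_ifs at a2 <;> omega
  have hc : c.1 = ∅ := by
    rw [Finset.eq_empty_iff_forall_notMem]
    intro k hk
    by_cases hkn : k = none
    · subst hkn
      have a2 := congrFun a1 none
      rw [hσ, Pi.single_eq_same, Pi.single_eq_same, if_pos hk] at a2
      omega
    · have b1 := congrFun (congrArg Subtype.val h1) k
      rw [monoEl_smul] at b1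
      unfold signedPerm at b1
      rw [if_pos hk, x0_coe] at b1
      have hk2 : σ.1.symm k ≠ none := by
        intro h
        apply hkn
        rw [← hσ, ← h, Equiv.apply_symm_apply]
      unfold shp at b1
      simp [hkn, hk2] at b1
  refine ⟨σ, hσ, ?_⟩
  unfold pEl
  congr 1
  exact Subtype.ext hc

theorem dot_x0_E8 : dotInt ((x0 : leechLattice) : GolayPt → ℤ) ((E8 none : leechLattice) : GolayPt → ℤ)
    = -24 := by
  rw [x0_coe, E8_coe]; decide +kernel

theorem co2_simple_std : IsSimpleGroup (MulAction.stabilizer Co0 x0) := by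
  haveI : Fact (Nat.Prime 23) := ⟨by norm_num⟩
  obtain ⟨g0, hg0⟩ := co0_trans32 vMinus x0 sqNorm_vMinus sqNorm_x0
  -- the Higman–Sims subgroup
  have e : ((g0 • u5 : leechLattice), (x0 : leechLattice)) = g0 • ((u5 : leechLattice), vMinus) := by
    rw [Prod.smul_mk, hg0]
  let E1 : H5 ≃* ↥(MulAction.stabilizer Co0 (g0 • u5) ⊓ MulAction.stabilizer Co0 x0) :=
    (MulEquiv.subgroupCongr (stabilizer_pairL u5 vMinus).symm).trans
      ((MulAction.stabilizerEquivStabilizer e).trans
        (MulEquiv.subgroupCongr (stabilizer_pairL _ _)))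
  let E2 := Subgroup.subgroupOfEquivOfLe
    (inf_le_right : MulAction.stabilizer Co0 (g0 • u5) ⊓ MulAction.stabilizer Co0 x0
      ≤ MulAction.stabilizer Co0 x0)
  haveI := hs_simple_std
  have hHs : IsSimpleGroup ↥((MulAction.stabilizer Co0 (g0 • u5) ⊓
      MulAction.stabilizer Co0 x0).subgroupOf (MulAction.stabilizer Co0 x0)) :=
    (E2.trans E1.symm).isSimpleGroup
  have hHc : Nat.card ↥((MulAction.stabilizer Co0 (g0 • u5) ⊓
      MulAction.stabilizer Co0 x0).subgroupOf (MulAction.stabilizer Co0 x0)) = 44352000 := by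
    rw [← card_H5]
    exact Nat.card_congr (E2.trans E1.symm).toEquiv
  apply simple_of_pEl' (MulAction.stabilizer Co0 x0) (E8 none)
    (MulAction.stabilizer M24 (none : GolayPt))
    (Cfsg.Agent.Lib.Helper3.M24S.m23_simple none) (p := 23)
    (fun σ hσ => pEl_fix_x0 hσ)
    (fun g hg hE => by
      obtain ⟨σ, h1, h2⟩ := exists_pEl_x0 hg hE
      exact ⟨σ, h1, h2⟩)
    shift24 (by rfl) orderOf_shift24
    (fun h hh hfix => by
      apply eq_E8_of_shift_fix' hfix
      · rw [co0_norm, sqNorm_E8]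
      · have h1 : h • x0 = x0 := hh
        have h2 := co0_dot h x0 (E8 none)
        rw [h1, dot_x0_E8] at h2
        exact h2)
    (by rw [card_stab32 x0 sqNorm_x0]; norm_num) (2 ^ 9 * 3 ^ 4 * 5 ^ 0)
  · intro N hN hdvd
    rw [card_stab32 x0 sqNorm_x0, Cfsg.Agent.Lib.Helper3.M24S.card_stabilizer] at hdvd
    have h1 : Nat.card N ∣ 4147200 := by
      have e1 : (42305421312000 : ℕ) = 4147200 * 10200960 := by norm_num
      rw [e1] at hdvd
      exact Nat.dvd_of_mul_dvd_mul_right (by norm_num) hdvd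
    have h2 : Nat.card N ∣ 953856 := by
      rcases inf_eq_bot_or_le N _ hHs with h | h
      · have h3 := card_mul_card_dvd_of_inf_eq_bot N _ h
        rw [hHc, card_stab32 x0 sqNorm_x0] at h3
        have e1 : (42305421312000 : ℕ) = 953856 * 44352000 := by norm_num
        rw [e1] at h3
        exact Nat.dvd_of_mul_dvd_mul_right (by norm_num) h3
      · exfalso
        have h3 := Subgroup.card_dvd_of_le h
        rw [hHc] at h3
        exact absurd (h3.trans h1) (by norm_num)
    have h3 := Nat.dvd_gcd h1 h2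
    have e2 : Nat.gcd 4147200 953856 = 2 ^ 9 * 3 ^ 4 * 5 ^ 0 := by norm_num
    rwa [e2] at h3
  · intro r k hr hk hd
    rcases prime_pow_cases hr hd hk with ⟨rfl, hk'⟩ | ⟨rfl, hk'⟩ | ⟨rfl, hk'⟩ <;>
      interval_cases k <;> norm_num

theorem co2_simple (v : leechLattice) (hv : sqNorm (v : GolayPt → ℤ) = 32) :
    IsSimpleGroup (MulAction.stabilizer Co0 v) := by
  obtain ⟨g, hg⟩ := co0_trans32 v x0 hv sqNorm_x0
  haveI := co2_simple_std
  exact (MulAction.stabilizerEquivStabilizer hg.symm).isSimpleGroup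

end Cfsg.Agent.Lib.Helper28
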