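import Cfsg.Agent.Lib.Helper28.LeechHS2
import Cfsg.Agent.Lib.Helper28.LeechCenter
import Cfsg.Agent.Lib.Helper28.LeechMod2

/-!
A fixed-point-free involution of the Higman–Sims group on its 100 points: the sign change on a dodecad.
-/

set_option autoImplicit false

namespace Cfsg.Agent.Lib.Helper28

open Cfsg
open scoped Pointwise

def Dq : Finset GolayPt := un 340831

theorem Dq_mem : Dq ∈ GC := qr_mem_GC

def vq : leechLattice := chi2 ⟨Dqᶜ, gc_compl Dq_mem⟩

def wq : leechLattice := aP (some 5) - vq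

def gq : Co0 := signCo0 Dq Dq_mem

theorem vq_coe : ((vq : leechLattice) : GolayPt → ℤ) = fun i => 2 * chi Dqᶜ i := rfl

theorem wq_coe : ((wq : leechLattice) : GolayPt → ℤ) =
    ((Pi.single none 4 : GolayPt → ℤ) + Pi.single (some 5) 4) - fun i => 2 * chi Dqᶜ i := rfl

theorem norm_vq : sqNorm ((vq : leechLattice) : GolayPt → ℤ) = 48 := by
  rw [vq_coe]; decide +kernel

theorem norm_wq : sqNorm ((wq : leechLattice) : GolayPt → ℤ) = 48 := by
  rw [wq_coe]; decide +kernel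

theorem dot_vq_wq : dotInt ((vq : leechLattice) : GolayPt → ℤ)
    ((wq : leechLattice) : GolayPt → ℤ) = -32 := by
  rw [vq_coe, wq_coe]; decide +kernel

theorem gq_smul (v : leechLattice) (i : GolayPt) : ((gq • v : leechLattice) : GolayPt → ℤ) i
      = if i ∈ Dq then -(v : GolayPt → ℤ) i else (v : GolayPt → ℤ) i := rfl

theorem gq_vq : gq • vq = vq := by
  apply Subtype.ext
  funext i
  rw [gq_smul, vq_coe]
  revert i
  decide +kernel

theorem gq_wq : gq • wq = wq := by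
  apply Subtype.ext
  funext i
  rw [gq_smul, wq_coe]
  revert i
  decide +kernel

theorem gq_sq : gq * gq = 1 := by
  apply Subtype.ext
  apply Equiv.ext
  intro v
  apply Subtype.ext
  funext i
  show ((gq • (gq • v) : leechLattice) : GolayPt → ℤ) i = (v : GolayPt → ℤ) i
  rw [gq_smul, gq_smul]
  by_cases h : i ∈ Dq <;> simp [h]

theorem gq_ne : gq ≠ 1 := by
  intro h
  have h1 : gq • chi2 ⟨Dq, Dq_mem⟩ = chi2 ⟨Dq, Dq_mem⟩ := by rw [h, one_smul]
  have h2 := congrFun (congrArg Subtype.val h1) (some 0)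
  have h3 : (if (some 0 : GolayPt) ∈ Dq then -(2 * chi Dq (some 0)) else 2 * chi Dq (some 0)) =
      2 * chi Dq (some 0) := h2
  exact absurd h3 (by decide +kernel)

theorem orderOf_gq : orderOf gq = 2 :=
  orderOf_eq_prime (by rw [pow_two, gq_sq]) gq_ne

theorem Dqc_card : (Dqᶜ : Finset GolayPt).card = 12 := by decide +kernel

theorem zero_mem_Dq : (some 0 : GolayPt) ∈ Dq := by decide +kernel

theorem no_fix (x : leechLattice) (hn : sqNorm (x : GolayPt → ℤ) = 32)
    (hdot : dotInt (vq : GolayPt → ℤ) (x : GolayPt → ℤ) = 24) : gq • x ≠ x := by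
  intro hfix
  have hzero : ∀ i ∈ Dq, (x : GolayPt → ℤ) i = 0 := by
    intro i hi
    have h2 := congrFun (congrArg Subtype.val hfix) i
    rw [gq_smul, if_pos hi] at h2
    omega
  obtain ⟨m, hm, -, hcls⟩ := mem_leechSet_iff.1 (mem_leechLattice_iff.1 x.2)
  have hm0 : m % 2 = 0 := by
    have := hm (some 0)
    rw [hzero _ zero_mem_Dq] at this
    have h' : (0 : ℤ) % 2 = m % 2 := this
    omega
  have heven : ∀ i, (x : GolayPt → ℤ) i % 2 = 0 := by
    intro i
    have h' : (x : GolayPt → ℤ) i % 2 = m % 2 := hm i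
    omega
  have hc2 := hcls 2
  have hsub : cls (x : GolayPt → ℤ) 2 ⊆ Dqᶜ := by
    intro i hi
    rw [Finset.mem_compl]
    intro hiD
    have h' : (x : GolayPt → ℤ) i % 4 = 2 % 4 := mem_cls.1 hi
    rw [hzero i hiD] at h'
    omega
  have hS : ∑ i, chi Dqᶜ i * (x : GolayPt → ℤ) i = 12 := by
    have h1 : dotInt (vq : GolayPt → ℤ) (x : GolayPt → ℤ) =
        2 * ∑ i, chi Dqᶜ i * (x : GolayPt → ℤ) i := by
      rw [vq_coe, Finset.mul_sum]
      unfold dotInt
      refine Finset.sum_congr rfl fun i _ => ?_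
      ring
    omega
  have hle := Finset.card_le_card hsub
  rw [Dqc_card] at hle
  unfold sqNorm at hn
  rcases gc_card_cases hc2 with h | h | h | h | h
  · have hemp : cls (x : GolayPt → ℤ) 2 = ∅ := Finset.card_eq_zero.1 h
    have h4 : ∀ i, (x : GolayPt → ℤ) i % 4 = 0 := by
      intro i
      have h1 : i ∉ cls (x : GolayPt → ℤ) 2 := by rw [hemp]; simp
      have h2 : ¬ ((x : GolayPt → ℤ) i % 4 = 2 % 4) := fun h' => h1 (mem_cls.2 h')
      have := heven i
      omega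
    have hpt : ∀ i, 4 * (chi Dqᶜ i * (x : GolayPt → ℤ) i) ≤ (x : GolayPt → ℤ) i ^ 2 := by
      intro i
      have h1 : (x : GolayPt → ℤ) i ≤ 0 ∨ 4 ≤ (x : GolayPt → ℤ) i := by
        have := h4 i
        omega
      unfold chi
      by_cases hi : i ∈ Dqᶜ
      · rw [if_pos hi]
        rcases h1 with h1 | h1 <;> nlinarith
      · rw [if_neg hi]
        nlinarith [sq_nonneg ((x : GolayPt → ℤ) i)]
    have hsum := Finset.sum_le_sum (fun i (_ : i ∈ Finset.univ) => hpt i)
    rw [← Finset.mul_sum, hS, hn] at hsum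
    omega
  · have h1 : symmDiff (cls (x : GolayPt → ℤ) 2) Dqᶜ ∈ GC := gc_symmDiff hc2 (gc_compl Dq_mem)
    have h2 : symmDiff (cls (x : GolayPt → ℤ) 2) Dqᶜ = Dqᶜ \ cls (x : GolayPt → ℤ) 2 :=
      symmDiff_of_le hsub
    have h3 : (symmDiff (cls (x : GolayPt → ℤ) 2) Dqᶜ).card = 4 := by
      rw [h2, Finset.card_sdiff_of_subset hsub, Dqc_card, h]
    rcases gc_card_cases h1 with h' | h' | h' | h' | h' <;> omega
  · have heq : cls (x : GolayPt → ℤ) 2 = Dqᶜ :=
      Finset.eq_of_subset_of_card_le hsub (by rw [Dqc_card, h])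
    have hpt : ∀ i, 4 * chi Dqᶜ i ≤ (x : GolayPt → ℤ) i ^ 2 := by
      intro i
      unfold chi
      by_cases hi : i ∈ Dqᶜ
      · rw [if_pos hi]
        have h' : (x : GolayPt → ℤ) i % 4 = 2 % 4 := mem_cls.1 (by rw [heq]; exact hi)
        have h1 : (x : GolayPt → ℤ) i ≤ -2 ∨ 2 ≤ (x : GolayPt → ℤ) i := by omega
        rcases h1 with h1 | h1 <;> nlinarith
      · rw [if_neg hi]
        nlinarith [sq_nonneg ((x : GolayPt → ℤ) i)]
    have hsum := Finset.sum_le_sum (fun i (_ : i ∈ Finset.univ) => hpt i)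
    rw [← Finset.mul_sum, sum_chi, Dqc_card, hn] at hsum
    omega
  · omega
  · omega

theorem hs_fpf (v w : leechLattice) (hv : sqNorm (v : GolayPt → ℤ) = 48)
    (hw : sqNorm (w : GolayPt → ℤ) = 48)
    (hvw : dotInt (v : GolayPt → ℤ) (w : GolayPt → ℤ) = -32) :
    ∃ g : Co0, g • v = v ∧ g • w = w ∧ orderOf g = 2 ∧
      ∀ x : leechLattice, sqNorm (x : GolayPt → ℤ) = 32 →
        dotInt (v : GolayPt → ℤ) (x : GolayPt → ℤ) = 24 → g • x ≠ x := by
  obtain ⟨g0, a0, b0⟩ := exists_to_std v w hv hw hvw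
  obtain ⟨g1, a1, b1⟩ := exists_to_std vq wq norm_vq norm_wq dot_vq_wq
  have kv : (g1⁻¹ * g0) • v = vq := by rw [mul_smul, a0, ← a1, inv_smul_smul]
  have kw : (g1⁻¹ * g0) • w = wq := by rw [mul_smul, b0, ← b1, inv_smul_smul]
  generalize g1⁻¹ * g0 = k at kv kw
  refine ⟨k⁻¹ * gq * k, ?_, ?_, ?_, ?_⟩
  · rw [mul_smul, mul_smul, kv, gq_vq, ← kv, inv_smul_smul]
  · rw [mul_smul, mul_smul, kw, gq_wq, ← kw, inv_smul_smul]
  · have := (MulAut.conj k⁻¹).orderOf_eq gq
    rw [orderOf_gq, MulAut.conj_apply, inv_inv] at this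
    exact this
  · intro x hx1 hx2 hfix
    apply no_fix (k • x) (by rw [co0_norm]; exact hx1) (by rw [← kv, co0_dot]; exact hx2)
    have h1 : k • ((k⁻¹ * gq * k) • x) = k • x := by rw [hfix]
    rwa [mul_smul, mul_smul, smul_inv_smul] at h1

end Cfsg.Agent.Lib.Helper28
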