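import Cfsg.Agent.Lib.Helper28.LeechIndex
import Cfsg.Agent.Lib.Helper28.LeechMono

/-!
A totally singular subgroup of index `2 ^ 12` in the lattice.
-/

set_option autoImplicit false

namespace Cfsg.Agent.Lib.Helper28

open Cfsg

/-- the vectors of the lattice all of whose coordinates are congruent to `0`, or all to `2`, modulo 4. -/
def Asub : AddSubgroup (GolayPt → ℤ) where
  carrier := {x | x ∈ leechLattice ∧ ((∀ i, x i % 4 = 0) ∨ (∀ i, x i % 4 = 2))}
  add_mem' := by
    rintro x y ⟨hx, hx'⟩ ⟨hy, hy'⟩
    refine ⟨leechLattice.add_mem hx hy, ?_⟩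
    rcases hx' with h | h <;> rcases hy' with h' | h'
    · left; intro i; have := h i; have := h' i; rw [Pi.add_apply]; omega
    · right; intro i; have := h i; have := h' i; rw [Pi.add_apply]; omega
    · right; intro i; have := h i; have := h' i; rw [Pi.add_apply]; omega
    · left; intro i; have := h i; have := h' i; rw [Pi.add_apply]; omega
  zero_mem' := ⟨leechLattice.zero_mem, Or.inl fun i => by simp⟩
  neg_mem' := by
    rintro x ⟨hx, hx'⟩
    refine ⟨leechLattice.neg_mem hx, ?_⟩
    rcases hx' with h | h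
    · left; intro i; have := h i; rw [Pi.neg_apply]; omega
    · right; intro i; have := h i; rw [Pi.neg_apply]; omega

theorem mem_Asub {x : GolayPt → ℤ} : x ∈ Asub ↔
    x ∈ leechLattice ∧ ((∀ i, x i % 4 = 0) ∨ (∀ i, x i % 4 = 2)) := Iff.rfl

theorem Asub_le : Asub ≤ leechLattice := fun _ hx => hx.1

theorem two_smul_mem_Asub {v : GolayPt → ℤ} (hv : v ∈ leechLattice) : (2 : ℤ) • v ∈ Asub := by
  refine ⟨leechLattice.zsmul_mem hv 2, ?_⟩
  obtain ⟨m, hm, _⟩ := mem_leechSet_iff.1 (mem_leechLattice_iff.1 hv)
  rcases Int.emod_two_eq_zero_or_one m with h | h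
  · left; intro i
    have := hm i
    unfold Int.ModEq at this
    simp only [Pi.smul_apply, smul_eq_mul]; omega
  · right; intro i
    have := hm i
    unfold Int.ModEq at this
    simp only [Pi.smul_apply, smul_eq_mul]; omega

theorem dvd_sqNorm_Asub {v : GolayPt → ℤ} (hv : v ∈ Asub) : (32 : ℤ) ∣ sqNorm v := by
  obtain ⟨hL, h⟩ := hv
  obtain ⟨m, hm, hs, _⟩ := mem_leechSet_iff.1 (mem_leechLattice_iff.1 hL)
  have hm0 : m % 2 = 0 := by
    have h1 := hm none
    unfold Int.ModEq at h1
    rcases h with h | h <;> have := h none <;> omega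
  have h8 : (∑ i, v i) % 8 = 0 := by
    unfold Int.ModEq at hs; omega
  have hsq := sum_sq_modEq_sum (fun i => v i / 4)
  unfold Int.ModEq at hsq
  rcases h with h | h
  · have e1 : ∑ i, v i = 4 * ∑ i, v i / 4 := by
      rw [Finset.mul_sum]
      refine Finset.sum_congr rfl fun i _ => ?_
      have := h i; omega
    have e2 : sqNorm v = 16 * ∑ i, (v i / 4) ^ 2 := by
      unfold sqNorm
      rw [Finset.mul_sum]
      refine Finset.sum_congr rfl fun i _ => ?_
      have : v i = 4 * (v i / 4) := by have := h i; omega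
      conv_lhs => rw [this]
      ring
    rw [e2]; omega
  · have e1 : ∑ i, v i = 48 + 4 * ∑ i, v i / 4 := by
      have : ∑ i, v i = ∑ i : GolayPt, (2 + 4 * (v i / 4)) := by
        refine Finset.sum_congr rfl fun i _ => ?_
        have := h i; omega
      rw [this, Finset.sum_add_distrib, ← Finset.mul_sum]
      simp
    have e2 : sqNorm v = 96 + 16 * ∑ i, v i / 4 + 16 * ∑ i, (v i / 4) ^ 2 := by
      unfold sqNorm
      have : ∑ i, v i ^ 2 = ∑ i : GolayPt, (4 + 16 * (v i / 4) + 16 * (v i / 4) ^ 2) := by
        refine Finset.sum_congr rfl fun i _ => ?_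
        have : v i = 2 + 4 * (v i / 4) := by have := h i; omega
        conv_lhs => rw [this]
        ring
      rw [this, Finset.sum_add_distrib, Finset.sum_add_distrib, ← Finset.mul_sum, ← Finset.mul_sum]
      simp
    rw [e2]; omega

theorem card_map_Asub : Nat.card (Asub.map (redMod 4)) = 2 := by
  have h : ((Asub.map (redMod 4) : AddSubgroup (GolayPt → ZMod 4)) : Set (GolayPt → ZMod 4))
      = ↑({0, fun _ => 2} : Finset (GolayPt → ZMod 4)) := by
    ext y
    simp only [AddSubgroup.coe_map, Set.mem_image, SetLike.mem_coe, Finset.coe_insert,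
      Finset.coe_singleton, Set.mem_insert_iff, Set.mem_singleton_iff]
    constructor
    · rintro ⟨x, ⟨_, hx⟩, rfl⟩
      rcases hx with h | h
      · left; funext i
        rw [redMod_apply, Pi.zero_apply, ZMod.intCast_zmod_eq_zero_iff_dvd]
        have := h i; push_cast; omega
      · right; funext i
        rw [redMod_apply]
        have e : ((2 : ℤ) : ZMod 4) = 2 := by norm_num
        rw [← e, ZMod.intCast_eq_intCast_iff]
        have := h i
        unfold Int.ModEq; push_cast; omega
    · rintro (rfl | rfl)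
      · exact ⟨0, Asub.zero_mem, by simp⟩
      · refine ⟨fun i => 2 * chi Finset.univ i, ⟨two_chi_mem gc_univ, Or.inr fun i => by simp [chi]⟩, ?_⟩
        funext i
        rw [redMod_apply]
        simp [chi]
  have h2 : Nat.card (Asub.map (redMod 4))
      = ((Asub.map (redMod 4) : AddSubgroup (GolayPt → ZMod 4)) : Set (GolayPt → ZMod 4)).ncard := rfl
  rw [h2, h, Set.ncard_coe_finset, Finset.card_pair]
  intro h0
  have := congrFun h0 none
  revert this
  decide

theorem relIndex_Asub : Asub.relIndex leechLattice = 2 ^ 12 := by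
  have h1 := AddSubgroup.relIndex_mul_relIndex ((redMod 4).ker ⊓ Asub) Asub leechLattice
    inf_le_right Asub_le
  have e : (redMod 4).ker ⊓ Asub = (redMod 4).ker ⊓ leechLattice := by
    ext x
    simp only [AddSubgroup.mem_inf, mem_ker_redMod, mem_Asub]
    constructor
    · rintro ⟨a, b, _⟩; exact ⟨a, b⟩
    · rintro ⟨a, b⟩
      refine ⟨a, b, Or.inl fun i => ?_⟩
      have := a i; push_cast at this; omega
  rw [AddSubgroup.inf_relIndex_right, AddSubgroup.relIndex_ker, card_map_Asub, e,
    AddSubgroup.inf_relIndex_right, AddSubgroup.relIndex_ker, card_map_redMod4] at h1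
  omega

end Cfsg.Agent.Lib.Helper28
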