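import Cfsg.Agent.Lib.Helper28.LeechNormal2

/-!
`Co0` modulo its centre is simple.
-/

set_option autoImplicit false

namespace Cfsg.Agent.Lib.Helper28

open Cfsg
open scoped Pointwise

theorem normal_eq_top (K : Subgroup Co0) [hK : K.Normal] (hneg : negCo0 ∈ K)
    (hnc : ¬ ∀ k ∈ K, k = 1 ∨ k = negCo0) : K = ⊤ := by
  have htr := (normal_central_or_trans K).resolve_left hnc
  have hK1 : Nat.card K = Nat.card ↥(K ⊓ MulAction.stabilizer Co0 vMinus) * 196560 := by
    have h1 := card_eq_stab_mul K vMinus (orbK K) (fun y => Iff.rfl)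
    have h2 : orbK K = {y : leechLattice | sqNorm (y : GolayPt → ℤ) = 32} := by
      ext y
      exact ⟨fun h => orbK_norm K h, fun h => htr y h⟩
    rw [h2, ← ncard_val (fun x => sqNorm x = 32), ncard_norm32] at h1
    exact h1
  obtain ⟨hK2, hdv⟩ := orbit_dvd K ((1 : Co0) : Co0 ⧸ Nsub)
    {y | ∃ k ∈ K, k • ((1 : Co0) : Co0 ⧸ Nsub) = y} (fun y => Iff.rfl)
  rw [MulAction.stabilizer_quotient] at hK2 hdv
  set m := {y | ∃ k ∈ K, k • ((1 : Co0) : Co0 ⧸ Nsub) = y}.ncard with hm
  have hm' : m ∣ 8292375 := by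
    rw [card_Nsub, card_Co0] at hdv
    have e : (8315553613086720000 : ℕ) = 4096 * 244823040 * 8292375 := by norm_num
    rw [e] at hdv
    exact Nat.dvd_of_mul_dvd_mul_left (by norm_num) hdv
  -- a non-central monomial element
  have hx : ∃ x ∈ K ⊓ Nsub, x ≠ 1 ∧ x ≠ negCo0 := by
    by_contra hcon
    push Not at hcon
    have hle : K ⊓ Nsub ≤ Subgroup.center Co0 := by
      intro x hx
      by_cases h1 : x = 1
      · rw [h1]; exact Subgroup.one_mem _
      · rw [hcon x hx h1]; exact negCo0_mem_center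
    have h2 := Subgroup.card_dvd_of_le hle
    rw [card_center_Co0] at h2
    have h3 : Nat.card K ∣ 2 * 8292375 := by rw [hK2]; exact mul_dvd_mul h2 hm'
    have h4 : 196560 ∣ Nat.card K := by rw [hK1]; exact Dvd.intro_left _ rfl
    exact absurd (h4.trans h3) (by decide)
  -- a non-central sign change
  have hs : ∃ c, ∃ hc : c ∈ GC, signCo0 c hc ∈ K ∧ c ≠ ∅ ∧ c ≠ Finset.univ := by
    obtain ⟨x, ⟨hxK, hxN⟩, hx1, hx2⟩ := hx
    obtain ⟨σ, c, rfl⟩ := exists_monoEl x hxN
    by_cases hσ : σ = 1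
    · subst hσ
      rw [monoEl_one] at hxK hx1 hx2
      refine ⟨c.1, c.2, hxK, ?_, ?_⟩
      · intro h
        exact hx1 ((sign_congr h c.2 gc_empty).trans sign_empty)
      · intro h
        exact hx2 (sign_congr h c.2 gc_univ)
    · obtain ⟨i, hi⟩ : ∃ i, σ.1 i ≠ i := by
        by_contra hcon
        push Not at hcon
        exact hσ (Subtype.ext (Equiv.ext hcon))
      obtain ⟨d, hd, h1, h2, h12⟩ := exists_sep' hi
      have hmem : monoEl σ c * (signCo0 d hd * (monoEl σ c)⁻¹ * (signCo0 d hd)⁻¹) ∈ K :=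
        K.mul_mem hxK (hK.conj_mem _ (K.inv_mem hxK) _)
      have e : monoEl σ c * (signCo0 d hd * (monoEl σ c)⁻¹ * (signCo0 d hd)⁻¹)
          = (monoEl σ c * signCo0 d hd * (monoEl σ c)⁻¹) * (signCo0 d hd)⁻¹ := by group
      rw [e, mono_conj_sign, sign_inv, sign_mul_sign] at hmem
      refine ⟨_, _, hmem, ?_, ?_⟩
      · intro h
        have h3 : σ.1 i ∈ symmDiff (σ.1 • d) d := by
          rw [Finset.mem_symmDiff]
          exact Or.inl ⟨(mem_smul_finset_iff σ.1 d i).2 h1, h2⟩
        rw [h] at h3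
        exact absurd h3 (Finset.notMem_empty _)
      · intro h
        have h3 : σ.1 • d = dᶜ := by
          ext p
          have h4 := Finset.ext_iff.1 h p
          simp only [Finset.mem_symmDiff, Finset.mem_univ, iff_true] at h4
          rw [Finset.mem_compl]
          tauto
        have h5 := congrArg Finset.card h3
        rw [Finset.card_smul_finset, Finset.card_compl, card_golayPt] at h5
        have h6 : d.card ≤ 24 := by
          have := Finset.card_le_univ d
          rwa [card_golayPt] at this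
        omega
  -- all sign changes
  have hE : ∀ c, ∀ hc : c ∈ GC, signCo0 c hc ∈ K := by
    intro c hc
    have h := golay_irreducible {c | ∃ hc : c ∈ GC, signCo0 c hc ∈ K}
      (by
        rintro s ⟨hs1, hs2⟩ t ⟨ht1, ht2⟩
        exact ⟨gc_symmDiff hs1 ht1, by rw [← sign_mul_sign s t hs1 ht1]; exact K.mul_mem hs2 ht2⟩)
      ⟨gc_univ, hneg⟩
      (by
        rintro σ hσ s ⟨hs1, hs2⟩
        exact ⟨gc_smul hσ hs1, by rw [← perm_conj_sign σ hσ s hs1]; exact hK.conj_mem _ hs2 _⟩)
      (by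
        rintro s ⟨hs1, _⟩
        exact (mem_supports_iff s).1 hs1)
      (by
        obtain ⟨c, hc, h1, h2, h3⟩ := hs
        exact ⟨c, ⟨hc, h1⟩, h2, h3⟩)
      c ((mem_supports_iff c).1 hc)
    obtain ⟨_, h2⟩ := h
    exact h2
  have hsimple := Cfsg.Agent.Lib.Helper3.M24S.m24_simple
  have hnorm : (K.comap permHom).Normal := hK.comap permHom
  rcases hnorm.eq_bot_or_eq_top with hbot | htop
  · exfalso
    have hle : K ⊓ Nsub ≤ Esub := by
      rintro x ⟨hxK, hxN⟩
      obtain ⟨σ, c, rfl⟩ := exists_monoEl x hxN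
      have h1 : permCo0 σ.1 σ.2 ∈ K := by
        have h2 : permCo0 σ.1 σ.2 = (signCo0 c.1 c.2)⁻¹ * monoEl σ c := by
          unfold monoEl; group
        rw [h2]
        exact K.mul_mem (K.inv_mem (hE _ _)) hxK
      have h3 : σ ∈ K.comap permHom := h1
      rw [hbot, Subgroup.mem_bot] at h3
      rw [h3, monoEl_one]
      exact ⟨c.1, c.2, trivial, rfl⟩
    have h2 := Subgroup.card_dvd_of_le hle
    rw [card_Esub] at h2
    have h3 : Nat.card K ∣ 4096 * 8292375 := by rw [hK2]; exact mul_dvd_mul h2 hm'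
    have hle2 : E0sub ≤ K ⊓ MulAction.stabilizer Co0 vMinus := by
      intro g hg
      refine ⟨?_, E0sub_fix hg⟩
      obtain ⟨c, hc, _, rfl⟩ := hg
      exact hE c hc
    have h4 := Subgroup.card_dvd_of_le hle2
    rw [card_E0sub] at h4
    have h5 : 1024 * 196560 ∣ Nat.card K := by rw [hK1]; exact mul_dvd_mul h4 (dvd_refl _)
    exact absurd (h5.trans h3) (by decide)
  · have hP : ∀ σ, ∀ hσ : σ ∈ M24, permCo0 σ hσ ∈ K := by
      intro σ hσ
      have : (⟨σ, hσ⟩ : M24) ∈ K.comap permHom := by rw [htop]; exact Subgroup.mem_top _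
      exact this
    have hN : Nsub ≤ K := by
      intro x hx
      obtain ⟨σ, c, rfl⟩ := exists_monoEl x hx
      exact K.mul_mem (hE _ _) (hP _ _)
    have hidx : K.index ∣ 8292375 := by
      rw [← index_Nsub]; exact Subgroup.index_dvd_of_le hN
    have hodd : K.index % 2 = 1 := by
      by_contra hcon
      have h0 : K.index % 2 = 0 := by omega
      exact absurd ((Nat.dvd_of_mod_eq_zero h0).trans hidx) (by decide)
    have hxi : xiCo0 ∈ K := by
      have h1 := K.pow_index_mem xiCo0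
      have h2 : K.index = 2 * (K.index / 2) + 1 := by omega
      rw [h2, pow_succ, pow_mul, pow_two, xi_mul_xi, one_pow, one_mul] at h1
      exact h1
    rw [eq_top_iff, ← GenBy.genSub_eq_top]
    unfold GenBy.genSub
    rw [Subgroup.closure_le]
    rintro g ((⟨σ, hσ, rfl⟩ | ⟨c, hc, rfl⟩) | rfl)
    · exact hP σ hσ
    · exact hE c hc
    · exact hxi

end Cfsg.Agent.Lib.Helper28
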