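import Cfsg.Agent.Lib.Helper28.LeechMod2

/-!
The invariant quadratic form on the lattice modulo twice the lattice.
-/

set_option autoImplicit false

namespace Cfsg.Agent.Lib.Helper28

open Cfsg

/-- auxiliary vectors. -/
def qP : GolayPt → ℤ := (Pi.single none 4 : GolayPt → ℤ) + Pi.single (some 0) 4
def qM : GolayPt → ℤ := (Pi.single none 4 : GolayPt → ℤ) - Pi.single (some 0) 4
def qW : GolayPt → ℤ := (Pi.single (some 1) 4 : GolayPt → ℤ) - Pi.single none 4
def qO : GolayPt → ℤ := fun i => -(2 * chi (un 13938692) i)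

theorem q_mem : inL qP = true ∧ inL qM = true ∧ inL qW = true ∧ inL qO = true := by decide +kernel

theorem q_facts1 : sqNorm qP = 32 ∧ sqNorm qM = 32 ∧ sqNorm qW = 32 ∧ sqNorm (qP + qM) = 64 ∧
    sqNorm (qP + qW) = 32 ∧ sqNorm (qM + qW) = 32 ∧ sqNorm (qP + qM + qW) = 32 := by decide +kernel

theorem q_facts2 : sqNorm qO = 32 ∧ sqNorm (qP + qO) = 48 ∧ sqNorm (qM + qO) = 48 ∧
    sqNorm (qP + qM + qO) = 64 := by decide +kernel

theorem cast_even {k : ℤ} (h : k % 2 = 0) : ((k : ℤ) : ZMod 2) = 0 := by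
  rw [ZMod.intCast_zmod_eq_zero_iff_dvd]; push_cast; omega

theorem cast_odd {k : ℤ} (h : k % 2 = 1) : ((k : ℤ) : ZMod 2) = 1 := by
  have : ((k : ℤ) : ZMod 2) = ((1 : ℤ) : ZMod 2) := by
    rw [ZMod.intCast_eq_intCast_iff]; unfold Int.ModEq; push_cast; omega
  rw [this]; norm_num

theorem quad_unique (Q : leechLattice → ZMod 2)
    (hcoset : ∀ v w : leechLattice, Q (v + (w + w)) = Q v)
    (hquad : ∀ u v w : leechLattice, Q (u + v + w) + Q u + Q v + Q w
      = Q (u + v) + Q (u + w) + Q (v + w))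
    (hinv : ∀ (g : Co0) (v : leechLattice), Q (g • v) = Q v) (hne : ∃ v : leechLattice, Q v ≠ 0)
    (v : leechLattice) : Q v = ((sqNorm (v : GolayPt → ℤ) / 16 : ℤ) : ZMod 2) := by
  have h32 : ∀ x y : leechLattice, sqNorm (x : GolayPt → ℤ) = 32 → sqNorm (y : GolayPt → ℤ) = 32 →
      Q x = Q y := by
    intro x y hx hy
    obtain ⟨g, hg⟩ := co0_trans32 x y hx hy
    rw [← hg, hinv]
  have h48 : ∀ x y : leechLattice, sqNorm (x : GolayPt → ℤ) = 48 → sqNorm (y : GolayPt → ℤ) = 48 →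
      Q x = Q y := by
    intro x y hx hy
    obtain ⟨g, hg⟩ := co0_trans48 x y hx hy
    rw [← hg, hinv]
  have h64 : ∀ x y : leechLattice, sqNorm (x : GolayPt → ℤ) = 64 → sqNorm (y : GolayPt → ℤ) = 64 →
      Q x = Q y := by
    intro x y hx hy
    obtain ⟨g, hg⟩ := co0_trans64 x y hx hy
    rw [← hg, hinv]
  obtain ⟨mP, mM, mW, mO⟩ := q_mem
  obtain ⟨n1, n2, n3, n4, n5, n6, n7⟩ := q_facts1
  obtain ⟨k1, k2, k3, k4⟩ := q_facts2
  let P : leechLattice := ⟨qP, mem_of_inL mP⟩
  let M : leechLattice := ⟨qM, mem_of_inL mM⟩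
  let W : leechLattice := ⟨qW, mem_of_inL mW⟩
  let O : leechLattice := ⟨qO, mem_of_inL mO⟩
  have hz : Q 0 = 0 := by
    have := hquad 0 0 0
    simp only [add_zero] at this
    revert this
    generalize Q 0 = a
    revert a
    decide
  -- the value on vectors of norm 64
  have a4 : Q (P + M) = 0 := by
    have := hquad P M W
    rw [h32 (P + M + W) P n7 n1, h32 M P n2 n1, h32 W P n3 n1, h32 (P + W) P n5 n1,
      h32 (M + W) P n6 n1] at this
    revert this
    generalize Q P = a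
    generalize Q (P + M) = b
    revert a b
    decide
  have a2 : Q P = 0 := by
    have := hquad P M O
    rw [h64 (P + M + O) (P + M) k4 n4, h32 M P n2 n1, h32 O P k1 n1,
      h48 (M + O) (P + O) k3 k2, a4] at this
    revert this
    generalize Q P = a
    generalize Q (P + O) = b
    revert a b
    decide
  -- reduction to short vectors
  have hred : ∀ x : leechLattice, ∃ y : leechLattice, Q x = Q y ∧
      ((y = 0 ∧ (sqNorm (x : GolayPt → ℤ) / 16) % 2 = 0) ∨
       (sqNorm (y : GolayPt → ℤ) = 32 ∧ (sqNorm (x : GolayPt → ℤ) / 16) % 2 = 0) ∨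
       (sqNorm (y : GolayPt → ℤ) = 48 ∧ (sqNorm (x : GolayPt → ℤ) / 16) % 2 = 1) ∨
       (sqNorm (y : GolayPt → ℤ) = 64 ∧ (sqNorm (x : GolayPt → ℤ) / 16) % 2 = 0)) := by
    intro x
    obtain ⟨y, hy, hcase, z, hz, hxy⟩ := leechShort.main.2 x x.2
    have e1 : x = (⟨y, hy⟩ : leechLattice) + ((⟨z, hz⟩ : leechLattice) + ⟨z, hz⟩) := by
      apply Subtype.ext
      show (x : GolayPt → ℤ) = y + (z + z)
      rw [← two_smul ℤ z, ← hxy]; abel
    have e2 : sqNorm (x : GolayPt → ℤ) = sqNorm y + 4 * sqNorm z + 4 * dotInt y z := by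
      have : (x : GolayPt → ℤ) = y + 2 • z := by
        rw [← two_zsmul_eq, ← hxy]; abel
      rw [this, sqNorm_add, sqNorm_two_smul]
      have : dotInt y (2 • z) = 2 * dotInt y z := by
        unfold dotInt
        rw [Finset.mul_sum]
        refine Finset.sum_congr rfl fun i _ => ?_
        simp only [Pi.smul_apply, nsmul_eq_mul]; push_cast; ring
      rw [this]; ring
    have d1 := sixteen_dvd_sqNorm hz
    have d2 := eight_dvd_dotInt hy hz
    refine ⟨⟨y, hy⟩, by conv_lhs => rw [e1, hcoset], ?_⟩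
    rcases hcase with h | h | h | h
    · left
      refine ⟨Subtype.ext h, ?_⟩
      have : sqNorm y = 0 := sqNorm_eq_zero.2 h
      omega
    · right; left; exact ⟨by rw [h]; norm_num, by omega⟩
    · right; right; left; exact ⟨by rw [h]; norm_num, by omega⟩
    · right; right; right; exact ⟨by rw [h]; norm_num, by omega⟩
  -- the value on vectors of norm 48
  have a3 : Q (P + O) = 1 := by
    obtain ⟨x, hx⟩ := hne
    obtain ⟨y, hy, hc⟩ := hred x
    rcases hc with ⟨h, _⟩ | ⟨h, _⟩ | ⟨h, _⟩ | ⟨h, _⟩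
    · rw [hy, h, hz] at hx; exact absurd rfl hx
    · rw [hy, h32 y P h n1, a2] at hx; exact absurd rfl hx
    · rw [hy, h48 y (P + O) h k2] at hx
      revert hx
      generalize Q (P + O) = b
      revert b
      decide
    · rw [hy, h64 y (P + M) h n4, a4] at hx; exact absurd rfl hx
  obtain ⟨y, hy, hc⟩ := hred v
  rcases hc with ⟨h, h'⟩ | ⟨h, h'⟩ | ⟨h, h'⟩ | ⟨h, h'⟩
  · rw [hy, h, hz, cast_even h']
  · rw [hy, h32 y P h n1, a2, cast_even h']
  · rw [hy, h48 y (P + O) h k2, a3, cast_odd h']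
  · rw [hy, h64 y (P + M) h n4, a4, cast_even h']

end Cfsg.Agent.Lib.Helper28
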