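import Cfsg.Agent.Lib.Helper28.LeechCo2

/-!
A faithful representation of degree 23 over the field with 13 elements of the stabiliser of the
vector `(4, 4, 0, ..., 0)`.
-/

set_option autoImplicit false

namespace Cfsg.Agent.Lib.Helper28

open Cfsg
open scoped Pointwise

instance fact13 : Fact (Nat.Prime 13) := ⟨by norm_num⟩

/-- the matrix of `g` modulo 13. -/
def mat13 (g : Co0) : Matrix GolayPt GolayPt (ZMod 13) :=
  fun k i => (8 : ZMod 13)⁻¹ * ((((g • E8 i : leechLattice) : GolayPt → ℤ) k : ℤ) : ZMod 13)

theorem eight_ne : (8 : ZMod 13) ≠ 0 := by decide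

theorem mat13_one : mat13 1 = 1 := by
  ext k i
  unfold mat13
  rw [one_smul, E8_coe, Matrix.one_apply]
  by_cases h : k = i
  · subst h
    rw [Pi.single_eq_same, if_pos rfl]
    push_cast
    exact inv_mul_cancel₀ eight_ne
  · rw [Pi.single_eq_of_ne h, if_neg h]
    simp

theorem mat13_mul (g h : Co0) : mat13 (g * h) = mat13 g * mat13 h := by
  ext k i
  rw [Matrix.mul_apply]
  unfold mat13
  rw [mul_smul]
  have e := eight_co0 g (h • E8 i) k
  have e' := congrArg (fun z : ℤ => (z : ZMod 13)) e
  simp only [Int.cast_mul, Int.cast_sum, Int.cast_ofNat] at e'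
  have e2 : ((((g • h • E8 i : leechLattice) : GolayPt → ℤ) k : ℤ) : ZMod 13)
      = (8 : ZMod 13)⁻¹ * ∑ j, ((((h • E8 i : leechLattice) : GolayPt → ℤ) j : ℤ) : ZMod 13) *
        ((((g • E8 j : leechLattice) : GolayPt → ℤ) k : ℤ) : ZMod 13) := by
    rw [← e', ← mul_assoc, inv_mul_cancel₀ eight_ne, one_mul]
  rw [e2, Finset.mul_sum, Finset.mul_sum]
  refine Finset.sum_congr rfl fun j _ => ?_
  ring

/-- the representation of degree 24. -/
noncomputable def rep13 : Co0 →* Module.End (ZMod 13) (GolayPt → ZMod 13) where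
  toFun g := Matrix.toLin' (mat13 g)
  map_one' := by rw [mat13_one, Matrix.toLin'_one]; rfl
  map_mul' g h := by rw [mat13_mul, Matrix.toLin'_mul]; rfl

theorem rep13_apply (g : Co0) (x : GolayPt → ZMod 13) : rep13 g x = (mat13 g).mulVec x := rfl

/-- the fixed vector. -/
def w13 : GolayPt → ZMod 13 := fun k => if k = none ∨ k = some 0 then 1 else 0

theorem vPlus_apply (k : GolayPt) :
    ((vPlus : leechLattice) : GolayPt → ℤ) k = if k = none ∨ k = some 0 then 4 else 0 := by
  rw [vPlus_coe]
  revert k
  decide +kernel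

theorem rep13_w13 {g : Co0} (hg : g • vPlus = vPlus) : rep13 g w13 = w13 := by
  funext k
  rw [rep13_apply]
  unfold Matrix.mulVec dotProduct
  have h1 : ∀ i : GolayPt, mat13 g k i * w13 i
      = (if i = none then mat13 g k none else 0) + (if i = some 0 then mat13 g k (some 0) else 0) := by
    intro i
    unfold w13
    by_cases h1 : i = none
    · subst h1; simp
    · by_cases h2 : i = some 0
      · subst h2; simp
      · simp [h1, h2]
  simp only [h1, Finset.sum_add_distrib, Finset.sum_ite_eq', Finset.mem_univ, if_true]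
  unfold mat13
  rw [E8_none_eq, E8_zero_eq, co0_add, co0_sub, hg, ← mul_add, ← Int.cast_add,
    AddSubgroup.coe_add, AddSubgroup.coe_sub, Pi.add_apply, Pi.sub_apply]
  have e : ((vPlus : leechLattice) : GolayPt → ℤ) k + ((g • vMinus : leechLattice) : GolayPt → ℤ) k
      + (((vPlus : leechLattice) : GolayPt → ℤ) k - ((g • vMinus : leechLattice) : GolayPt → ℤ) k)
      = 2 * ((vPlus : leechLattice) : GolayPt → ℤ) k := by ring
  rw [e, vPlus_apply]
  unfold w13
  split_ifs
  · push_cast
    exact inv_mul_cancel₀ eight_ne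
  · simp

/-- the line spanned by the fixed vector. -/
def line13 : Submodule (ZMod 13) (GolayPt → ZMod 13) := Submodule.span (ZMod 13) {w13}

theorem line13_le {g : Co0} (hg : g • vPlus = vPlus) : line13 ≤ line13.comap (rep13 g) := by
  unfold line13
  rw [Submodule.span_le, Set.singleton_subset_iff]
  show rep13 g w13 ∈ Submodule.span (ZMod 13) {w13}
  rw [rep13_w13 hg]
  exact Submodule.mem_span_singleton_self _

/-- the representation of degree 23. -/
noncomputable def rep23 : MulAction.stabilizer Co0 vPlus →*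
    Module.End (ZMod 13) ((GolayPt → ZMod 13) ⧸ line13) where
  toFun g := line13.mapQ line13 (rep13 g.1) (line13_le g.2)
  map_one' := by
    apply Submodule.linearMap_qext
    ext x
    simp [Submodule.mapQ_apply]
  map_mul' g h := by
    apply Submodule.linearMap_qext
    apply LinearMap.ext
    intro x
    simp only [LinearMap.comp_apply, Submodule.mkQ_apply, Submodule.mapQ_apply, Subgroup.coe_mul,
      map_mul, Module.End.mul_apply]

theorem rep23_mk (g : MulAction.stabilizer Co0 vPlus) (x : GolayPt → ZMod 13) :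
    rep23 g (Submodule.Quotient.mk x) = Submodule.Quotient.mk (rep13 g.1 x) := rfl

theorem w13_ne : w13 ≠ 0 := by
  intro h
  have := congrFun h none
  revert this
  decide

theorem finrank_quot : Module.finrank (ZMod 13) ((GolayPt → ZMod 13) ⧸ line13) = 23 := by
  have h1 := Submodule.finrank_quotient_add_finrank line13
  have h2 : Module.finrank (ZMod 13) line13 = 1 := finrank_span_singleton w13_ne
  have h3 : Module.finrank (ZMod 13) (GolayPt → ZMod 13) = 24 := by
    rw [Module.finrank_fintype_fun_eq_card]; rfl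
  omega

theorem rho11_fix : pEl rho11 • vPlus = vPlus := (pEl_fix (σ := rho11) rho11_mem.1 rho11_mem.2).2.2

theorem rep13_pEl_single (σ : M24) (i : GolayPt) :
    rep13 (pEl σ) (Pi.single i 1) = Pi.single (σ.1 i) 1 := by
  funext k
  rw [rep13_apply, Matrix.mulVec_single_one]
  show mat13 (pEl σ) k i = _
  unfold mat13
  rw [pEl_smul, E8_coe]
  by_cases h : k = σ.1 i
  · subst h
    rw [Equiv.symm_apply_apply, Pi.single_eq_same, Pi.single_eq_same]
    push_cast
    exact inv_mul_cancel₀ eight_ne
  · have h2 : σ.1.symm k ≠ i := by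
      intro h3
      apply h
      rw [← h3, Equiv.apply_symm_apply]
    rw [Pi.single_eq_of_ne h2, Pi.single_eq_of_ne h]
    simp

theorem rep23_ne_one : rep23 ⟨pEl rho11, rho11_fix⟩ ≠ 1 := by
  intro h
  have h1 := congrArg (fun f => f (Submodule.Quotient.mk (Pi.single (some 1) 1))) h
  simp only [rep23_mk, rep13_pEl_single, Module.End.one_apply] at h1
  rw [Submodule.Quotient.eq] at h1
  unfold line13 at h1
  rw [Submodule.mem_span_singleton] at h1
  obtain ⟨c, hc⟩ := h1
  have h3 := congrFun hc (some 1)
  have e : rho11.1 (some 1) = some 2 := by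
    show mul2P (some 1) = some 2
    decide +kernel
  have w1 : w13 (some 1) = 0 := by decide
  rw [e, Pi.smul_apply, w1, smul_zero, Pi.sub_apply, Pi.single_eq_of_ne (by decide),
    Pi.single_eq_same] at h3
  exact absurd h3 (by decide)

theorem exists_rep23 : ∃ f : MulAction.stabilizer Co0 vPlus →* GL (Fin 23) (ZMod 13),
    Function.Injective f := by
  let b := Module.finBasisOfFinrankEq (ZMod 13) ((GolayPt → ZMod 13) ⧸ line13) finrank_quot
  let E := Units.mapEquiv (LinearMap.toMatrixAlgEquiv b).toMulEquiv
  refine ⟨E.toMonoidHom.comp rep23.toHomUnits, ?_⟩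
  have hs := co2_simple vPlus sqNorm_vPlus
  rw [← MonoidHom.ker_eq_bot_iff]
  rcases hs.eq_bot_or_eq_top_of_normal _ (MonoidHom.normal_ker (E.toMonoidHom.comp rep23.toHomUnits))
    with h | h
  · exact h
  · exfalso
    have h1 : (⟨pEl rho11, rho11_fix⟩ : MulAction.stabilizer Co0 vPlus)
        ∈ (E.toMonoidHom.comp rep23.toHomUnits).ker := by rw [h]; exact Subgroup.mem_top _
    rw [MonoidHom.mem_ker, MonoidHom.comp_apply] at h1
    have h2 : rep23.toHomUnits ⟨pEl rho11, rho11_fix⟩ = 1 := by
      apply E.injective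
      rw [map_one]
      exact h1
    apply rep23_ne_one
    have h3 := congrArg Units.val h2
    exact h3

end Cfsg.Agent.Lib.Helper28
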