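import Cfsg.Agent.Lib.Helper28.LeechNorms

/-!
The numbers of vectors of norm 48 of each shape.
-/

set_option autoImplicit false

namespace Cfsg.Agent.Lib.Helper28

open Cfsg

theorem ncard_norm_restrict (A : Finset ℤ) (hA : A.card ^ 24 < 2 ^ 100) (n : ℕ) :
    {x : GolayPt → ℤ | x ∈ leechLattice ∧ sqNorm x = n ∧ ∀ i, x i ∈ A}.ncard
      = leechCnt A hsq n (2 ^ 100) := by
  rw [← ncard_leech_uniform A hsq n (2 ^ 100) hA]
  congr 1
  ext x
  simp only [Set.mem_ofPred_eq]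
  constructor
  · rintro ⟨h1, h2, h3⟩
    refine ⟨h1, h3, ?_⟩
    have := sum_hsq x
    rw [h2] at this
    exact_mod_cast this
  · rintro ⟨h1, h3, h2⟩
    exact ⟨h1, by rw [← sum_hsq, h2], h3⟩

theorem cnt48a : leechCnt ({0, 2, -2} : Finset ℤ) hsq 48 (2 ^ 100) = 5275648 := by decide +kernel
theorem cnt48b : leechCnt ({1, -1, 3, -3} : Finset ℤ) hsq 48 (2 ^ 100) = 8290304 := by
  decide +kernel
theorem cnt48c : leechCnt (A8.filter fun v => v.natAbs ≠ 4) hsq 48 (2 ^ 100)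
    = 16773120 - 3108864 := by decide +kernel
theorem cnt48d : leechCnt (A8.filter fun v => v.natAbs ≠ 5) hsq 48 (2 ^ 100)
    = 16773120 - 98304 := by decide +kernel

theorem shape48a : {x : GolayPt → ℤ | x ∈ leechLattice ∧ sqNorm x = 48 ∧
    ∀ i, x i = 0 ∨ x i = 2 ∨ x i = -2}.ncard = 5275648 := by
  rw [← cnt48a, ← ncard_norm_restrict _ (by decide)]
  congr 1
  ext x
  simp

theorem all_odd_of_odd {x : GolayPt → ℤ} (hx : x ∈ leechLattice) {i : GolayPt}
    (hi : x i % 2 = 1) (j : GolayPt) : x j % 2 = 1 := by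
  obtain ⟨m, hm, _⟩ := mem_leechSet_iff.1 (mem_leechLattice_iff.1 hx)
  have h1 := hm i
  have h2 := hm j
  unfold Int.ModEq at *
  omega

theorem sq_eq_one_iff_of_side {a : ℤ} (h : a ^ 2 = 1) : a = 1 ∨ a = -1 := by
  have h1 : (a - 1) * (a + 1) = 0 := by ring_nf; omega
  rcases mul_eq_zero.1 h1 with h | h
  · left; omega
  · right; omega

theorem shape48b : {x : GolayPt → ℤ | x ∈ leechLattice ∧ sqNorm x = 48 ∧
    ∃ i j k, i ≠ j ∧ j ≠ k ∧ i ≠ k ∧ |x i| = 3 ∧ |x j| = 3 ∧ |x k| = 3}.ncard = 8290304 := by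
  rw [← cnt48b, ← ncard_norm_restrict _ (by decide)]
  congr 1
  ext x
  simp only [Set.mem_ofPred_eq, Nat.cast_ofNat, Finset.mem_insert, Finset.mem_singleton]
  constructor
  · rintro ⟨hx, hn, i, j, k, hij, hjk, hik, hi, hj, hk⟩
    refine ⟨hx, hn, fun l => ?_⟩
    have hodd : ∀ l, x l % 2 = 1 := all_odd_of_odd hx (i := i) (by
      rcases abs_eq (by norm_num : (0:ℤ) ≤ 3) |>.1 hi with h | h <;> rw [h] <;> decide)
    have hpos : ∀ l, 0 ≤ x l ^ 2 - 1 := by
      intro l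
      have h1 := hodd l
      have h3 : x l ≤ -1 ∨ 1 ≤ x l := by omega
      rcases h3 with h3 | h3 <;> nlinarith
    have hsum : ∑ l, (x l ^ 2 - 1) = 24 := by
      rw [Finset.sum_sub_distrib]
      have : ∑ l, x l ^ 2 = 48 := hn
      rw [this]; simp
    have sq3 : ∀ l, |x l| = 3 → x l ^ 2 = 9 := by
      intro l hl
      rw [← sq_abs, hl]; norm_num
    by_cases hl : l = i ∨ l = j ∨ l = k
    · have h3 : |x l| = 3 := by rcases hl with rfl | rfl | rfl <;> assumption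
      rcases abs_eq (by norm_num : (0:ℤ) ≤ 3) |>.1 h3 with h | h <;> simp [h]
    · have hl' : l ≠ i ∧ l ≠ j ∧ l ≠ k := by
        refine ⟨fun h => hl (Or.inl h), fun h => hl (Or.inr (Or.inl h)), fun h => hl (Or.inr (Or.inr h))⟩
      have h4 : ∑ l ∈ ({l, i, j, k} : Finset GolayPt), (x l ^ 2 - 1) ≤ ∑ l, (x l ^ 2 - 1) :=
        Finset.sum_le_sum_of_subset_of_nonneg (Finset.subset_univ _) fun l _ _ => hpos l
      rw [Finset.sum_insert (by simp [hl'.1, hl'.2.1, hl'.2.2]), Finset.sum_insert (by simp [hij, hik]),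
        Finset.sum_insert (by simp [hjk]), Finset.sum_singleton, hsum, sq3 i hi, sq3 j hj,
        sq3 k hk] at h4
      have h5 := hpos l
      have h6 : x l ^ 2 = 1 := by omega
      have h7 : x l = 1 ∨ x l = -1 := sq_eq_one_iff_of_side h6
      rcases h7 with h | h <;> simp [h]
  · rintro ⟨hx, hn, hall⟩
    refine ⟨hx, hn, ?_⟩
    have h1 : ∀ l, x l ^ 2 = 1 + 8 * (if |x l| = 3 then 1 else 0) := by
      intro l
      rcases hall l with h | h | h | h <;> rw [h] <;> norm_num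
    have h2 : (48 : ℤ) = 24 + 8 * ((Finset.univ.filter fun l => |x l| = 3).card : ℤ) := by
      have : ∑ l, x l ^ 2 = 48 := hn
      rw [← this, Finset.sum_congr rfl (fun l _ => h1 l), Finset.sum_add_distrib, ← Finset.mul_sum]
      simp
    have h3 : (Finset.univ.filter fun l => |x l| = 3).card = 3 := by omega
    obtain ⟨i, j, k, hij, hik, hjk, he⟩ := Finset.card_eq_three.1 h3
    have hm : ∀ l, l ∈ ({i, j, k} : Finset GolayPt) → |x l| = 3 := by
      intro l hl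
      rw [← he] at hl
      exact (Finset.mem_filter.1 hl).2
    exact ⟨i, j, k, hij, hjk, hik, hm i (by simp), hm j (by simp), hm k (by simp)⟩

theorem finite_norm48 : {x : GolayPt → ℤ | x ∈ leechLattice ∧ sqNorm x = 48}.Finite :=
  Set.finite_of_ncard_ne_zero (by rw [ncard_norm48]; decide)

theorem shape48_exists (a : ℕ) (N : ℕ)
    (h : leechCnt (A8.filter fun v => v.natAbs ≠ a) hsq 48 (2 ^ 100) = 16773120 - N) (hN : N ≤ 16773120) :
    {x : GolayPt → ℤ | x ∈ leechLattice ∧ sqNorm x = 48 ∧ ∃ i, |x i| = a}.ncard = N := by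
  have hcard : (A8.filter fun v => v.natAbs ≠ a).card ^ 24 < 2 ^ 100 :=
    lt_of_le_of_lt (Nat.pow_le_pow_left (Finset.card_filter_le _ _) _) card_A8
  have h1 := ncard_norm_restrict _ hcard 48
  rw [h] at h1
  have hsub : {x : GolayPt → ℤ | x ∈ leechLattice ∧ sqNorm x = ((48 : ℕ) : ℤ) ∧
      ∀ i, x i ∈ A8.filter fun v => v.natAbs ≠ a} ⊆
      {x : GolayPt → ℤ | x ∈ leechLattice ∧ sqNorm x = 48} := fun x hx => ⟨hx.1, hx.2.1⟩
  have h2 := Set.ncard_sdiff hsub (finite_norm48.subset hsub)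
  rw [h1, ncard_norm48] at h2
  have e : {x : GolayPt → ℤ | x ∈ leechLattice ∧ sqNorm x = 48 ∧ ∃ i, |x i| = a} =
      {x : GolayPt → ℤ | x ∈ leechLattice ∧ sqNorm x = 48} \
      {x : GolayPt → ℤ | x ∈ leechLattice ∧ sqNorm x = ((48 : ℕ) : ℤ) ∧
      ∀ i, x i ∈ A8.filter fun v => v.natAbs ≠ a} := by
    ext x
    simp only [Set.mem_ofPred_eq, Set.mem_sdiff, Finset.mem_filter, Nat.cast_ofNat]
    constructor
    · rintro ⟨hx, hn, i, hi⟩
      refine ⟨⟨hx, hn⟩, fun hh => (hh.2.2 i).2 ?_⟩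
      have : ((x i).natAbs : ℤ) = a := by rw [Int.natCast_natAbs]; exact hi
      exact_mod_cast this
    · rintro ⟨⟨hx, hn⟩, h3⟩
      refine ⟨hx, hn, ?_⟩
      by_contra hne
      apply h3
      refine ⟨hx, hn, fun i => ⟨mem_A8_of_sqNorm_le (by rw [hn]; norm_num) i, fun hh => hne ⟨i, ?_⟩⟩⟩
      rw [← Int.natCast_natAbs, hh]
  rw [e, h2]
  omega

theorem shape48c : {x : GolayPt → ℤ | x ∈ leechLattice ∧ sqNorm x = 48 ∧ ∃ i, |x i| = 4}.ncard
    = 3108864 := shape48_exists 4 3108864 cnt48c (by decide)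

theorem shape48d : {x : GolayPt → ℤ | x ∈ leechLattice ∧ sqNorm x = 48 ∧ ∃ i, |x i| = 5}.ncard
    = 98304 := shape48_exists 5 98304 cnt48d (by decide)

end Cfsg.Agent.Lib.Helper28
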