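import Cfsg.Agent.Lib.Helper28.M9
import Cfsg.Agent.Lib.Helper19.PrimAb
import Cfsg.Agent.S0384

/-! Involution centralisers in the smallest Mathieu group, part A. -/

set_option autoImplicit false

namespace Cfsg.Agent.Lib.Helper28.M11Cent

open Cfsg Finset Cfsg.Agent.Lib.Helper28 Cfsg.Agent.Lib.Helper28.M9
open scoped Pointwise

variable {d : Finset GolayPt} (hd : d ∈ dodecads)

include hd in
theorem fix5 {g : Equiv.Perm GolayPt} (hg : g ∈ M24) (hgd : g • d = d) (s : Finset GolayPt)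
    (hs : s ⊆ d) (h5 : 5 ≤ s.card) (hfix : ∀ z ∈ s, g z = z) : g = 1 := by
  obtain ⟨t, ht, ht5⟩ := Finset.exists_subset_card_eq h5
  exact Cfsg.Agent.Lib.Helper3.Dod.eq_one_of_fixes hd t.toList (by rw [Finset.length_toList, ht5])
    (Finset.nodup_toList t) (fun x hx => hs (ht (Finset.mem_toList.1 hx))) hg hgd
    (fun x hx => hfix x (ht (Finset.mem_toList.1 hx)))

include hd in
theorem fixed_points (X : ↥(MulAction.stabilizer M24 d)) (hX : orderOf X = 2) {p : GolayPt}
    (hp : p ∈ d) (hXp : (X.1.1 : Equiv.Perm GolayPt) p = p) :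
    ∃ a b c : GolayPt, a ∈ d ∧ b ∈ d ∧ c ∈ d ∧ a ≠ b ∧ a ≠ c ∧ b ≠ c ∧ a ≠ p ∧ b ≠ p ∧ c ≠ p ∧
      (X.1.1 : Equiv.Perm GolayPt) a = a ∧ (X.1.1 : Equiv.Perm GolayPt) b = b ∧
      (X.1.1 : Equiv.Perm GolayPt) c = c ∧
      ∀ z ∈ d, (X.1.1 : Equiv.Perm GolayPt) z = z → z = p ∨ z = a ∨ z = b ∨ z = c := by
  classical
  have hd12 : d.card = 12 := hd.2
  have hX2 : X * X = 1 := by
    have := pow_orderOf_eq_one X
    rwa [hX, pow_two] at this
  have hX1 : X ≠ 1 := by
    intro h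
    rw [h, orderOf_one] at hX
    exact absurd hX (by decide)
  set τ := R d X with hτdef
  have hτapp : ∀ z : {a : GolayPt // a ∈ d}, (τ z).1 = (X.1.1 : Equiv.Perm GolayPt) z.1 :=
    fun z => rfl
  have big : ∀ F : Finset {a : GolayPt // a ∈ d}, (∀ z ∈ F, τ z = z) → F.card ≤ 4 := by
    intro F hF
    by_contra hlt
    apply hX1
    have h1 : (X.1.1 : Equiv.Perm GolayPt) = 1 := fix5 hd X.1.2 X.2 (F.image Subtype.val)
      (by
        intro z hz
        obtain ⟨y, _, rfl⟩ := Finset.mem_image.1 hz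
        exact y.2)
      (by
        rw [Finset.card_image_of_injective _ Subtype.val_injective]
        omega)
      (by
        intro z hz
        obtain ⟨y, hy, rfl⟩ := Finset.mem_image.1 hz
        rw [← hτapp, hF y hy])
    exact Subtype.ext (Subtype.ext h1)
  have hτ2 : τ ^ 2 = 1 := by
    rw [hτdef, ← map_pow, pow_two, hX2, map_one]
  have hτ1 : τ ≠ 1 := by
    intro h
    have := big univ (fun z _ => by rw [h]; rfl)
    rw [Finset.card_univ, Fintype.card_coe, hd12] at this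
    omega
  have hτo : orderOf τ = 2 := orderOf_eq_prime hτ2 hτ1
  obtain ⟨n, hn⟩ := Equiv.Perm.cycleType_prime_order (σ := τ) (by rw [hτo]; exact Nat.prime_two)
  rw [hτo] at hn
  have hsign := Equiv.Perm.sign_of_cycleType τ
  rw [sign_R hd X, hn, Multiset.sum_replicate, Multiset.card_replicate, smul_eq_mul] at hsign
  have heven : Even ((n + 1) * 2 + (n + 1)) :=
    (neg_one_pow_eq_one_iff_even (R := ℤˣ) (by decide)).1 hsign.symm
  have hsupp : τ.support.card = (n + 1) * 2 := by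
    rw [← Equiv.Perm.sum_cycleType, hn, Multiset.sum_replicate, smul_eq_mul]
  set F : Finset {a : GolayPt // a ∈ d} := univ.filter (fun z => τ z = z) with hF
  have hFc : F = τ.supportᶜ := by
    ext z
    simp [hF, Equiv.Perm.mem_support]
  have hFcard : F.card = 12 - τ.support.card := by
    rw [hFc, Finset.card_compl, Fintype.card_coe, hd12]
  have hle : τ.support.card ≤ 12 := by
    have := Finset.card_le_univ τ.support
    rwa [Fintype.card_coe, hd12] at this
  have hpF : (⟨p, hp⟩ : {a : GolayPt // a ∈ d}) ∈ F := by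
    rw [hF, Finset.mem_filter]
    exact ⟨Finset.mem_univ _, Subtype.ext hXp⟩
  have hF1 : 1 ≤ F.card := Finset.card_pos.2 ⟨_, hpF⟩
  have hF4 : F.card ≤ 4 := big F (fun z hz => (Finset.mem_filter.1 hz).2)
  have hF4' : F.card = 4 := by
    obtain ⟨k, hk⟩ := heven
    omega
  have h3 : (F.erase ⟨p, hp⟩).card = 3 := by
    rw [Finset.card_erase_of_mem hpF, hF4']
  obtain ⟨x, y, z, hxy, hxz, hyz, hE⟩ := Finset.card_eq_three.1 h3
  have hmem : ∀ w : {a : GolayPt // a ∈ d}, w ∈ F.erase ⟨p, hp⟩ ↔ w = x ∨ w = y ∨ w = z := by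
    intro w
    rw [hE]
    simp
  have hx := (hmem x).2 (Or.inl rfl)
  have hy := (hmem y).2 (Or.inr (Or.inl rfl))
  have hz := (hmem z).2 (Or.inr (Or.inr rfl))
  have key : ∀ w : {a : GolayPt // a ∈ d}, w ∈ F.erase ⟨p, hp⟩ →
      w.1 ≠ p ∧ (X.1.1 : Equiv.Perm GolayPt) w.1 = w.1 := by
    intro w hw
    obtain ⟨h1, h2⟩ := Finset.mem_erase.1 hw
    refine ⟨fun h => h1 (Subtype.ext h), ?_⟩
    rw [← hτapp, (Finset.mem_filter.1 h2).2]
  refine ⟨x.1, y.1, z.1, x.2, y.2, z.2, fun h => hxy (Subtype.ext h), fun h => hxz (Subtype.ext h),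
    fun h => hyz (Subtype.ext h), (key x hx).1, (key y hy).1, (key z hz).1, (key x hx).2,
    (key y hy).2, (key z hz).2, ?_⟩
  intro w hw hfix
  by_cases hwp : w = p
  · exact Or.inl hwp
  · right
    have : (⟨w, hw⟩ : {a : GolayPt // a ∈ d}) ∈ F.erase ⟨p, hp⟩ := by
      rw [Finset.mem_erase]
      refine ⟨fun h => hwp (congrArg Subtype.val h), ?_⟩
      rw [hF, Finset.mem_filter]
      exact ⟨Finset.mem_univ _, Subtype.ext hfix⟩
    rcases (hmem _).1 this with h | h | h
    · exact Or.inl (congrArg Subtype.val h)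
    · exact Or.inr (Or.inl (congrArg Subtype.val h))
    · exact Or.inr (Or.inr (congrArg Subtype.val h))

end Cfsg.Agent.Lib.Helper28.M11Cent
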