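import Cfsg.Agent.Lib.Helper28.M11CentA

/-! Involution centralisers in the smallest Mathieu group, part B. -/

set_option autoImplicit false

namespace Cfsg.Agent.Lib.Helper28.M11Cent

open Cfsg Finset Cfsg.Agent.Lib.Helper28 Cfsg.Agent.Lib.Helper28.M9
open scoped Pointwise

variable {d : Finset GolayPt} (hd : d ∈ dodecads)

include hd in
theorem pack {a b c : GolayPt} (ha : a ∈ d) (hb : b ∈ d) (hc : c ∈ d) (hab : a ≠ b) (hac : a ≠ c)
    (hbc : b ≠ c) :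
    ∃ N : Subgroup ↥M24, Nat.card N = 9 ∧ (∀ n ∈ N, ∀ m ∈ N, n * m = m * n) ∧
      (∀ n ∈ N, n ^ 3 = 1) ∧
      (∀ n : ↥M24, n ∈ N ↔ n ∈ H3 d a b c ∧ (n = 1 ∨ ∀ z ∈ d, z ≠ a → z ≠ b → z ≠ c →
        (n.1 : Equiv.Perm GolayPt) z ≠ z)) ∧
      (∀ t ∈ H3 d a b c, ∀ t' ∈ H3 d a b c, ∀ ω ∈ d, ω ≠ a → ω ≠ b → ω ≠ c →
        (t.1 : Equiv.Perm GolayPt) ω = ω → (t'.1 : Equiv.Perm GolayPt) ω = ω →
        orderOf t = 2 → orderOf t' = 2 → t' = t) := by
  classical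
  letI : Fintype (H3 d a b c) := Fintype.ofFinite _
  letI : MulAction (H3 d a b c) (Om d a b c) := MulAction.compHom _ (rho d a b c)
  have hy : Sharp72.Hyp (H3 d a b c) (Om d a b c) := M9.hyp hd ha hb hc hab hac hbc
  obtain ⟨Q⟩ : Nonempty (Sylow 3 (H3 d a b c)) := inferInstance
  refine ⟨(Q : Subgroup (H3 d a b c)).map (H3 d a b c).subtype, ?_, ?_, ?_, ?_, ?_⟩
  · rw [Subgroup.card_map_of_injective (Subgroup.subtype_injective _)]
    exact Sharp72.card_syl3 hy Q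
  · rintro _ ⟨n, hn, rfl⟩ _ ⟨m, hm, rfl⟩
    have hcomm := IsPGroup.commutative_of_card_eq_prime_sq (p := 3) (G := Q)
      (by rw [Sharp72.card_syl3 hy Q]; rfl) ⟨n, hn⟩ ⟨m, hm⟩
    exact congrArg (fun q : Q => (q.1.1 : ↥M24)) hcomm
  · rintro _ ⟨n, hn, rfl⟩
    rw [← map_pow, Sharp72.syl3_exp hy Q n hn, map_one]
  · intro n
    constructor
    · rintro ⟨m, hm, rfl⟩
      refine ⟨m.2, ?_⟩
      rcases Sharp72.mem_S.1 ((Sharp72.syl3_eq hy Q m).1 hm) with h | h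
      · left
        rw [h]
        rfl
      · right
        intro z hz h1 h2 h3 hfix
        exact h ⟨⟨z, hz⟩, h1, h2, h3⟩ (Subtype.ext (Subtype.ext hfix))
    · rintro ⟨hn, h⟩
      refine ⟨⟨n, hn⟩, (Sharp72.syl3_eq hy Q _).2 (Sharp72.mem_S.2 ?_), rfl⟩
      rcases h with h | h
      · left
        exact Subtype.ext h
      · right
        intro ω hω
        exact h ω.1.1 ω.1.2 ω.2.1 ω.2.2.1 ω.2.2.2 (congrArg (fun x : Om d a b c => x.1.1) hω)
  · intro t ht t' ht' ω hω h1 h2 h3 hf hf' ho ho'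
    let w : Om d a b c := ⟨⟨ω, hω⟩, h1, h2, h3⟩
    have hcard := Sharp72.card_stab hy w
    have hpg : IsPGroup 2 (MulAction.stabilizer (H3 d a b c) w) :=
      IsPGroup.of_card (n := 3) (by rw [hcard]; rfl)
    obtain ⟨P, hP⟩ := hpg.exists_le_sylow
    have e := Sharp72.unique_invol hy P (t := ⟨t, ht⟩) (t' := ⟨t', ht'⟩)
      (hP (show (⟨t, ht⟩ : H3 d a b c) • w = w from Subtype.ext (Subtype.ext hf)))
      (hP (show (⟨t', ht'⟩ : H3 d a b c) • w = w from Subtype.ext (Subtype.ext hf')))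
      (by rw [Subgroup.orderOf_mk]; exact ho) (by rw [Subgroup.orderOf_mk]; exact ho')
    exact congrArg Subtype.val e

end Cfsg.Agent.Lib.Helper28.M11Cent
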