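import Cfsg.Agent.Lib.Helper28.LeechBasic
import Cfsg.Agent.Lib.Helper28.GolayPerm
import Cfsg.Agent.S0363
import Cfsg.Agent.S0384
import Cfsg.Agent.S0385
import Cfsg.Agent.S0389
import Cfsg.Agent.Lib.Helper28.SteinerDer

/-!
The stabiliser of a pair in the 12-point action of the smallest Mathieu group.
-/

set_option autoImplicit false

namespace Cfsg.Agent.Lib.Helper28.M11Pair

open Cfsg Finset Cfsg.Agent.Lib.Helper28
open scoped Pointwise

theorem emb3 {a b c : GolayPt} (hab : a ≠ b) (hac : a ≠ c) (hbc : b ≠ c) :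
    ∃ x : Fin 3 ↪ GolayPt, x 0 = a ∧ x 1 = b ∧ x 2 = c := by
  refine ⟨⟨![a, b, c], ?_⟩, rfl, rfl, rfl⟩
  intro i j hij
  fin_cases i <;> fin_cases j <;> simp_all

theorem exists_third {d : Finset GolayPt} (hd : d.card = 12) (a b : GolayPt) :
    ∃ c, c ∉ d ∧ a ≠ c ∧ b ≠ c := by
  have h1 : (d ∪ {a, b}).card < (Finset.univ : Finset GolayPt).card := by
    have := Finset.card_union_le d {a, b}
    have h2 : ({a, b} : Finset GolayPt).card ≤ 2 := Finset.card_le_two
    rw [Finset.card_univ, card_golayPt]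
    omega
  obtain ⟨c, _, hc⟩ := Finset.exists_mem_notMem_of_card_lt_card h1
  simp only [mem_union, mem_insert, mem_singleton, not_or] at hc
  exact ⟨c, hc.1, fun e => hc.2.1 e.symm, fun e => hc.2.2 e.symm⟩

theorem smul_sdiff' (g : Equiv.Perm GolayPt) (s t : Finset GolayPt) : g • (s \ t) = g • s \ g • t := by
  rw [smul_finset_eq_image, smul_finset_eq_image, smul_finset_eq_image,
    Finset.image_sdiff _ _ g.injective]

theorem smul_inter' (g : Equiv.Perm GolayPt) (s t : Finset GolayPt) : g • (s ∩ t) = g • s ∩ g • t := by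
  rw [smul_finset_eq_image, smul_finset_eq_image, smul_finset_eq_image,
    Finset.image_inter _ _ g.injective]

theorem smul_pair (g : Equiv.Perm GolayPt) (a b : GolayPt) :
    g • ({a, b} : Finset GolayPt) = {g a, g b} := by
  rw [smul_finset_eq_image, Finset.image_insert, Finset.image_singleton]

variable {d : Finset GolayPt} (hd : d ∈ dodecads) {p q q' : GolayPt} (hp : p ∈ d)
  (hq : q ∉ d) (hq' : q' ∉ d) (hqq' : q ≠ q')

include hd hp hq hq' hqq' in
theorem exists_oct : ∃ o ∈ octads, p ∈ o ∧ o \ d = {q, q'} := by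
  have hdc : d.card = 12 := hd.2
  have hS := Cfsg.Agent.S0385.result d hd
  have hc12 : (Finset.univ : Finset {p : GolayPt // p ∈ d}).card = 12 := by
    rw [Finset.card_univ, Fintype.card_coe, hdc]
  obtain ⟨s, hs1, _, hs3⟩ := Finset.exists_subsuperset_card_eq
    (s := ({⟨p, hp⟩} : Finset {p : GolayPt // p ∈ d})) (t := Finset.univ) (n := 5)
    (Finset.subset_univ _) (by simp) (by rw [hc12]; decide)
  obtain ⟨b, ⟨⟨o1, ho1, hc6, rfl⟩, hsb⟩, _⟩ := hS.2 s hs3
  have hpo1 : p ∈ o1 := by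
    have := hsb (hs1 (Finset.mem_singleton_self _))
    simpa using this
  have hc2 : (o1 \ d).card = 2 := by
    have := Finset.card_sdiff_add_card_inter o1 d
    rw [hc6, ho1.2] at this
    omega
  obtain ⟨a, b, hab, hab'⟩ := Finset.card_eq_two.1 hc2
  have ha : a ∉ d := by
    have : a ∈ o1 \ d := by rw [hab']; simp
    exact (Finset.mem_sdiff.1 this).2
  have hb : b ∉ d := by
    have : b ∈ o1 \ d := by rw [hab']; simp
    exact (Finset.mem_sdiff.1 this).2
  obtain ⟨c, hc, hac, hbc⟩ := exists_third hdc a b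
  obtain ⟨c', hc', hqc, hqc'⟩ := exists_third hdc q q'
  obtain ⟨x, x0, x1, x2⟩ := emb3 hab hac hbc
  obtain ⟨y, y0, y1, y2⟩ := emb3 hqq' hqc hqc'
  obtain ⟨g, hg, hgxy⟩ := Cfsg.Agent.S0389.result d hd p hp x y
    (by intro i; fin_cases i <;> simp [x0, x1, x2, ha, hb, hc])
    (by intro i; fin_cases i <;> simp [y0, y1, y2, hq, hq', hc'])
  have hgd : (g : Equiv.Perm GolayPt) • d = d := hg.1
  have hgp : (g : Equiv.Perm GolayPt) p = p := hg.2
  refine ⟨(g : Equiv.Perm GolayPt) • o1, smul_mem_octads g.2 ho1, ?_, ?_⟩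
  · rw [← hgp, mem_smul_finset_iff]
    exact hpo1
  · conv_lhs => rw [← hgd]
    rw [← smul_sdiff', hab', smul_pair]
    have h0 := hgxy 0
    have h1 := hgxy 1
    rw [x0, y0] at h0
    rw [x1, y1] at h1
    rw [h0, h1]

include hd hp in
theorem oct_unique {o o' : Finset GolayPt} (ho : o ∈ octads) (ho' : o' ∈ octads) (hpo : p ∈ o)
    (hpo' : p ∈ o') (h1 : o \ d = {q, q'}) (h2 : o' \ d = {q, q'}) : o = o' := by
  have ht : symmDiff o o' ∈ GC := gc_symmDiff ho.1 ho'.1
  have hsub : symmDiff o o' ⊆ d.erase p := by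
    intro a ha
    rw [Finset.mem_symmDiff] at ha
    rw [Finset.mem_erase]
    constructor
    · rintro rfl
      rcases ha with ha | ha
      · exact ha.2 hpo'
      · exact ha.2 hpo
    · by_contra had
      have e1 : a ∈ o ↔ a ∈ ({q, q'} : Finset GolayPt) := by
        rw [← h1, Finset.mem_sdiff]; tauto
      have e2 : a ∈ o' ↔ a ∈ ({q, q'} : Finset GolayPt) := by
        rw [← h2, Finset.mem_sdiff]; tauto
      rcases ha with ha | ha
      · exact ha.2 (e2.2 (e1.1 ha.1))
      · exact ha.2 (e1.2 (e2.1 ha.1))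
  have hle := Finset.card_le_card hsub
  rw [Finset.card_erase_of_mem hp, hd.2] at hle
  have ht2 : symmDiff d (symmDiff o o') ∈ GC := gc_symmDiff hd.1 ht
  have hsub2 : symmDiff o o' ⊆ d := hsub.trans (Finset.erase_subset _ _)
  have e3 : symmDiff d (symmDiff o o') = d \ symmDiff o o' := by
    ext a
    rw [Finset.mem_symmDiff, Finset.mem_sdiff]
    constructor
    · rintro (h | h)
      · exact h
      · exact (h.2 (hsub2 h.1)).elim
    · intro h; exact Or.inl h
  have hc3 : (d \ symmDiff o o').card = 12 - (symmDiff o o').card := by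
    rw [Finset.card_sdiff_of_subset hsub2, hd.2]
  rw [e3] at ht2
  have c1 := gc_card_cases ht
  have c2 := gc_card_cases ht2
  have h0 : (symmDiff o o').card = 0 := by omega
  rw [Finset.card_eq_zero] at h0
  exact symmDiff_eq_bot.1 h0

theorem mem_of_smul_eq {g : Equiv.Perm GolayPt} {s : Finset GolayPt} (h : g • s = s) (a : GolayPt) :
    g a ∈ s ↔ a ∈ s := by
  conv_lhs => rw [← h]
  exact mem_smul_finset_iff g s a

include hd hp in
theorem smul_oct_eq {γ : Equiv.Perm GolayPt} (hγM : γ ∈ M24) (hγd : γ • d = d) (hγp : γ p = p)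
    (hγq : γ • ({q, q'} : Finset GolayPt) = {q, q'}) {o : Finset GolayPt} (ho : o ∈ octads)
    (hpo : p ∈ o) (hod : o \ d = {q, q'}) : γ • o = o := by
  apply oct_unique hd hp (smul_mem_octads hγM ho) ho _ hpo _ hod
  · have : γ p ∈ γ • o := (mem_smul_finset_iff γ o p).2 hpo
    rwa [hγp] at this
  · conv_lhs => rw [← hγd]
    rw [← smul_sdiff', hod, hγq]

include hd hp hq hq' hqq' in
theorem main : Nonempty (↥(MulAction.stabilizer Cfsg.M24 d ⊓ MulAction.stabilizer Cfsg.M24 p ⊓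
    MulAction.stabilizer Cfsg.M24 ({q, q'} : Finset Cfsg.GolayPt)) ≃* Equiv.Perm (Fin 5)) := by
  obtain ⟨o, ho, hpo, hod⟩ := exists_oct hd hp hq hq' hqq'
  have hc6 : (o ∩ d).card = 6 := by
    have := Finset.card_sdiff_add_card_inter o d
    rw [hod, ho.2, Finset.card_pair hqq'] at this
    omega
  have hcO : ((o ∩ d).erase p).card = 5 := by
    rw [Finset.card_erase_of_mem (Finset.mem_inter.2 ⟨hpo, hp⟩), hc6]
  have hmemO : ∀ a, a ∈ (o ∩ d).erase p ↔ a ≠ p ∧ a ∈ o ∧ a ∈ d := by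
    intro a
    rw [Finset.mem_erase, Finset.mem_inter]
  -- facts on elements of the group
  have hfd : ∀ g : ↥(MulAction.stabilizer Cfsg.M24 d ⊓ MulAction.stabilizer Cfsg.M24 p ⊓
      MulAction.stabilizer Cfsg.M24 ({q, q'} : Finset Cfsg.GolayPt)),
      (g.1.1 : Equiv.Perm GolayPt) • d = d := fun g => g.2.1.1
  have hfp : ∀ g : ↥(MulAction.stabilizer Cfsg.M24 d ⊓ MulAction.stabilizer Cfsg.M24 p ⊓
      MulAction.stabilizer Cfsg.M24 ({q, q'} : Finset Cfsg.GolayPt)),
      (g.1.1 : Equiv.Perm GolayPt) p = p := fun g => g.2.1.2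
  have hfq : ∀ g : ↥(MulAction.stabilizer Cfsg.M24 d ⊓ MulAction.stabilizer Cfsg.M24 p ⊓
      MulAction.stabilizer Cfsg.M24 ({q, q'} : Finset Cfsg.GolayPt)),
      (g.1.1 : Equiv.Perm GolayPt) • ({q, q'} : Finset GolayPt) = {q, q'} := fun g => g.2.2
  have hfo : ∀ g : ↥(MulAction.stabilizer Cfsg.M24 d ⊓ MulAction.stabilizer Cfsg.M24 p ⊓
      MulAction.stabilizer Cfsg.M24 ({q, q'} : Finset Cfsg.GolayPt)),
      (g.1.1 : Equiv.Perm GolayPt) • o = o := by
    intro g
    exact smul_oct_eq hd hp g.1.2 (hfd g) (hfp g) (hfq g) ho hpo hod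
  have hfO : ∀ (g : ↥(MulAction.stabilizer Cfsg.M24 d ⊓ MulAction.stabilizer Cfsg.M24 p ⊓
      MulAction.stabilizer Cfsg.M24 ({q, q'} : Finset Cfsg.GolayPt))) (a : GolayPt),
      (g.1.1 : Equiv.Perm GolayPt) a ∈ (o ∩ d).erase p ↔ a ∈ (o ∩ d).erase p := by
    intro g a
    rw [hmemO, hmemO, mem_of_smul_eq (hfo g), mem_of_smul_eq (hfd g),
      SteinerDer.ne_iff_of_fix (hfp g)]
  let ρ : ↥(MulAction.stabilizer Cfsg.M24 d ⊓ MulAction.stabilizer Cfsg.M24 p ⊓
      MulAction.stabilizer Cfsg.M24 ({q, q'} : Finset Cfsg.GolayPt)) →*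
      Equiv.Perm {a // a ∈ (o ∩ d).erase p} :=
    { toFun := fun g => (g.1.1 : Equiv.Perm GolayPt).subtypePerm (hfO g)
      map_one' := by ext x; rfl
      map_mul' := fun g h => by ext x; rfl }
  have hρ : ∀ g a, ((ρ g a : {a // a ∈ (o ∩ d).erase p}) : GolayPt)
      = (g.1.1 : Equiv.Perm GolayPt) a.1 := fun g a => rfl
  let e : {a // a ∈ (o ∩ d).erase p} ≃ Fin 5 := Finset.equivFinOfCardEq hcO
  let x : Fin 5 ↪ GolayPt := e.symm.toEmbedding.trans (Function.Embedding.subtype _)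
  have hx : ∀ i, x i ∈ d := fun i => ((hmemO _).1 (e.symm i).2).2.2
  have hxe : ∀ a, x (e a) = a.1 := by
    intro a
    show (e.symm (e a)).1 = a.1
    rw [e.symm_apply_apply]
  have hinj : Function.Injective ρ := by
    rw [injective_iff_map_eq_one]
    intro g hg
    obtain ⟨g0, _, huniq⟩ := Cfsg.Agent.S0384.result d hd x x hx hx
    have h1 : (⟨g.1, g.2.1.1⟩ : MulAction.stabilizer Cfsg.M24 d) = g0 := by
      apply huniq
      intro i
      have := hρ g (e.symm i)
      rw [hg] at this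
      exact this.symm
    have h2 : (1 : MulAction.stabilizer Cfsg.M24 d) = g0 := by
      apply huniq
      intro i
      rfl
    have h3 := congrArg Subtype.val (h1.trans h2.symm)
    exact Subtype.ext h3
  have hsurj : Function.Surjective ρ := by
    intro π
    let y : Fin 5 ↪ GolayPt := (e.symm.trans π).toEmbedding.trans (Function.Embedding.subtype _)
    have hy : ∀ i, y i ∈ d := fun i => ((hmemO _).1 (π (e.symm i)).2).2.2
    obtain ⟨g0, hg0, _⟩ := Cfsg.Agent.S0384.result d hd x y hx hy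
    obtain ⟨γ, hγM, hγd, hγ⟩ : ∃ γ : Equiv.Perm GolayPt, ∃ _ : γ ∈ M24, γ • d = d ∧
        ∀ a : {a // a ∈ (o ∩ d).erase p}, γ a.1 = (π a).1 := by
      refine ⟨g0.1.1, g0.1.2, g0.2, ?_⟩
      intro a
      have := hg0 (e a)
      rw [hxe] at this
      rw [this]
      show (π (e.symm (e a))).1 = _
      rw [e.symm_apply_apply]
    have hγO : γ • ((o ∩ d).erase p) = (o ∩ d).erase p := by
      apply Finset.eq_of_subset_of_card_le
      · intro b hb
        rw [smul_finset_eq_image, Finset.mem_image] at hb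
        obtain ⟨a, ha, rfl⟩ := hb
        rw [hγ ⟨a, ha⟩]
        exact (π ⟨a, ha⟩).2
      · rw [card_smul]
    have hγo : γ • o = o := by
      obtain ⟨b, _, hb⟩ := Cfsg.Agent.S0363.result.2 _ hcO
      have h1 : o = b := hb o ⟨ho, fun a ha => ((hmemO a).1 ha).2.1⟩
      have h2 : γ • o = b := by
        apply hb
        refine ⟨smul_mem_octads hγM ho, ?_⟩
        rw [← hγO, smul_finset_eq_image, smul_finset_eq_image]
        apply Finset.image_subset_image
        intro a ha
        exact ((hmemO a).1 ha).2.1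
      rw [h2, ← h1]
    have hγp : γ p = p := by
      by_contra hne
      have h1 : γ p ∈ (o ∩ d).erase p := by
        rw [hmemO, mem_of_smul_eq hγo, mem_of_smul_eq hγd]
        exact ⟨hne, hpo, hp⟩
      rw [mem_of_smul_eq hγO] at h1
      exact (Finset.notMem_erase p _) h1
    have hγq : γ • ({q, q'} : Finset GolayPt) = {q, q'} := by
      rw [← hod, smul_sdiff', hγo, hγd]
    refine ⟨⟨⟨γ, hγM⟩, ⟨hγd, hγp⟩, hγq⟩, ?_⟩
    exact Equiv.ext fun a => Subtype.ext (hγ a)
  exact ⟨(MulEquiv.ofBijective ρ ⟨hinj, hsurj⟩).trans e.permCongrHom⟩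

end Cfsg.Agent.Lib.Helper28.M11Pair
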