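import Cfsg.Agent.Lib.Helper28.M12Gen1

/-! Explicit generators of the Mathieu groups of degrees 11 and 12. -/

set_option autoImplicit false

namespace Cfsg.Agent.Lib.Helper28.M12Gen

open Cfsg Finset

def HB : Finset (Finset (Fin 12)) := ML.toFinset.image blk

theorem mem_blk (n : ℕ) (i : Fin 12) : i ∈ blk n ↔ n.testBit i.val = true := by simp [blk]

theorem blk_inj {n m : ℕ} (hn : n < 4096) (hm : m < 4096) (h : blk n = blk m) : n = m := by
  apply Nat.eq_of_testBit_eq
  intro i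
  by_cases hi : i < 12
  · have := Finset.ext_iff.1 h ⟨i, hi⟩
    rw [mem_blk, mem_blk] at this
    exact Bool.eq_iff_iff.2 this
  · have h12 : (4096 : ℕ) ≤ 2 ^ i := by
      calc (4096 : ℕ) = 2 ^ 12 := by norm_num
        _ ≤ 2 ^ i := Nat.pow_le_pow_right (by norm_num) (by omega)
    rw [Nat.testBit_lt_two_pow (lt_of_lt_of_le hn h12),
      Nat.testBit_lt_two_pow (lt_of_lt_of_le hm h12)]

theorem card_HB : HB.card = 132 := by
  unfold HB
  rw [Finset.card_image_of_injOn, List.toFinset_card_of_nodup ML_nodup, ML_length]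
  intro n hn m hm h
  exact blk_inj (ML_lt n (List.mem_toFinset.1 hn)) (ML_lt m (List.mem_toFinset.1 hm)) h

theorem mem_HB {h : Finset (Fin 12)} : h ∈ HB ↔ ∃ n ∈ ML, blk n = h := by
  unfold HB
  simp only [Finset.mem_image, List.mem_toFinset]

theorem HB_card6 {h : Finset (Fin 12)} (hh : h ∈ HB) : h.card = 6 := by
  obtain ⟨n, hn, rfl⟩ := mem_HB.1 hh
  exact ML_card n hn

theorem HB_unique {h h' : Finset (Fin 12)} (hh : h ∈ HB) (hh' : h' ∈ HB) {s : Finset (Fin 12)}
    (hs : s.card = 5) (h1 : s ⊆ h) (h2 : s ⊆ h') : h = h' := by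
  obtain ⟨n, hn, rfl⟩ := mem_HB.1 hh
  obtain ⟨m, hm, rfl⟩ := mem_HB.1 hh'
  by_contra hne
  have hnm : n ≠ m := fun e => hne (by rw [e])
  have h4 := ML_inter n hn m hm hnm
  have hsub : s ⊆ univ.filter (fun i : Fin 12 => n.testBit i.val && m.testBit i.val) := by
    intro i hi
    rw [Finset.mem_filter]
    refine ⟨Finset.mem_univ _, ?_⟩
    rw [(mem_blk n i).1 (h1 hi), (mem_blk m i).1 (h2 hi)]
    rfl
  have := Finset.card_le_card hsub
  omega

theorem exists_of_count (HH : Finset (Finset (Fin 12))) (hc : HH.card = 132)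
    (h6 : ∀ h ∈ HH, h.card = 6)
    (huniq : ∀ h ∈ HH, ∀ h' ∈ HH, ∀ s : Finset (Fin 12), s.card = 5 → s ⊆ h → s ⊆ h' → h = h')
    {s : Finset (Fin 12)} (hs : s.card = 5) : ∃ h ∈ HH, s ⊆ h := by
  have hcard : (HH.biUnion (fun h => Finset.powersetCard 5 h)).card = 792 := by
    rw [Finset.card_biUnion]
    · rw [Finset.sum_congr rfl (fun h hh => by
        rw [Finset.card_powersetCard, h6 h hh]), Finset.sum_const, hc]
      rfl
    · intro h hh h' hh' hne
      show Disjoint (Finset.powersetCard 5 h) (Finset.powersetCard 5 h')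
      rw [Finset.disjoint_left]
      intro t ht ht'
      obtain ⟨a1, a2⟩ := Finset.mem_powersetCard.1 ht
      obtain ⟨b1, _⟩ := Finset.mem_powersetCard.1 ht'
      exact hne (huniq h hh h' hh' t a2 a1 b1)
  have heq : HH.biUnion (fun h => Finset.powersetCard 5 h) = Finset.powersetCard 5 univ := by
    apply Finset.eq_of_subset_of_card_le
    · intro t ht
      obtain ⟨h, _, h2⟩ := Finset.mem_biUnion.1 ht
      exact Finset.mem_powersetCard.2 ⟨Finset.subset_univ _, (Finset.mem_powersetCard.1 h2).2⟩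
    · rw [hcard, Finset.card_powersetCard]
      have h12 : (univ : Finset (Fin 12)).card = 12 := by decide +kernel
      rw [h12]
      exact le_of_eq (by decide +kernel)
  have : s ∈ Finset.powersetCard 5 (univ : Finset (Fin 12)) :=
    Finset.mem_powersetCard.2 ⟨Finset.subset_univ _, hs⟩
  rw [← heq] at this
  obtain ⟨h, h1, h2⟩ := Finset.mem_biUnion.1 this
  exact ⟨h, h1, (Finset.mem_powersetCard.1 h2).1⟩

theorem steiner : IsSteinerSystem 5 6 (HB : Set (Finset (Fin 12))) := by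
  refine ⟨fun b hb => HB_card6 hb, fun s hs => ?_⟩
  obtain ⟨h, h1, h2⟩ := exists_of_count HB card_HB (fun _ hh => HB_card6 hh)
    (fun _ hh _ hh' _ h5 h1 h2 => HB_unique hh hh' h5 h1 h2) hs
  exact ⟨h, ⟨h1, h2⟩, fun h' ⟨g1, g2⟩ => HB_unique g1 h1 hs g2 h2⟩

theorem image_blk (x : Equiv.Perm (Fin 12)) {n m : ℕ}
    (h : ∀ i : Fin 12, m.testBit (x i).val = n.testBit i.val) : (blk n).image x = blk m := by
  ext j
  rw [Finset.mem_image, mem_blk]
  constructor
  · rintro ⟨i, hi, rfl⟩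
    rw [h]
    exact (mem_blk _ _).1 hi
  · intro hj
    refine ⟨x.symm j, (mem_blk _ _).2 ?_, x.apply_symm_apply j⟩
    rw [← h, x.apply_symm_apply]
    exact hj

theorem gen_pres (k : Fin 8) : gen k ∈ setSystemAut (HB : Set (Finset (Fin 12))) := by
  apply SteinerDer.mem_aut_of_forall
  intro b hb
  obtain ⟨n, hn, rfl⟩ := mem_HB.1 hb
  obtain ⟨h1, h2⟩ := ML_gen k n hn
  rw [image_blk (gen k) h2]
  exact mem_HB.2 ⟨_, h1, rfl⟩

def S8 : Set (Equiv.Perm (Fin 12)) := {gs, gt, gu, gv, gw, gx1, gx2, gx3}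
def S7 : Set (Equiv.Perm (Fin 12)) := {gs, gt, gu, gv, gw, gx1, gx2}
def G12 : Subgroup (Equiv.Perm (Fin 12)) := Subgroup.closure S8
def G11 : Subgroup (Equiv.Perm (Fin 12)) := Subgroup.closure S7

theorem gen_mem8 (k : Fin 8) : gen k ∈ S8 := by
  fin_cases k <;> simp [gen, S8]

theorem gen_mem7 (k : Fin 8) (hk : k.val < 7) : gen k ∈ S7 := by
  fin_cases k <;> first | (exact absurd hk (by decide)) | simp [gen, S7]

theorem prm_mem8 (i : Fin 5) (t : Fin 12) : prm i t ∈ G12 :=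
  Subgroup.list_prod_mem _ (fun x hx => by
    obtain ⟨k, _, rfl⟩ := List.mem_map.1 hx
    exact Subgroup.subset_closure (gen_mem8 k))

theorem prm_mem7 (i : Fin 5) (t : Fin 12) (hi : 1 ≤ i.val) : prm i t ∈ G11 :=
  Subgroup.list_prod_mem _ (fun x hx => by
    obtain ⟨k, hk, rfl⟩ := List.mem_map.1 hx
    exact Subgroup.subset_closure (gen_mem7 k (wd_lt i t hi k hk)))

theorem exists_chain (Q : Subgroup (Equiv.Perm (Fin 12))) (k0 : ℕ)
    (hQ : ∀ (i : Fin 5) (t : Fin 12), k0 ≤ i.val → prm i t ∈ Q) (t : Fin 5 → Fin 12)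
    (ht : Function.Injective t) (h0 : ∀ i : Fin 5, i.val < k0 → t i = bs i) :
    ∀ k, k0 ≤ k → k ≤ 5 → ∃ π ∈ Q, ∀ i : Fin 5, i.val < k → π (bs i) = t i := by
  intro k hk
  induction k, hk using Nat.le_induction with
  | base => intro _; exact ⟨1, Q.one_mem, fun i hi => (h0 i hi).symm⟩
  | succ k hk ih =>
    intro hk5
    obtain ⟨π, hπQ, hπ⟩ := ih (by omega)
    obtain ⟨kk, hkk⟩ : ∃ kk : Fin 5, kk.val = k := ⟨⟨k, by omega⟩, rfl⟩
    have hs : ∀ j : Fin 5, j < kk → π.symm (t kk) ≠ bs j := by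
      intro j hj h
      have h1 : t kk = π (bs j) := by rw [← h, π.apply_symm_apply]
      rw [hπ j (by rw [← hkk]; exact hj)] at h1
      exact absurd (ht h1) (ne_of_gt hj)
    obtain ⟨h1, h2⟩ := tbl_spec kk (π.symm (t kk)) hs
    refine ⟨π * prm kk (π.symm (t kk)), Q.mul_mem hπQ (hQ kk _ (by rw [hkk]; exact hk)), ?_⟩
    intro i hi
    rcases Nat.lt_succ_iff_lt_or_eq.1 hi with hi | hi
    · rw [Equiv.Perm.mul_apply, h2 i (by show i.val < kk.val; rw [hkk]; exact hi), hπ i hi]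
    · have : i = kk := Fin.ext (hi.trans hkk.symm)
      subst this
      rw [Equiv.Perm.mul_apply, h1, π.apply_symm_apply]

theorem exists12 (t : Fin 5 → Fin 12) (ht : Function.Injective t) :
    ∃ π ∈ G12, ∀ i : Fin 5, π (bs i) = t i := by
  obtain ⟨π, h1, h2⟩ := exists_chain G12 0 (fun i t _ => prm_mem8 i t) t ht
    (fun i hi => absurd hi (Nat.not_lt_zero _)) 5 (Nat.zero_le _) le_rfl
  exact ⟨π, h1, fun i => h2 i i.isLt⟩

theorem card_A : Nat.card (setSystemAut (HB : Set (Finset (Fin 12)))) = 95040 :=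
  SteinerFacts.card_aut12 (α := Fin 12) (by decide) steiner

theorem G12_le : G12 ≤ setSystemAut (HB : Set (Finset (Fin 12))) := by
  unfold G12
  rw [Subgroup.closure_le]
  rintro x (rfl | rfl | rfl | rfl | rfl | rfl | rfl | rfl)
  · exact gen_pres 0
  · exact gen_pres 1
  · exact gen_pres 2
  · exact gen_pres 3
  · exact gen_pres 4
  · exact gen_pres 5
  · exact gen_pres 6
  · exact gen_pres 7

theorem G12_eq : (G12 : Set (Equiv.Perm (Fin 12))) =
    (setSystemAut (HB : Set (Finset (Fin 12))) : Set (Equiv.Perm (Fin 12))) := by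
  apply Set.eq_of_subset_of_ncard_le G12_le _ (Set.toFinite _)
  have hA : ((setSystemAut (HB : Set (Finset (Fin 12))) :
      Set (Equiv.Perm (Fin 12)))).ncard = 95040 :=
    (_root_.Nat.card_coe_set_eq _).symm.trans card_A
  rw [hA]
  choose f hf1 hf2 using fun t : Fin 5 ↪ Fin 12 => exists12 t t.injective
  have hinj : Function.Injective (fun t : Fin 5 ↪ Fin 12 =>
      (⟨f t, hf1 t⟩ : ↥(G12 : Set (Equiv.Perm (Fin 12))))) := by
    intro t t' h
    have h1 : f t = f t' := congrArg Subtype.val h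
    apply DFunLike.ext
    intro i
    rw [← hf2 t i, ← hf2 t' i, h1]
  have h2 := Nat.card_le_card_of_injective _ hinj
  have h3 : Nat.card (Fin 5 ↪ Fin 12) = 95040 := by
    rw [Nat.card_eq_fintype_card, Fintype.card_embedding_eq]
    decide
  rw [h3, _root_.Nat.card_coe_set_eq] at h2
  exact h2

theorem card_G12 : Nat.card G12 = 95040 := by
  have h : Nat.card (G12 : Set (Equiv.Perm (Fin 12))) = 95040 := by
    rw [G12_eq]; exact card_A
  exact h

theorem trans5 : MulAction.IsMultiplyPretransitive G12 (Fin 12) 5 := by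
  refine ⟨fun x y => ?_⟩
  obtain ⟨π, hπ, h1⟩ := exists12 x x.injective
  obtain ⟨ρ, hρ, h2⟩ := exists12 y y.injective
  refine ⟨⟨ρ * π⁻¹, G12.mul_mem hρ (G12.inv_mem hπ)⟩, ?_⟩
  apply DFunLike.ext
  intro i
  show ρ (π⁻¹ (x i)) = y i
  rw [← h1 i]
  show ρ (π.symm (π (bs i))) = y i
  rw [π.symm_apply_apply, h2 i]

theorem sharp (y : Fin 5 ↪ Fin 12) : MulAction.stabilizer G12 y = ⊥ :=
  SteinerFacts.sharp_of_card 5 trans5 (by rw [card_G12]; decide) y

theorem eq_one {σ : Equiv.Perm (Fin 12)} (hσ : σ ∈ G12) (hfix : ∀ i, σ (bs i) = bs i) : σ = 1 := by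
  have h := sharp ⟨bs, bs_injective⟩
  have hm : (⟨σ, hσ⟩ : G12) ∈ MulAction.stabilizer G12 (⟨bs, bs_injective⟩ : Fin 5 ↪ Fin 12) := by
    rw [MulAction.mem_stabilizer_iff]
    apply DFunLike.ext
    intro i
    exact hfix i
  rw [h, Subgroup.mem_bot] at hm
  exact congrArg Subtype.val hm

theorem G11_le : G11 ≤ G12 ⊓ MulAction.stabilizer (Equiv.Perm (Fin 12)) (2 : Fin 12) := by
  unfold G11
  rw [Subgroup.closure_le]
  have key : ∀ k : Fin 8, k.val < 7 →
      gen k ∈ G12 ⊓ MulAction.stabilizer (Equiv.Perm (Fin 12)) (2 : Fin 12) := fun k hk =>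
    ⟨Subgroup.subset_closure (gen_mem8 k), gen_fix2 k hk⟩
  rintro x (rfl | rfl | rfl | rfl | rfl | rfl | rfl)
  · exact key 0 (by decide)
  · exact key 1 (by decide)
  · exact key 2 (by decide)
  · exact key 3 (by decide)
  · exact key 4 (by decide)
  · exact key 5 (by decide)
  · exact key 6 (by decide)

theorem G11_eq : G11 = G12 ⊓ MulAction.stabilizer (Equiv.Perm (Fin 12)) (2 : Fin 12) := by
  apply le_antisymm G11_le
  rintro σ ⟨h1, h2⟩
  have h2' : σ 2 = 2 := h2
  obtain ⟨π, hπ, hp⟩ := exists_chain G11 1 (fun i t hi => prm_mem7 i t hi) (fun i => σ (bs i))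
    (fun i j h => bs_injective (σ.injective h)) (by
      intro i hi
      have : i = 0 := Fin.ext (by simpa using hi)
      subst this
      exact h2') 5 (by norm_num) le_rfl
  have h3 : π⁻¹ * σ = 1 := eq_one (G12.mul_mem (G12.inv_mem (G11_le hπ).1) h1) (by
    intro i
    rw [Equiv.Perm.mul_apply, ← hp i i.isLt]
    exact π.symm_apply_apply _)
  have h4 : σ = π := (inv_mul_eq_one.1 h3).symm
  rw [h4]
  exact hπ

theorem card_G11 : Nat.card G11 = 7920 := by
  have hmap : (MulAction.stabilizer G12 (2 : Fin 12)).map G12.subtype =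
      G12 ⊓ MulAction.stabilizer (Equiv.Perm (Fin 12)) (2 : Fin 12) := by
    ext σ
    constructor
    · rintro ⟨g, hg, rfl⟩
      exact ⟨g.2, hg⟩
    · rintro ⟨h1, h2⟩
      exact ⟨⟨σ, h1⟩, h2, rfl⟩
  rw [G11_eq, ← hmap, Subgroup.card_map_of_injective G12.subtype_injective]
  have : MulAction.IsPretransitive G12 (Fin 12) := by
    have hto : ∀ y : Fin 12, ∃ g : G12, g • (2 : Fin 12) = y := fun y =>
      ⟨⟨prm 0 y, prm_mem8 0 y⟩, (tbl_spec 0 y (fun j hj => absurd hj (by simp))).1⟩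
    refine ⟨fun x y => ?_⟩
    obtain ⟨g, hg⟩ := hto x
    obtain ⟨g', hg'⟩ := hto y
    exact ⟨g' * g⁻¹, by rw [← hg, mul_smul, inv_smul_smul, hg']⟩
  have h1 := MulAction.index_stabilizer_of_transitive G12 (2 : Fin 12)
  have h2 := Subgroup.card_mul_index (MulAction.stabilizer G12 (2 : Fin 12))
  rw [h1, card_G12, Nat.card_eq_fintype_card (α := Fin 12), Fintype.card_fin] at h2
  omega

end Cfsg.Agent.Lib.Helper28.M12Gen
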