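import Cfsg.Agent.Lib.Helper28.M24Cls2
import Cfsg.Agent.Lib.Helper3.Trios

/-!
Counting the octads, dodecads, sextets and trios fixed by an element of `M24`.
-/

set_option autoImplicit false

namespace Cfsg.Agent.Lib.Helper28

open Cfsg Cfsg.Agent.Lib.Helper3.M24T Cfsg.Agent.Lib.Helper3.M24Gen
open Cfsg.Agent.Lib.Helper3.Sext Cfsg.Agent.Lib.Helper3.Trio Cfsg.Agent.Lib.Helper3.Orb
open scoped Pointwise

/-- the number of fixed members of an invariant family only depends on the conjugacy class. -/
theorem ncard_fix_transport {β : Type*} [MulAction (Equiv.Perm GolayPt) β] (A : Set β)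
    (hA : ∀ k ∈ M24, ∀ x ∈ A, k • x ∈ A) {k g r : Equiv.Perm GolayPt} (hk : k ∈ M24)
    (h : k * g * k⁻¹ = r) : {x | x ∈ A ∧ g • x = x}.ncard = {x | x ∈ A ∧ r • x = x}.ncard := by
  have : {x | x ∈ A ∧ r • x = x} = (fun x : β => k • x) '' {x | x ∈ A ∧ g • x = x} := by
    ext y
    constructor
    · rintro ⟨hy1, hy2⟩
      refine ⟨k⁻¹ • y, ⟨hA _ (M24.inv_mem hk) _ hy1, ?_⟩, smul_inv_smul k y⟩
      have e : g = k⁻¹ * r * k := by rw [← h]; group
      rw [e, smul_smul]
      have : k⁻¹ * r * k * k⁻¹ = k⁻¹ * r := by group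
      rw [this, mul_smul, hy2]
    · rintro ⟨x, ⟨hx1, hx2⟩, rfl⟩
      refine ⟨hA _ hk _ hx1, ?_⟩
      show r • k • x = k • x
      rw [← h, smul_smul]
      have : k * g * k⁻¹ * k = k * g := by group
      rw [this, mul_smul, hx2]
  rw [this, Set.ncard_image_of_injective _ (MulAction.injective k)]

theorem smul_eq_iff_img {t : List ℕ} (ht : inM24 t = true) (o : Finset GolayPt) (o' : Finset GolayPt) :
    permOf t • o = o' ↔ img t (mk o) = mk o' := by
  rw [← mk_inj, mk_smul, tblOf_permOf (isTbl_of_inM24 ht)]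

/-- the number of fixed code words of weight `n`. -/
theorem ncard_fix_words (n : ℕ) {t : List ℕ} (ht : inM24 t = true) :
    {o | o ∈ wordsOfWeight (golayCode : Set (GolayPt → ZMod 2)) n ∧ permOf t • o = o}.ncard =
      ((Finset.range 4096).filter fun a => popc (enc B12 a) = n ∧
        img t (enc B12 a) = enc B12 a).card := by
  rw [← ncard_code (fun m => popc m = n ∧ img t m = m)]
  congr 1
  ext o
  simp only [Set.mem_ofPred_eq, mem_wordsOfWeight_iff, smul_eq_iff_img ht, and_assoc]

/-- the mask of a set as an iterated "or". -/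
def mkF (t : Finset GolayPt) : ℕ := t.fold (· ||| ·) 0 fun p => 2 ^ idx p

theorem mkF_eq (t : Finset GolayPt) : mkF t = mk t := by
  induction t using Finset.induction_on with
  | empty => simp [mkF, mk_empty]
  | insert p t hp ih =>
    unfold mkF at ih ⊢
    rw [Finset.fold_insert hp, ih, Finset.insert_eq, mk_union, mk_singleton]

theorem smul_K {g : Equiv.Perm GolayPt} (hg : g ∈ M24) {t : Finset GolayPt} (ht : t.card = 4) :
    g • K t = K (g • t) :=
  eq_K (smul_mem_sextets hg (K_mem_sextets ht)) (Finset.smul_mem_smul_finset (self_mem_K ht))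

/-- six times the number of fixed sextets is the number of tetrads congruent to their image. -/
theorem ncard_fix_sextets {t : List ℕ} (ht : inM24 t = true) :
    6 * {S | S ∈ sextets ∧ permOf t • S = S}.ncard =
      ((Finset.powersetCard 4 (Finset.univ : Finset GolayPt)).filter fun u =>
        isCode (mkF u ^^^ img t (mkF u)) = true).card := by
  classical
  have hg := permOf_mem_M24 ht
  have hfin : {S | S ∈ sextets ∧ permOf t • S = S}.Finite := Set.toFinite _
  rw [Set.ncard_eq_toFinset_card _ hfin]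
  have key : ((Finset.powersetCard 4 (Finset.univ : Finset GolayPt)).filter fun u =>
      isCode (mkF u ^^^ img t (mkF u)) = true) = hfin.toFinset.biUnion id := by
    ext u
    rw [Finset.mem_filter, Finset.mem_powersetCard, Finset.mem_biUnion, mkF_eq]
    have e1 : isCode (mk u ^^^ img t (mk u)) = true ↔ inC (symmDiff u (permOf t • u)) := by
      unfold inC
      rw [mk_symmDiff, mk_smul, tblOf_permOf (isTbl_of_inM24 ht)]
    rw [e1]
    constructor
    · rintro ⟨⟨_, hu⟩, hc⟩
      refine ⟨K u, hfin.mem_toFinset.2 ⟨K_mem_sextets hu, ?_⟩, self_mem_K hu⟩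
      rw [smul_K hg hu]
      have h4 : (permOf t • u).card = 4 := by rw [card_smul, hu]
      have hm : permOf t • u ∈ K u := mem_K.2 ⟨h4, hc⟩
      exact (eq_K (K_mem_sextets hu) hm).symm
    · rintro ⟨S, hS, hu⟩
      obtain ⟨hS1, hS2⟩ := hfin.mem_toFinset.1 hS
      have hu' : u ∈ S := hu
      have h4 := hS1.2.1 u hu'
      refine ⟨⟨Finset.subset_univ _, h4⟩, ?_⟩
      have h5 : permOf t • u ∈ S := by
        rw [← hS2]; exact Finset.smul_mem_smul_finset hu'
      rw [eq_K hS1 hu'] at h5
      exact (mem_K.1 h5).2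
  rw [key, Finset.card_biUnion]
  · have h6 : ∀ S ∈ hfin.toFinset, (id S : Finset (Finset GolayPt)).card = 6 :=
      fun S hS => (hfin.mem_toFinset.1 hS).1.1
    rw [Finset.sum_congr rfl h6, Finset.sum_const, smul_eq_mul, mul_comm]
  · intro S hS S' hS' hne
    change Disjoint S S'
    rw [Finset.mem_coe] at hS hS'
    rw [Finset.disjoint_left]
    intro u hu hu'
    apply hne
    rw [eq_K (hfin.mem_toFinset.1 hS).1 hu, eq_K (hfin.mem_toFinset.1 hS').1 hu']

theorem mk_compl (s : Finset GolayPt) : mk sᶜ = 16777215 ^^^ mk s := by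
  have h3 : symmDiff Finset.univ s = sᶜ := by
    ext a
    simp [Finset.mem_symmDiff]
  rw [← h3, mk_symmDiff, mk_univ]

/-- the condition on a pair of octads (by information bits) to span a fixed trio. -/
def trioQ (t : List ℕ) (p : ℕ × ℕ) : Bool :=
  let x := enc B12 p.1
  let y := enc B12 p.2
  (x &&& y == 0) &&
    (let z := 16777215 ^^^ (x ||| y)
     let gx := img t x
     let gy := img t y
     (gx == x || gx == y || gx == z) && (gy == x || gy == y || gy == z))

theorem mem_tr {o o' x : Finset GolayPt} : x ∈ tr (o, o') ↔ x = o ∨ x = o' ∨ x = (o ∪ o')ᶜ := by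
  simp [tr]

set_option linter.constructorNameAsVariable false in
/-- six times the number of fixed trios. -/
theorem ncard_fix_trios {t : List ℕ} (ht : inM24 t = true) :
    6 * {T | T ∈ trios ∧ permOf t • T = T}.ncard =
      ((infoOfWeight 8 ×ˢ infoOfWeight 8).filter fun p => trioQ t p = true).card := by
  classical
  have hg := permOf_mem_M24 ht
  have hfin : {T | T ∈ trios ∧ permOf t • T = T}.Finite := Set.toFinite _
  rw [Set.ncard_eq_toFinset_card _ hfin]
  set P := (infoOfWeight 8 ×ˢ infoOfWeight 8).filter fun p => trioQ t p = true with hP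
  have hI : ∀ a ∈ infoOfWeight 8, un (enc B12 a) ∈ octads ∧ mk (un (enc B12 a)) = enc B12 a := by
    intro a ha
    simp only [infoOfWeight, Finset.mem_filter, Finset.mem_range] at ha
    have h1 := mk_un (enc_facts a ha.1).2.1
    refine ⟨?_, h1⟩
    rw [mem_octads_iff, h1]
    exact ⟨isCode_enc ha.1, ha.2⟩
  -- meaning of the condition
  have hQ : ∀ a ∈ infoOfWeight 8, ∀ b ∈ infoOfWeight 8, (trioQ t (a, b) = true ↔
      Disjoint (un (enc B12 a)) (un (enc B12 b)) ∧
        permOf t • un (enc B12 a) ∈ tr (un (enc B12 a), un (enc B12 b)) ∧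
        permOf t • un (enc B12 b) ∈ tr (un (enc B12 a), un (enc B12 b))) := by
    intro a ha b hb
    rw [mem_tr, mem_tr, disjoint_iff_land]
    simp only [smul_eq_iff_img ht, mk_compl, mk_union, (hI a ha).2, (hI b hb).2, trioQ,
      Bool.and_eq_true, Bool.or_eq_true, beq_iff_eq, or_assoc]
  have hfixT : ∀ o o' : Finset GolayPt, o ∈ octads → o' ∈ octads → Disjoint o o' →
      (permOf t • tr (o, o') = tr (o, o') ↔ permOf t • o ∈ tr (o, o') ∧ permOf t • o' ∈ tr (o, o')) := by
    intro o o' ho ho' hd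
    have hT := tr_mem_trios ho ho' hd
    have m1 : o ∈ tr (o, o') := mem_tr.2 (Or.inl rfl)
    have m2 : o' ∈ tr (o, o') := mem_tr.2 (Or.inr (Or.inl rfl))
    have hne : o ≠ o' := ne_of_disjoint (mem_octads_iff'.1 ho).2 hd
    constructor
    · intro h
      constructor
      · rw [← h]; exact Finset.smul_mem_smul_finset m1
      · rw [← h]; exact Finset.smul_mem_smul_finset m2
    · rintro ⟨h1, h2⟩
      have hne' : permOf t • o ≠ permOf t • o' := fun h => hne (MulAction.injective _ h)
      rw [trio_eq (smul_mem_trios hg hT) (Finset.smul_mem_smul_finset m1)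
        (Finset.smul_mem_smul_finset m2) hne', ← trio_eq hT h1 h2 hne']
  have h2 := Finset.card_eq_sum_card_fiberwise (f := fun p : ℕ × ℕ =>
    tr (un (enc B12 p.1), un (enc B12 p.2))) (s := P) (t := hfin.toFinset) (by
      intro p hp
      rw [Finset.mem_coe, hP, Finset.mem_filter, Finset.mem_product] at hp
      obtain ⟨⟨ha, hb⟩, hq⟩ := hp
      obtain ⟨hd, h1, h2⟩ := (hQ p.1 ha p.2 hb).1 hq
      rw [Finset.mem_coe, hfin.mem_toFinset]
      exact ⟨tr_mem_trios (hI _ ha).1 (hI _ hb).1 hd,
        (hfixT _ _ (hI _ ha).1 (hI _ hb).1 hd).2 ⟨h1, h2⟩⟩)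
  have h6 : ∀ T ∈ hfin.toFinset,
      (P.filter (fun p => tr (un (enc B12 p.1), un (enc B12 p.2)) = T)).card = 6 := by
    intro T hT
    rw [hfin.mem_toFinset] at hT
    obtain ⟨hT1, hT2⟩ := hT
    have : (P.filter (fun p => tr (un (enc B12 p.1), un (enc B12 p.2)) = T)).card
        = T.offDiag.card := by
      apply Finset.card_bij (fun p _ => (un (enc B12 p.1), un (enc B12 p.2)))
      · intro p hp
        rw [Finset.mem_filter, hP, Finset.mem_filter, Finset.mem_product] at hp
        obtain ⟨⟨⟨ha, hb⟩, hq⟩, h4⟩ := hp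
        obtain ⟨hd, _, _⟩ := (hQ p.1 ha p.2 hb).1 hq
        rw [Finset.mem_offDiag, ← h4]
        exact ⟨mem_tr.2 (Or.inl rfl), mem_tr.2 (Or.inr (Or.inl rfl)),
          ne_of_disjoint (mem_octads_iff'.1 (hI _ ha).1).2 hd⟩
      · rintro ⟨a, b⟩ hp ⟨a', b'⟩ hp' h
        rw [Finset.mem_filter, hP, Finset.mem_filter, Finset.mem_product] at hp hp'
        simp only [Prod.mk.injEq] at h
        have inj : ∀ a ∈ infoOfWeight 8, ∀ a' ∈ infoOfWeight 8,
            un (enc B12 a) = un (enc B12 a') → a = a' := by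
          intro a ha a' ha' h
          have h' := congrArg mk h
          rw [(hI a ha).2, (hI a' ha').2] at h'
          simp only [infoOfWeight, Finset.mem_filter, Finset.mem_range] at ha ha'
          rw [← (enc_facts a ha.1).1, ← (enc_facts a' ha'.1).1, h']
        rw [inj a hp.1.1.1 a' hp'.1.1.1 h.1, inj b hp.1.1.2 b' hp'.1.1.2 h.2]
      · rintro ⟨o, o'⟩ hab
        rw [Finset.mem_offDiag] at hab
        obtain ⟨ho, ho', hne⟩ := hab
        have oct := hT1.2.1 o ho
        have oct' := hT1.2.1 o' ho'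
        have hd := hT1.2.2 o ho o' ho' hne
        have idxOf : ∀ o : Finset GolayPt, o ∈ octads →
            mk o % 4096 ∈ infoOfWeight 8 ∧ un (enc B12 (mk o % 4096)) = o := by
          intro o ho
          rw [mem_octads_iff] at ho
          simp only [infoOfWeight, Finset.mem_filter, Finset.mem_range]
          rw [isCode_iff.1 ho.1, un_mk]
          exact ⟨⟨Nat.mod_lt _ (by decide), ho.2⟩, rfl⟩
        obtain ⟨i1, i2⟩ := idxOf o oct
        obtain ⟨j1, j2⟩ := idxOf o' oct'
        have hTe := trio_eq hT1 ho ho' hne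
        refine ⟨(mk o % 4096, mk o' % 4096), ?_, by simp only [i2, j2]⟩
        rw [Finset.mem_filter, hP, Finset.mem_filter, Finset.mem_product]
        refine ⟨⟨⟨i1, j1⟩, ?_⟩, by simp only [i2, j2]; exact hTe.symm⟩
        rw [hQ _ i1 _ j1, i2, j2]
        refine ⟨hd, ?_⟩
        rw [← hfixT o o' oct oct' hd, ← hTe]
        exact hT2
    rw [this, Finset.offDiag_card, hT1.1]
  rw [Finset.sum_congr rfl h6, Finset.sum_const, smul_eq_mul] at h2
  omega

end Cfsg.Agent.Lib.Helper28
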