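import Cfsg.Agent.Lib.Helper28.M24FixTrio

/-!
The octads, trios and sextets fixed by the representative involution with eight fixed points.
-/

set_option autoImplicit false
set_option maxRecDepth 100000

namespace Cfsg.Agent.Lib.Helper28

open Cfsg
open scoped Pointwise

theorem oct_r2A : ((Finset.range 4096).filter fun a => popc (enc B12 a) = 8 ∧
    img r2A (enc B12 a) = enc B12 a).card = 71 := by decide +kernel

theorem p1_r2A : ((fixOct r2A ×ˢ fixOct r2A).filter fun p => enc B12 p.1 &&& enc B12 p.2 = 0).card = 546 := by
  decide +kernel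

theorem s2_r2A : ((Finset.range 4096).filter fun a => popc (enc B12 a) = 8 ∧
    s2Q r2A (enc B12 a) = true).card = 16 := by decide +kernel

theorem s_r2A : ((Finset.range 4096).filter fun a => popc (enc B12 a) = 8 ∧
    sQ r2A (enc B12 a) = true).card = 16 := by decide +kernel

theorem tet_r2A : ((Finset.powersetCard 4 (Finset.univ : Finset GolayPt)).filter fun u =>
    isCode (mkF u ^^^ img r2A (mkF u)) = true).card = 546 := by decide +kernel

theorem fix_octads_r2A : {o | o ∈ octads ∧ permOf r2A • o = o}.ncard = 71 :=
  (ncard_fix_words 8 inM24_r2A).trans oct_r2A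

theorem fix_trios_r2A : {T | T ∈ trios ∧ permOf r2A • T = T}.ncard = 99 := by
  have := six_mul_fix_trios inM24_r2A
  rw [p1_r2A, s2_r2A, s_r2A] at this
  omega

theorem fix_sextets_r2A : {S | S ∈ sextets ∧ permOf r2A • S = S}.ncard = 91 := by
  have := ncard_fix_sextets inM24_r2A
  rw [tet_r2A] at this
  omega

end Cfsg.Agent.Lib.Helper28
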