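import Cfsg.Agent.Lib.Helper28.M24FixTrio

/-!
The octads, trios and sextets fixed by the representative element of order three with six fixed points.
-/

set_option autoImplicit false
set_option maxRecDepth 100000

namespace Cfsg.Agent.Lib.Helper28

open Cfsg
open scoped Pointwise

theorem oct_r3A : ((Finset.range 4096).filter fun a => popc (enc B12 a) = 8 ∧
    img r3A (enc B12 a) = enc B12 a).card = 21 := by decide +kernel

theorem p1_r3A : ((fixOct r3A ×ˢ fixOct r3A).filter fun p => enc B12 p.1 &&& enc B12 p.2 = 0).card = 90 := by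
  decide +kernel

theorem s2_r3A : ((Finset.range 4096).filter fun a => popc (enc B12 a) = 8 ∧
    s2Q r3A (enc B12 a) = true).card = 0 := by decide +kernel

theorem s_r3A : ((Finset.range 4096).filter fun a => popc (enc B12 a) = 8 ∧
    sQ r3A (enc B12 a) = true).card = 0 := by decide +kernel

theorem tet_r3A : ((Finset.powersetCard 4 (Finset.univ : Finset GolayPt)).filter fun u =>
    isCode (mkF u ^^^ img r3A (mkF u)) = true).card = 96 := by decide +kernel

theorem fix_octads_r3A : {o | o ∈ octads ∧ permOf r3A • o = o}.ncard = 21 :=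
  (ncard_fix_words 8 inM24_r3A).trans oct_r3A

theorem fix_trios_r3A : {T | T ∈ trios ∧ permOf r3A • T = T}.ncard = 15 := by
  have := six_mul_fix_trios inM24_r3A
  rw [p1_r3A, s2_r3A, s_r3A] at this
  omega

theorem fix_sextets_r3A : {S | S ∈ sextets ∧ permOf r3A • S = S}.ncard = 16 := by
  have := ncard_fix_sextets inM24_r3A
  rw [tet_r3A] at this
  omega

theorem dod_r3A : ((Finset.range 4096).filter fun a => popc (enc B12 a) = 12 ∧
    img r3A (enc B12 a) = enc B12 a).card = 20 := by decide +kernel

theorem fix_dodecads_r3A : {o | o ∈ dodecads ∧ permOf r3A • o = o}.ncard = 20 :=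
  (ncard_fix_words 12 inM24_r3A).trans dod_r3A

end Cfsg.Agent.Lib.Helper28
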