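import Cfsg.Agent.Lib.Helper28.M24FixCount

/-!
A fast formula for the number of trios fixed by an element of `M24`.
-/

set_option autoImplicit false

namespace Cfsg.Agent.Lib.Helper28

open Cfsg Cfsg.Agent.Lib.Helper3.M24T Cfsg.Agent.Lib.Helper3.M24Gen
open Cfsg.Agent.Lib.Helper3.Sext Cfsg.Agent.Lib.Helper3.Trio Cfsg.Agent.Lib.Helper3.Orb
open scoped Pointwise

abbrev FS := Finset GolayPt

/-- ordered pairs of disjoint octads spanning a fixed trio. -/
def Pset (g : Equiv.Perm GolayPt) : Set (FS × FS) :=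
  {p | p.1 ∈ octads ∧ p.2 ∈ octads ∧ Disjoint p.1 p.2 ∧ g • tr p = tr p}

theorem six_mul_ncard_fix_trios (g : Equiv.Perm GolayPt) :
    6 * {T | T ∈ trios ∧ g • T = T}.ncard = (Pset g).ncard := by
  classical
  have hfin : {T | T ∈ trios ∧ g • T = T}.Finite := Set.toFinite _
  have hfinP : (Pset g).Finite := Set.toFinite _
  rw [Set.ncard_eq_toFinset_card _ hfin, Set.ncard_eq_toFinset_card _ hfinP]
  have h2 := Finset.card_eq_sum_card_fiberwise (f := fun p : FS × FS => tr p) (s := hfinP.toFinset)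
    (t := hfin.toFinset) (by
      intro p hp
      rw [Finset.mem_coe, hfinP.mem_toFinset] at hp
      rw [Finset.mem_coe, hfin.mem_toFinset]
      exact ⟨tr_mem_trios hp.1 hp.2.1 hp.2.2.1, hp.2.2.2⟩)
  have h6 : ∀ T ∈ hfin.toFinset, (hfinP.toFinset.filter (fun p => tr p = T)).card = 6 := by
    intro T hT
    rw [hfin.mem_toFinset] at hT
    obtain ⟨hT1, hT2⟩ := hT
    have : hfinP.toFinset.filter (fun p => tr p = T) = T.offDiag := by
      ext ⟨o, o'⟩
      rw [Finset.mem_filter, hfinP.mem_toFinset, Finset.mem_offDiag]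
      constructor
      · rintro ⟨⟨h1, _, h3, _⟩, h4⟩
        rw [← h4]
        exact ⟨mem_tr.2 (Or.inl rfl), mem_tr.2 (Or.inr (Or.inl rfl)),
          ne_of_disjoint (mem_octads_iff'.1 h1).2 h3⟩
      · rintro ⟨ho, ho', hne⟩
        have hTe := trio_eq hT1 ho ho' hne
        exact ⟨⟨hT1.2.1 o ho, hT1.2.1 o' ho', hT1.2.2 o ho o' ho' hne, by rw [← hTe]; exact hT2⟩,
          hTe.symm⟩
    rw [this, Finset.offDiag_card, hT1.1]
  rw [Finset.sum_congr rfl h6, Finset.sum_const, smul_eq_mul] at h2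
  omega

/-- octads moved to a disjoint octad inside a fixed trio. -/
def Sset (g : Equiv.Perm GolayPt) : Set FS :=
  {x | x ∈ octads ∧ Disjoint x (g • x) ∧ g • tr (x, g • x) = tr (x, g • x)}

/-- those which are swapped with their image. -/
def S2set (g : Equiv.Perm GolayPt) : Set FS := {x | x ∈ Sset g ∧ g • g • x = x}

/-- pairs of disjoint fixed octads. -/
def P1set (g : Equiv.Perm GolayPt) : Set (FS × FS) :=
  {p | (p.1 ∈ octads ∧ g • p.1 = p.1) ∧ (p.2 ∈ octads ∧ g • p.2 = p.2) ∧ Disjoint p.1 p.2}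

theorem trio_cases {T : Finset FS} (hT : T ∈ trios) {o o' w : FS} (ho : o ∈ T) (ho' : o' ∈ T)
    (hne : o ≠ o') (hw : w ∈ T) : w = o ∨ w = o' ∨ w = (o ∪ o')ᶜ := by
  rw [trio_eq hT ho ho' hne] at hw
  exact mem_tr.1 hw

theorem third_mem {T : Finset FS} (hT : T ∈ trios) {o o' : FS} (ho : o ∈ T) (ho' : o' ∈ T)
    (hne : o ≠ o') : (o ∪ o')ᶜ ∈ T := by
  rw [trio_eq hT ho ho' hne]
  exact mem_tr.2 (Or.inr (Or.inr rfl))

theorem octad_ne_of_disjoint {o o' : FS} (ho : o ∈ octads) (hd : Disjoint o o') : o ≠ o' :=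
  ne_of_disjoint (mem_octads_iff'.1 ho).2 hd

theorem third_ne {o o' : FS} (ho : o ∈ octads) (ho' : o' ∈ octads) :
    (o ∪ o')ᶜ ≠ o ∧ (o ∪ o')ᶜ ≠ o' := by
  have key : ∀ a b : FS, a ∈ octads → a ⊆ b → bᶜ ≠ a := by
    intro a b ha hab h
    have hne : a.Nonempty := by
      rw [← Finset.card_pos, (mem_octads_iff'.1 ha).2]; norm_num
    obtain ⟨p, hp⟩ := hne
    have h1 : p ∈ bᶜ := by rw [h]; exact hp
    exact (Finset.mem_compl.1 h1) (hab hp)
  exact ⟨key _ _ ho Finset.subset_union_left, key _ _ ho' Finset.subset_union_right⟩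

theorem ncard_Pset {g : Equiv.Perm GolayPt} (hg : g ∈ M24) :
    (Pset g).ncard = (P1set g).ncard + (S2set g).ncard + 2 * (Sset g).ncard := by
  classical
  have ginj : ∀ a b : FS, g • a = g • b → a = b := fun a b h => MulAction.injective g h
  -- facts on a pair of `Pset`
  have facts : ∀ p ∈ Pset g, tr p ∈ trios ∧ p.1 ∈ tr p ∧ p.2 ∈ tr p ∧ p.1 ≠ p.2 ∧
      (∀ w ∈ tr p, g • w ∈ tr p) := by
    intro p hp
    refine ⟨tr_mem_trios hp.1 hp.2.1 hp.2.2.1, mem_tr.2 (Or.inl rfl), mem_tr.2 (Or.inr (Or.inl rfl)),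
      octad_ne_of_disjoint hp.1 hp.2.2.1, fun w hw => ?_⟩
    rw [← hp.2.2.2]; exact Finset.smul_mem_smul_finset hw
  have factsS : ∀ x ∈ Sset g, tr (x, g • x) ∈ trios ∧ x ∈ tr (x, g • x) ∧ g • x ∈ tr (x, g • x) ∧
      x ≠ g • x ∧ (∀ w ∈ tr (x, g • x), g • w ∈ tr (x, g • x)) := by
    intro x hx
    refine ⟨tr_mem_trios hx.1 (smul_mem_octads hg hx.1) hx.2.1, mem_tr.2 (Or.inl rfl),
      mem_tr.2 (Or.inr (Or.inl rfl)), octad_ne_of_disjoint hx.1 hx.2.1, fun w hw => ?_⟩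
    rw [← hx.2.2]; exact Finset.smul_mem_smul_finset hw
  -- a pair of distinct members of a fixed trio lies in `Pset`
  have mkP : ∀ T : Finset FS, T ∈ trios → g • T = T → ∀ o ∈ T, ∀ o' ∈ T, o ≠ o' →
      (o, o') ∈ Pset g ∧ tr (o, o') = T := by
    intro T hT hgT o ho o' ho' hne
    have e := trio_eq hT ho ho' hne
    exact ⟨⟨hT.2.1 o ho, hT.2.1 o' ho', hT.2.2 o ho o' ho' hne, by rw [← e]; exact hgT⟩, e.symm⟩
  have e3 : {p | p ∈ Pset g ∧ g • p.1 = p.2} = (fun x : FS => (x, g • x)) '' Sset g := by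
    ext p
    constructor
    · rintro ⟨hp, h⟩
      refine ⟨p.1, ⟨hp.1, by rw [h]; exact hp.2.2.1, ?_⟩, Prod.ext rfl h⟩
      rw [h]; exact hp.2.2.2
    · rintro ⟨x, hx, rfl⟩
      exact ⟨⟨hx.1, smul_mem_octads hg hx.1, hx.2.1, hx.2.2⟩, rfl⟩
  have e4 : {p | p ∈ Pset g ∧ g • p.1 = (p.1 ∪ p.2)ᶜ} =
      (fun x : FS => (x, (x ∪ g • x)ᶜ)) '' Sset g := by
    ext p
    constructor
    · rintro ⟨hp, h⟩
      obtain ⟨hT, m1, m2, hne, hinv⟩ := facts p hp
      have m3 : g • p.1 ∈ tr p := hinv _ m1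
      have hne3 : p.1 ≠ g • p.1 := by rw [h]; exact (third_ne hp.1 hp.2.1).1.symm
      obtain ⟨hP', hT'⟩ := mkP _ hT hp.2.2.2 _ m1 _ m3 hne3
      refine ⟨p.1, ⟨hp.1, hP'.2.2.1, by rw [hT']; exact hp.2.2.2⟩, ?_⟩
      have h5 := trio_cases hT m1 m3 hne3 m2
      rcases h5 with h5 | h5 | h5
      · exact absurd h5.symm hne
      · rw [h] at h5; exact absurd h5.symm (third_ne hp.1 hp.2.1).2
      · exact Prod.ext rfl h5.symm
    · rintro ⟨x, hx, rfl⟩
      obtain ⟨hT, m1, m2, hne, hinv⟩ := factsS x hx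
      have m3 := third_mem hT m1 m2 hne
      have hn := third_ne hx.1 (smul_mem_octads hg hx.1)
      obtain ⟨hP', hT'⟩ := mkP _ hT hx.2.2 _ m1 _ m3 hn.1.symm
      refine ⟨hP', ?_⟩
      rcases trio_cases hT m1 m3 hn.1.symm m2 with h5 | h5 | h5
      · exact absurd h5.symm hne
      · exact absurd h5.symm hn.2
      · exact h5
  have e2 : {p | p ∈ Pset g ∧ g • p.1 = p.1 ∧ g • p.2 ≠ p.2} =
      (fun y : FS => ((y ∪ g • y)ᶜ, y)) '' S2set g := by
    ext p
    constructor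
    · rintro ⟨hp, h1, h2⟩
      obtain ⟨hT, m1, m2, hne, hinv⟩ := facts p hp
      have m3 : g • p.2 ∈ tr p := hinv _ m2
      have hgy : g • p.2 = (p.1 ∪ p.2)ᶜ := by
        rcases mem_tr.1 m3 with h5 | h5 | h5
        · exact absurd (ginj _ _ (h5.trans h1.symm)).symm hne
        · exact absurd h5 h2
        · exact h5
      obtain ⟨hP', hT'⟩ := mkP _ hT hp.2.2.2 _ m2 _ m3 (Ne.symm h2)
      have hn := third_ne hp.1 hp.2.1
      have hggy : g • g • p.2 = p.2 := by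
        rcases mem_tr.1 (hinv _ m3) with h5 | h5 | h5
        · have := ginj _ _ (h5.trans h1.symm)
          rw [hgy] at this
          exact absurd this hn.1
        · exact h5
        · have := ginj _ _ (h5.trans hgy.symm)
          exact absurd this h2
      refine ⟨p.2, ⟨⟨hp.2.1, hP'.2.2.1, by rw [hT']; exact hp.2.2.2⟩, hggy⟩, ?_⟩
      rcases trio_cases hT m2 m3 (Ne.symm h2) m1 with h5 | h5 | h5
      · exact absurd h5 hne
      · rw [hgy] at h5; exact absurd h5.symm hn.1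
      · exact Prod.ext h5.symm rfl
    · rintro ⟨y, ⟨hy, hggy⟩, rfl⟩
      obtain ⟨hT, m1, m2, hne, hinv⟩ := factsS y hy
      have m3 := third_mem hT m1 m2 hne
      have hn := third_ne hy.1 (smul_mem_octads hg hy.1)
      obtain ⟨hP', hT'⟩ := mkP _ hT hy.2.2 _ m3 _ m1 hn.1
      refine ⟨hP', ?_, Ne.symm hne⟩
      rcases trio_cases hT m1 m2 hne (hinv _ m3) with h5 | h5 | h5
      · have := ginj _ _ (h5.trans hggy.symm)
        exact absurd this hn.2
      · exact absurd (ginj _ _ h5) hn.1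
      · exact h5
  have e1 : {p | p ∈ Pset g ∧ g • p.1 = p.1 ∧ g • p.2 = p.2} = P1set g := by
    ext p
    constructor
    · rintro ⟨hp, h1, h2⟩
      exact ⟨⟨hp.1, h1⟩, ⟨hp.2.1, h2⟩, hp.2.2.1⟩
    · rintro ⟨⟨h1, h2⟩, ⟨h3, h4⟩, h5⟩
      refine ⟨⟨h1, h3, h5, ?_⟩, h2, h4⟩
      have hT := tr_mem_trios h1 h3 h5
      have hne := octad_ne_of_disjoint h1 h5
      have m1 : p.1 ∈ tr p := mem_tr.2 (Or.inl rfl)
      have m2 : p.2 ∈ tr p := mem_tr.2 (Or.inr (Or.inl rfl))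
      have := trio_eq (smul_mem_trios hg hT) (Finset.smul_mem_smul_finset m1)
        (Finset.smul_mem_smul_finset m2) (fun h => hne (ginj _ _ h))
      rw [this, h2, h4]
  -- splitting
  have hfinP : (Pset g).Finite := Set.toFinite _
  have split : ∀ (A : Set (FS × FS)) (q : FS × FS → Prop),
      A.ncard = {p | p ∈ A ∧ q p}.ncard + {p | p ∈ A ∧ ¬ q p}.ncard := by
    intro A q
    rw [← Set.ncard_union_eq _ (Set.toFinite _) (Set.toFinite _)]
    · congr 1
      ext p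
      simp only [Set.mem_union, Set.mem_ofPred_eq]
      tauto
    · rw [Set.disjoint_left]
      rintro p ⟨_, h1⟩ ⟨_, h2⟩
      exact h2 h1
  rw [split (Pset g) (fun p => g • p.1 = p.1),
    split {p | p ∈ Pset g ∧ g • p.1 = p.1} (fun p => g • p.2 = p.2),
    split {p | p ∈ Pset g ∧ ¬ g • p.1 = p.1} (fun p => g • p.1 = p.2)]
  have f1 : {p | p ∈ {p | p ∈ Pset g ∧ g • p.1 = p.1} ∧ g • p.2 = p.2} = P1set g := by
    rw [← e1]; ext p; simp only [Set.mem_ofPred_eq, and_assoc]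
  have f2 : {p | p ∈ {p | p ∈ Pset g ∧ g • p.1 = p.1} ∧ ¬ g • p.2 = p.2} =
      (fun y : FS => ((y ∪ g • y)ᶜ, y)) '' S2set g := by
    rw [← e2]; ext p; simp only [Set.mem_ofPred_eq, and_assoc, ne_eq]
  have f3 : {p | p ∈ {p | p ∈ Pset g ∧ ¬ g • p.1 = p.1} ∧ g • p.1 = p.2} =
      (fun x : FS => (x, g • x)) '' Sset g := by
    rw [← e3]; ext p
    simp only [Set.mem_ofPred_eq]
    constructor
    · rintro ⟨⟨h1, _⟩, h3⟩; exact ⟨h1, h3⟩
    · rintro ⟨h1, h3⟩
      exact ⟨⟨h1, fun h => (facts p h1).2.2.2.1 (h.symm.trans h3)⟩, h3⟩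
  have f4 : {p | p ∈ {p | p ∈ Pset g ∧ ¬ g • p.1 = p.1} ∧ ¬ g • p.1 = p.2} =
      (fun x : FS => (x, (x ∪ g • x)ᶜ)) '' Sset g := by
    rw [← e4]; ext p
    simp only [Set.mem_ofPred_eq]
    constructor
    · rintro ⟨⟨h1, h2⟩, h3⟩
      obtain ⟨hT, m1, m2, hne, hinv⟩ := facts p h1
      rcases mem_tr.1 (hinv _ m1) with h5 | h5 | h5
      · exact absurd h5 h2
      · exact absurd h5 h3
      · exact ⟨h1, h5⟩
    · rintro ⟨h1, h3⟩
      have hn := third_ne h1.1 h1.2.1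
      exact ⟨⟨h1, fun h => hn.1 (h3.symm.trans h)⟩, fun h => hn.2 (h3.symm.trans h)⟩
  rw [f1, f2, f3, f4,
    Set.ncard_image_of_injective _ (fun a b h => (Prod.ext_iff.1 h).2),
    Set.ncard_image_of_injective _ (fun a b h => (Prod.ext_iff.1 h).1),
    Set.ncard_image_of_injective _ (fun a b h => (Prod.ext_iff.1 h).1)]
  ring

theorem fix_tr_iff {g : Equiv.Perm GolayPt} (hg : g ∈ M24) {o o' : FS} (ho : o ∈ octads)
    (ho' : o' ∈ octads) (hd : Disjoint o o') :
    g • tr (o, o') = tr (o, o') ↔ g • o ∈ tr (o, o') ∧ g • o' ∈ tr (o, o') := by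
  have hT := tr_mem_trios ho ho' hd
  have m1 : o ∈ tr (o, o') := mem_tr.2 (Or.inl rfl)
  have m2 : o' ∈ tr (o, o') := mem_tr.2 (Or.inr (Or.inl rfl))
  have hne : o ≠ o' := octad_ne_of_disjoint ho hd
  constructor
  · intro h
    constructor
    · rw [← h]; exact Finset.smul_mem_smul_finset m1
    · rw [← h]; exact Finset.smul_mem_smul_finset m2
  · rintro ⟨h1, h2⟩
    have hne' : g • o ≠ g • o' := fun h => hne (MulAction.injective _ h)
    rw [trio_eq (smul_mem_trios hg hT) (Finset.smul_mem_smul_finset m1)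
      (Finset.smul_mem_smul_finset m2) hne', ← trio_eq hT h1 h2 hne']

/-- mask-level condition for `Sset`. -/
def sQ (t : List ℕ) (m : ℕ) : Bool :=
  (m &&& img t m == 0) && (img t (img t m) == m || img t (img t m) == img t m ||
    img t (img t m) == 16777215 ^^^ (m ||| img t m))

/-- mask-level condition for `S2set`. -/
def s2Q (t : List ℕ) (m : ℕ) : Bool := (m &&& img t m == 0) && (img t (img t m) == m)

theorem mk_permOf_smul' {t : List ℕ} (ht : inM24 t = true) (x : FS) :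
    mk (permOf t • x) = img t (mk x) := by
  rw [mk_smul, tblOf_permOf (isTbl_of_inM24 ht)]

theorem mem_Sset_iff {t : List ℕ} (ht : inM24 t = true) (x : FS) :
    x ∈ Sset (permOf t) ↔ isCode (mk x) = true ∧ popc (mk x) = 8 ∧ sQ t (mk x) = true := by
  have hg := permOf_mem_M24 ht
  unfold Sset
  rw [Set.mem_ofPred_eq, mem_octads_iff, and_assoc]
  refine and_congr_right fun h1 => and_congr_right fun h2 => ?_
  have hx : x ∈ octads := (mem_octads_iff x).2 ⟨h1, h2⟩
  simp only [sQ, Bool.and_eq_true, Bool.or_eq_true, beq_iff_eq]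
  rw [disjoint_iff_land, mk_permOf_smul' ht]
  refine and_congr_right fun h3 => ?_
  have hd : Disjoint x (permOf t • x) := by rw [disjoint_iff_land, mk_permOf_smul' ht]; exact h3
  rw [fix_tr_iff hg hx (smul_mem_octads hg hx) hd, mem_tr, mem_tr]
  simp only [← mk_inj (s := permOf t • permOf t • x), mk_compl, mk_union, mk_permOf_smul' ht, or_assoc]
  constructor
  · rintro ⟨_, h⟩; exact h
  · intro h; exact ⟨Or.inr (Or.inl trivial), h⟩

theorem mem_S2set_iff {t : List ℕ} (ht : inM24 t = true) (x : FS) :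
    x ∈ S2set (permOf t) ↔ isCode (mk x) = true ∧ popc (mk x) = 8 ∧ s2Q t (mk x) = true := by
  unfold S2set
  rw [Set.mem_ofPred_eq, mem_Sset_iff ht, ← mk_inj, mk_permOf_smul' ht, mk_permOf_smul' ht]
  simp only [sQ, s2Q, Bool.and_eq_true, Bool.or_eq_true, beq_iff_eq]
  tauto

theorem ncard_Sset {t : List ℕ} (ht : inM24 t = true) : (Sset (permOf t)).ncard =
    ((Finset.range 4096).filter fun a => popc (enc B12 a) = 8 ∧ sQ t (enc B12 a) = true).card := by
  rw [← ncard_code (fun m => popc m = 8 ∧ sQ t m = true)]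
  congr 1
  ext x
  exact mem_Sset_iff ht x

theorem ncard_S2set {t : List ℕ} (ht : inM24 t = true) : (S2set (permOf t)).ncard =
    ((Finset.range 4096).filter fun a => popc (enc B12 a) = 8 ∧ s2Q t (enc B12 a) = true).card := by
  rw [← ncard_code (fun m => popc m = 8 ∧ s2Q t m = true)]
  congr 1
  ext x
  exact mem_S2set_iff ht x

/-- information bits of the fixed octads. -/
def fixOct (t : List ℕ) : Finset ℕ :=
  (Finset.range 4096).filter fun a => popc (enc B12 a) = 8 ∧ img t (enc B12 a) = enc B12 a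

set_option linter.constructorNameAsVariable false in
theorem ncard_P1set {t : List ℕ} (ht : inM24 t = true) : (P1set (permOf t)).ncard =
    ((fixOct t ×ˢ fixOct t).filter fun p => enc B12 p.1 &&& enc B12 p.2 = 0).card := by
  have hI : ∀ a ∈ fixOct t, mk (un (enc B12 a)) = enc B12 a ∧ a < 4096 := by
    intro a ha
    simp only [fixOct, Finset.mem_filter, Finset.mem_range] at ha
    exact ⟨mk_un (enc_facts a ha.1).2.1, ha.1⟩
  have hmem : ∀ o : FS, (o ∈ octads ∧ permOf t • o = o) ↔ ∃ a ∈ fixOct t, un (enc B12 a) = o := by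
    intro o
    rw [mem_octads_iff, smul_eq_iff_img ht]
    constructor
    · rintro ⟨⟨h1, h2⟩, h3⟩
      refine ⟨mk o % 4096, ?_, by rw [isCode_iff.1 h1, un_mk]⟩
      simp only [fixOct, Finset.mem_filter, Finset.mem_range]
      rw [isCode_iff.1 h1]
      exact ⟨Nat.mod_lt _ (by decide), h2, h3⟩
    · rintro ⟨a, ha, rfl⟩
      rw [(hI a ha).1]
      simp only [fixOct, Finset.mem_filter, Finset.mem_range] at ha
      exact ⟨⟨isCode_enc ha.1, ha.2.1⟩, ha.2.2⟩
  have : P1set (permOf t) = ↑(((fixOct t ×ˢ fixOct t).filter fun p =>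
      enc B12 p.1 &&& enc B12 p.2 = 0).image fun p => (un (enc B12 p.1), un (enc B12 p.2))) := by
    ext ⟨o, o'⟩
    simp only [P1set, Set.mem_ofPred_eq, Finset.coe_image, Set.mem_image, Finset.mem_coe,
      Finset.mem_filter, Finset.mem_product, Prod.mk.injEq, Prod.exists]
    rw [hmem, hmem]
    constructor
    · rintro ⟨⟨a, ha, rfl⟩, ⟨b, hb, rfl⟩, hd⟩
      rw [disjoint_iff_land, (hI a ha).1, (hI b hb).1] at hd
      exact ⟨a, b, ⟨⟨ha, hb⟩, hd⟩, rfl, rfl⟩
    · rintro ⟨a, b, ⟨⟨ha, hb⟩, hd⟩, rfl, rfl⟩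
      refine ⟨⟨a, ha, rfl⟩, ⟨b, hb, rfl⟩, ?_⟩
      rw [disjoint_iff_land, (hI a ha).1, (hI b hb).1]
      exact hd
  rw [this, Set.ncard_coe_finset, Finset.card_image_of_injOn]
  rintro ⟨a, b⟩ hp ⟨a', b'⟩ hp' h
  simp only [Finset.coe_filter, Finset.mem_product, Set.mem_ofPred_eq] at hp hp'
  simp only [Prod.mk.injEq] at h
  have inj : ∀ a ∈ fixOct t, ∀ a' ∈ fixOct t, un (enc B12 a) = un (enc B12 a') → a = a' := by
    intro a ha a' ha' h
    have h' := congrArg mk h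
    rw [(hI a ha).1, (hI a' ha').1] at h'
    rw [← (enc_facts a (hI a ha).2).1, ← (enc_facts a' (hI a' ha').2).1, h']
  rw [inj a hp.1.1 a' hp'.1.1 h.1, inj b hp.1.2 b' hp'.1.2 h.2]

/-- the fast formula. -/
theorem six_mul_fix_trios {t : List ℕ} (ht : inM24 t = true) :
    6 * {T | T ∈ trios ∧ permOf t • T = T}.ncard =
      ((fixOct t ×ˢ fixOct t).filter fun p => enc B12 p.1 &&& enc B12 p.2 = 0).card +
      ((Finset.range 4096).filter fun a => popc (enc B12 a) = 8 ∧ s2Q t (enc B12 a) = true).card +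
      2 * ((Finset.range 4096).filter fun a => popc (enc B12 a) = 8 ∧ sQ t (enc B12 a) = true).card := by
  rw [six_mul_ncard_fix_trios, ncard_Pset (permOf_mem_M24 ht), ncard_P1set ht, ncard_S2set ht,
    ncard_Sset ht]

end Cfsg.Agent.Lib.Helper28
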