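import Cfsg.Agent.Lib.Helper28.M24Cls2

/-!
Elements of order six of `M24`: the fixed points of their powers.
-/

set_option autoImplicit false

namespace Cfsg.Agent.Lib.Helper28

open Cfsg Cfsg.Agent.Lib.Helper3.M24T Cfsg.Agent.Lib.Helper3.M24Gen
open scoped Pointwise

/-- an element mapping `∞ → 0 → 1 → 2 → 3`. -/
def t6 : List ℕ := [1, 2, 3, 17, 21, 23, 22, 6, 19, 10, 12, 15, 8, 20, 14, 7, 18, 5, 16, 11, 4, 9, 13, 0]

theorem inM24_t6 : inM24 t6 = true := by decide +kernel

/-- the property of elements of order six. -/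
def q6 (T : List ℕ) : Bool :=
  let T2 := comp T T
  let T3 := comp T T2
  let T4 := comp T2 T2
  !(comp T3 T3 == idT && T2 != idT && T3 != idT) ||
    (popc (fixMask T4) == 6 && popc (fixMask T3) == 8) ||
    (popc (fixMask T4) == 0 && popc (fixMask T3) == 0)

theorem check6a : list960.all (fun s => q6 (comp t6 s)) = true := by decide +kernel
theorem check6b : list960.all (fun s => q6 (comp t3 s)) = true := by decide +kernel

theorem of_q6 {y : Equiv.Perm GolayPt} (h : q6 (tblOf y) = true) (h6 : (y * (y * y)) * (y * (y * y)) = 1)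
    (h2 : y * y ≠ 1) (h3 : y * (y * y) ≠ 1) :
    ((fixSet ((y * y) * (y * y))).card = 6 ∧ (fixSet (y * (y * y))).card = 8) ∨
      ((fixSet ((y * y) * (y * y))).card = 0 ∧ (fixSet (y * (y * y))).card = 0) := by
  simp only [q6, ← tblOf_mul, ← card_fixSet, h6, tblOf_one, beq_self_eq_true, Bool.true_and,
    Bool.or_eq_true, Bool.not_eq_true', Bool.and_eq_false_iff, bne_eq_false_iff_eq,
    Bool.and_eq_true, beq_iff_eq] at h
  rcases h with (h | h) | h
  · rcases h with h | h
    · exact absurd (tblOf_injective (h.trans tblOf_one.symm)) h2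
    · exact absurd (tblOf_injective (h.trans tblOf_one.symm)) h3
  · exact Or.inl h
  · exact Or.inr h

theorem order6_fix {y : Equiv.Perm GolayPt} (hy : y ∈ M24) (h6 : (y * (y * y)) * (y * (y * y)) = 1)
    (h2 : y * y ≠ 1) (h3 : y * (y * y) ≠ 1) :
    ((fixSet ((y * y) * (y * y))).card = 6 ∧ (fixSet (y * (y * y))).card = 8) ∨
      ((fixSet ((y * y) * (y * y))).card = 0 ∧ (fixSet (y * (y * y))).card = 0) := by
  have hy6 : ∀ p, y (y (y (y (y (y p))))) = p := fun p => by
    have := congrArg (fun f : Equiv.Perm GolayPt => f p) h6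
    simpa using this
  -- it suffices to treat a conjugate
  suffices hs : ∃ k ∈ M24, q6 (tblOf (k * y * k⁻¹)) = true by
    obtain ⟨k, hk, hq⟩ := hs
    have e2 : k * y * k⁻¹ * (k * y * k⁻¹) = k * (y * y) * k⁻¹ := by group
    have e3 : k * y * k⁻¹ * (k * (y * y) * k⁻¹) = k * (y * (y * y)) * k⁻¹ := by group
    have e4 : k * (y * y) * k⁻¹ * (k * (y * y) * k⁻¹) = k * ((y * y) * (y * y)) * k⁻¹ := by group
    have e6 : k * (y * (y * y)) * k⁻¹ * (k * (y * (y * y)) * k⁻¹)
        = k * ((y * (y * y)) * (y * (y * y))) * k⁻¹ := by group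
    have hne : ∀ z : Equiv.Perm GolayPt, z ≠ 1 → k * z * k⁻¹ ≠ 1 := by
      intro z hz h
      apply hz
      have : z = k⁻¹ * (k * z * k⁻¹) * k := by group
      rw [this, h]; simp
    have := of_q6 hq (by rw [e2, e3, e6, h6]; simp) (by rw [e2]; exact hne _ h2)
      (by rw [e2, e3]; exact hne _ h3)
    rw [e2, e3, e4, card_fixSet_conj, card_fixSet_conj] at this
    exact this
  by_cases hA : ∃ p, y (y p) ≠ p ∧ y (y (y p)) ≠ p
  · obtain ⟨p, hp2, hp3⟩ := hA
    have hp1 : y p ≠ p := fun h => hp2 (by rw [h, h])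
    have hp4 : y (y (y (y p))) ≠ p := fun h => hp2 (by
      have := hy6 p
      rw [h] at this
      exact this)
    obtain ⟨k, hk, hmap⟩ := exists_M24_map_base [p, y p, y (y p), y (y (y p)), y (y (y (y p)))]
      (by simp) (by simp [Ne.symm hp1, Ne.symm hp2, Ne.symm hp3, Ne.symm hp4])
    simp only [List.map_cons, List.map_nil, List.length_cons, List.length_nil, List.take_succ_cons,
      List.take_zero, List.cons.injEq, and_true, zero_add, Nat.reduceAdd] at hmap
    obtain ⟨e1, e2, e3, e4, e5⟩ := hmap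
    refine ⟨k, hk, check960 inM24_t6 check6a (conj_mem hk hy) ?_⟩
    intro i hi
    simp only [List.mem_cons, List.not_mem_nil, or_false] at hi
    rcases hi with rfl | rfl | rfl | rfl
    · rw [← e1, conj_apply, e2, e1, permOf_ptOf inM24_t6 (by decide)]; rfl
    · rw [← e2, conj_apply, e3, e2, permOf_ptOf inM24_t6 (by decide)]; rfl
    · rw [← e3, conj_apply, e4, e3, permOf_ptOf inM24_t6 (by decide)]; rfl
    · rw [← e4, conj_apply, e5, e4, permOf_ptOf inM24_t6 (by decide)]; rfl
  · push Not at hA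
    obtain ⟨p, hp2⟩ : ∃ p, y (y p) ≠ p := by
      by_contra hcon
      push Not at hcon
      exact h2 (Equiv.ext hcon)
    have hp3 := hA p hp2
    obtain ⟨q, hq3⟩ : ∃ q, y (y (y q)) ≠ q := by
      by_contra hcon
      push Not at hcon
      exact h3 (Equiv.ext hcon)
    have hq2 : y (y q) = q := by
      by_contra h
      exact hq3 (hA q h)
    have hp1 : y p ≠ p := fun h => hp2 (by rw [h, h])
    have hq1 : y q ≠ q := fun h => hq3 (by rw [h, h, h])
    -- the points of the 3-cycle are fixed by the cube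
    have c0 : q ≠ p := fun h => hq3 (by rw [h]; exact hp3)
    have c1 : q ≠ y p := fun h => hq3 (by rw [h, hp3])
    have c2 : q ≠ y (y p) := fun h => hq3 (by rw [h, hp3])
    have d0 : y q ≠ p := fun h => c1 (by rw [← h, hq2])
    have d1 : y q ≠ y p := fun h => c0 (y.injective h)
    have d2 : y q ≠ y (y p) := fun h => c1 (y.injective h)
    obtain ⟨k, hk, hmap⟩ := exists_M24_map_base [p, y p, y (y p), q, y q]
      (by simp) (by simp [Ne.symm hp1, Ne.symm hp2, Ne.symm hq1, Ne.symm c0, Ne.symm c1, Ne.symm c2,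
        Ne.symm d0, Ne.symm d1, Ne.symm d2])
    simp only [List.map_cons, List.map_nil, List.length_cons, List.length_nil, List.take_succ_cons,
      List.take_zero, List.cons.injEq, and_true, zero_add, Nat.reduceAdd] at hmap
    obtain ⟨e1, e2, e3, e4, e5⟩ := hmap
    refine ⟨k, hk, check960 inM24_t3 check6b (conj_mem hk hy) ?_⟩
    intro i hi
    simp only [List.mem_cons, List.not_mem_nil, or_false] at hi
    rcases hi with rfl | rfl | rfl | rfl
    · rw [← e1, conj_apply, e2, e1, permOf_ptOf inM24_t3 (by decide)]; rfl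
    · rw [← e2, conj_apply, e3, e2, permOf_ptOf inM24_t3 (by decide)]; rfl
    · rw [← e3, conj_apply, hp3, e1, e3, permOf_ptOf inM24_t3 (by decide)]; rfl
    · rw [← e4, conj_apply, e5, e4, permOf_ptOf inM24_t3 (by decide)]; rfl

end Cfsg.Agent.Lib.Helper28
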