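import Cfsg.Agent.Lib.Helper28.M24Cls2

/-!
The stabiliser of five points of `M24` acting on the remaining points; six-element sets.
-/

set_option autoImplicit false

namespace Cfsg.Agent.Lib.Helper28

open Cfsg Cfsg.Agent.Lib.Helper3.M24T Cfsg.Agent.Lib.Helper3.M24Gen
open scoped Pointwise

theorem list48_good : list48.all (fun s => inM24 s && [23, 0, 1, 2, 3].all fun i => s.getD i 0 == i) = true := by
  decide +kernel

theorem list48_nodup : list48.Nodup := by decide +kernel

theorem permOf_mem_stab5 {s : List ℕ} (hs : s ∈ list48) :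
    inM24 s = true ∧ permOf s ∈ stabL [23, 0, 1, 2, 3] := by
  have h := List.all_eq_true.1 list48_good s hs
  simp only [Bool.and_eq_true, List.all_eq_true, beq_iff_eq] at h
  refine ⟨h.1, (mem_stabL _ _).2 ⟨permOf_mem_M24 h.1, fun i hi => ?_⟩⟩
  have hi24 : i < 24 := by
    have : ∀ i ∈ ([23, 0, 1, 2, 3] : List ℕ), i < 24 := by decide
    exact this i hi
  rw [permOf_ptOf h.1 hi24, h.2 i hi]

/-- the number of elements fixing the five base points and a further point. -/
theorem ncard_fix6 {j : ℕ} (hj : j < 24) :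
    {s : Equiv.Perm GolayPt | s ∈ stabL [23, 0, 1, 2, 3] ∧ s (ptOf j) = ptOf j}.ncard =
      (list48.filter fun t => t.getD j 0 == j).length := by
  classical
  have : {s : Equiv.Perm GolayPt | s ∈ stabL [23, 0, 1, 2, 3] ∧ s (ptOf j) = ptOf j} =
      ↑((list48.filter fun t => t.getD j 0 == j).toFinset.image permOf) := by
    ext s
    simp only [Set.mem_ofPred_eq, Finset.coe_image, Set.mem_image, Finset.mem_coe, List.mem_toFinset,
      List.mem_filter, beq_iff_eq]
    constructor
    · rintro ⟨h1, h2⟩
      refine ⟨tblOf s, ⟨tblOf_mem_list48 h1, ?_⟩, permOf_tblOf s⟩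
      rw [getD_tblOf s hj, h2, idx_ptOf hj]
    · rintro ⟨t, ⟨h1, h2⟩, rfl⟩
      obtain ⟨h3, h4⟩ := permOf_mem_stab5 h1
      exact ⟨h4, by rw [permOf_ptOf h3 hj, h2]⟩
  rw [this, Set.ncard_coe_finset, Finset.card_image_of_injOn, List.toFinset_card_of_nodup
    (list48_nodup.filter _)]
  intro a ha b hb h
  simp only [List.coe_toFinset, List.mem_filter, Set.mem_ofPred_eq] at ha hb
  rw [← tblOf_permOf (isTbl_of_inM24 (permOf_mem_stab5 ha.1).1), h,
    tblOf_permOf (isTbl_of_inM24 (permOf_mem_stab5 hb.1).1)]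

theorem fix6_count : ∀ j < 24, j ∉ [23, 0, 1, 2, 3] →
    (list48.filter fun t => t.getD j 0 == j).length = if O5.testBit j then 16 else 3 := by
  decide +kernel

theorem trans48 : ∀ i < 24, ∀ j < 24, i ∉ [23, 0, 1, 2, 3] → j ∉ [23, 0, 1, 2, 3] →
    O5.testBit i = O5.testBit j → ∃ s ∈ list48, s.getD i 0 = j := by
  have h : ((List.range 24).all fun i => (List.range 24).all fun j =>
      [23, 0, 1, 2, 3].contains i || [23, 0, 1, 2, 3].contains j ||
      (O5.testBit i != O5.testBit j) || (list48.any fun s => s.getD i 0 == j)) = true := by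
    decide +kernel
  intro i hi j hj h1 h2 h3
  have := List.all_eq_true.1 (List.all_eq_true.1 h i (List.mem_range.2 hi)) j (List.mem_range.2 hj)
  simp only [Bool.or_eq_true, List.contains_iff_mem, bne_iff_ne, ne_eq, List.any_eq_true,
    beq_iff_eq] at this
  rcases this with ((h | h) | h) | h
  · exact absurd h h1
  · exact absurd h h2
  · exact absurd h3 h
  · exact h

/-- the set lies in an octad. -/
def Special (F : Finset GolayPt) : Prop := ∃ o ∈ octads, F ⊆ o

theorem special_smul {k : Equiv.Perm GolayPt} (hk : k ∈ M24) {F : Finset GolayPt} :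
    Special (k • F) ↔ Special F := by
  constructor
  · rintro ⟨o, ho, h⟩
    refine ⟨k⁻¹ • o, inv_smul_mem_octads hk ho, ?_⟩
    intro p hp
    have h1 : k p ∈ o := h ((mem_smul_finset_iff k F p).2 hp)
    have h2 := (mem_smul_finset_iff k⁻¹ o (k p)).2 h1
    simpa using h2
  · rintro ⟨o, ho, h⟩
    refine ⟨k • o, smul_mem_octads hk ho, ?_⟩
    intro p hp
    have e : p = k (k⁻¹ p) := by simp
    rw [e] at hp ⊢
    rw [mem_smul_finset_iff] at hp ⊢
    exact h hp

theorem special_base {x : GolayPt} :
    Special (insert x (un 8388623)) ↔ x ∈ un O5 := by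
  have hO : un O5 ∈ octads := un_mem_octads isOct_O5
  have hsub : un 8388623 ⊆ un O5 := by decide +kernel
  constructor
  · rintro ⟨o, ho, h⟩
    have : o = un O5 := by
      apply octad_eq_of_five ho hO
      have h1 : un 8388623 ⊆ o ∩ un O5 := by
        intro p hp
        exact Finset.mem_inter.2 ⟨h (Finset.mem_insert_of_mem hp), hsub hp⟩
      have h2 := Finset.card_le_card h1
      have h3 : (un 8388623).card = 5 := by decide +kernel
      omega
    rw [← this]
    exact h (Finset.mem_insert_self _ _)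
  · intro hx
    refine ⟨un O5, hO, ?_⟩
    intro p hp
    rcases Finset.mem_insert.1 hp with rfl | hp
    · exact hx
    · exact hsub hp

end Cfsg.Agent.Lib.Helper28
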