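import Cfsg.Agent.Lib.Helper28.M24Six

/-!
Six-element sets of points under `M24`.
-/

set_option autoImplicit false

namespace Cfsg.Agent.Lib.Helper28

open Cfsg Cfsg.Agent.Lib.Helper3.M24T Cfsg.Agent.Lib.Helper3.M24Gen
open scoped Pointwise

theorem list_of_card_six {E : Finset GolayPt} (hE : E.card = 6) :
    ∃ q a b c d e, E.toList = [q, a, b, c, d, e] := by
  have hl : E.toList.length = 6 := by rw [Finset.length_toList]; exact hE
  match h : E.toList, hl with
  | [q, a, b, c, d, e], _ => exact ⟨q, a, b, c, d, e, rfl⟩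

theorem smul_toFinset (k : Equiv.Perm GolayPt) (l : List GolayPt) :
    k • l.toFinset = (l.map k).toFinset := by
  rw [smul_finset_eq_image]
  ext x
  simp

theorem mem_base5 {x : GolayPt} : x ∈ un 8388623 ↔ idx x ∈ [23, 0, 1, 2, 3] := by
  rw [mem_un]
  have : ∀ j < 24, ((8388623 : ℕ).testBit j = true ↔ j ∈ [23, 0, 1, 2, 3]) := by decide
  exact this _ (idx_lt x)

/-- a list `q :: l` with `l` mapped to the base points. -/
theorem smul_cons_base {k : Equiv.Perm GolayPt} {q : GolayPt} {l : List GolayPt}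
    (hmap : l.map k = ([23, 0, 1, 2, 3] : List ℕ).map ptOf) (hnd : (q :: l).Nodup) :
    k • (q :: l).toFinset = insert (k q) (un 8388623) ∧ k q ∉ un 8388623 := by
  constructor
  · rw [smul_toFinset, List.map_cons, List.toFinset_cons, hmap, base5_toFinset]
  · rw [← base5_toFinset, ← hmap, List.mem_toFinset, List.mem_map]
    rintro ⟨p, hp, h⟩
    rw [k.injective h] at hp
    exact (List.nodup_cons.1 hnd).1 hp

theorem fix_set_conj (k : Equiv.Perm GolayPt) (hk : k ∈ M24) (E : Finset GolayPt) :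
    {g : Equiv.Perm GolayPt | g ∈ M24 ∧ ∀ p ∈ E, g p = p}.ncard =
      {g : Equiv.Perm GolayPt | g ∈ M24 ∧ ∀ p ∈ k • E, g p = p}.ncard := by
  have : {g : Equiv.Perm GolayPt | g ∈ M24 ∧ ∀ p ∈ k • E, g p = p} =
      (fun g => k * g * k⁻¹) '' {g : Equiv.Perm GolayPt | g ∈ M24 ∧ ∀ p ∈ E, g p = p} := by
    ext s
    constructor
    · rintro ⟨h1, h2⟩
      refine ⟨k⁻¹ * s * k, ⟨M24.mul_mem (M24.mul_mem (M24.inv_mem hk) h1) hk, fun p hp => ?_⟩,
        by group⟩
      have := h2 (k p) ((mem_smul_finset_iff k E p).2 hp)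
      simp only [Equiv.Perm.mul_apply, this]
      simp
    · rintro ⟨g, ⟨h1, h2⟩, rfl⟩
      refine ⟨conj_mem hk h1, fun p hp => ?_⟩
      have e : p = k (k⁻¹ p) := by simp
      rw [e] at hp
      rw [mem_smul_finset_iff] at hp
      have h3 := conj_apply k g (k⁻¹ p)
      rw [h2 _ hp, ← e] at h3
      exact h3
  rw [this, Set.ncard_image_of_injective]
  intro a b h
  simpa using h

theorem fix_insert_base (x : GolayPt) :
    {g : Equiv.Perm GolayPt | g ∈ M24 ∧ ∀ p ∈ insert x (un 8388623), g p = p} =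
      {s : Equiv.Perm GolayPt | s ∈ stabL [23, 0, 1, 2, 3] ∧ s (ptOf (idx x)) = ptOf (idx x)} := by
  ext g
  simp only [Set.mem_ofPred_eq, mem_stabL, ptOf_idx, Finset.mem_insert, forall_eq_or_imp]
  constructor
  · rintro ⟨h1, h2, h3⟩
    refine ⟨⟨h1, fun i hi => h3 _ ?_⟩, h2⟩
    have hi24 : i < 24 := by
      have : ∀ i ∈ ([23, 0, 1, 2, 3] : List ℕ), i < 24 := by decide
      exact this i hi
    rw [mem_base5, idx_ptOf hi24]; exact hi
  · rintro ⟨⟨h1, h3⟩, h2⟩
    refine ⟨h1, h2, fun p hp => ?_⟩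
    have := h3 _ (mem_base5.1 hp)
    rwa [ptOf_idx] at this

open Classical in
/-- the order of the pointwise stabiliser of a six-element set. -/
theorem ncard_fix_six {E : Finset GolayPt} (hE : E.card = 6) :
    {g : Equiv.Perm GolayPt | g ∈ M24 ∧ ∀ p ∈ E, g p = p}.ncard = if Special E then 16 else 3 := by
  obtain ⟨q, a, b, c, d, e, hlist⟩ := list_of_card_six hE
  have hnd := E.nodup_toList
  rw [hlist] at hnd
  obtain ⟨k, hk, hmap⟩ := exists_M24_map_base [a, b, c, d, e] (by simp) (List.nodup_cons.1 hnd).2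
  have hmap' : [a, b, c, d, e].map k = ([23, 0, 1, 2, 3] : List ℕ).map ptOf := hmap
  obtain ⟨h1, h2⟩ := smul_cons_base hmap' hnd
  rw [← hlist, Finset.toList_toFinset] at h1
  rw [fix_set_conj k hk, h1, fix_insert_base, ncard_fix6 (idx_lt _),
    fix6_count _ (idx_lt _) (fun h => h2 (mem_base5.2 h))]
  have h3 : Special E ↔ O5.testBit (idx (k q)) = true := by
    rw [← special_smul hk, h1, special_base, mem_un]
  simp only [h3]

/-- every permutation of a six-element set is induced by `M24`. -/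
theorem exists_induce_six {E : Finset GolayPt} (hE : E.card = 6) (τ : GolayPt → GolayPt)
    (hinj : Set.InjOn τ E) (hmaps : E.image τ = E) : ∃ g ∈ M24, ∀ p ∈ E, g p = τ p := by
  obtain ⟨q, a, b, c, d, e, hlist⟩ := list_of_card_six hE
  have hnd := E.nodup_toList
  have hEl : E = [q, a, b, c, d, e].toFinset := by rw [← hlist, Finset.toList_toFinset]
  rw [hlist] at hnd
  have hnd' : ([q, a, b, c, d, e].map τ).Nodup := by
    apply List.Nodup.map_on _ hnd
    intro x hx y hy h
    apply hinj _ _ h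
    · rw [hEl]; exact List.mem_toFinset.2 hx
    · rw [hEl]; exact List.mem_toFinset.2 hy
  rw [List.map_cons] at hnd'
  obtain ⟨g0, hg0, hmap0⟩ := exists_M24_map_list [a, b, c, d, e] ([a, b, c, d, e].map τ) (by simp)
    (by simp) (List.nodup_cons.1 hnd).2 (List.nodup_cons.1 hnd').2
  obtain ⟨k, hk, hmapk⟩ := exists_M24_map_base ([a, b, c, d, e].map τ) (by simp)
    (List.nodup_cons.1 hnd').2
  have hmapk' : ([a, b, c, d, e].map τ).map k = ([23, 0, 1, 2, 3] : List ℕ).map ptOf := hmapk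
  -- the set `E` in two ways
  have hE1 : g0 • E = (g0 q :: [a, b, c, d, e].map τ).toFinset := by
    rw [hEl, smul_toFinset, List.map_cons, hmap0]
  have hE2 : E = (τ q :: [a, b, c, d, e].map τ).toFinset := by
    have h0 : ∀ l : List GolayPt, l.toFinset.image τ = (l.map τ).toFinset := by
      intro l; ext x; simp
    conv_lhs => rw [← hmaps, hEl, h0, List.map_cons]
  have hnd1 : (g0 q :: [a, b, c, d, e].map τ).Nodup := by
    rw [← hmap0, ← List.map_cons]
    exact hnd.map g0.injective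
  obtain ⟨y1, y2⟩ := smul_cons_base hmapk' hnd1
  obtain ⟨z1, z2⟩ := smul_cons_base hmapk' hnd'
  rw [← hE1] at y1
  rw [← hE2] at z1
  have hsp : O5.testBit (idx (k (g0 q))) = O5.testBit (idx (k (τ q))) := by
    have h1 : Special E ↔ O5.testBit (idx (k (g0 q))) = true := by
      rw [← special_smul hg0, ← special_smul hk, y1, special_base, mem_un]
    have h2 : Special E ↔ O5.testBit (idx (k (τ q))) = true := by
      rw [← special_smul hk, z1, special_base, mem_un]
    rw [Bool.eq_iff_iff, ← h1, ← h2]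
  obtain ⟨s, hs, hsv⟩ := trans48 _ (idx_lt _) _ (idx_lt _) (fun h => y2 (mem_base5.2 h))
    (fun h => z2 (mem_base5.2 h)) hsp
  obtain ⟨hs1, hs2⟩ := permOf_mem_stab5 hs
  refine ⟨k⁻¹ * permOf s * k * g0,
    M24.mul_mem (M24.mul_mem (M24.mul_mem (M24.inv_mem hk) (permOf_mem_M24 hs1)) hk) hg0, ?_⟩
  have hfixB : ∀ x ∈ [a, b, c, d, e].map τ, permOf s (k x) = k x := by
    intro x hx
    have h1 : k x ∈ ([a, b, c, d, e].map τ).map k := List.mem_map_of_mem hx
    rw [hmapk'] at h1
    obtain ⟨i, hi, h2⟩ := List.mem_map.1 h1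
    rw [← h2]
    exact ((mem_stabL _ _).1 hs2).2 i hi
  intro p hp
  rw [hEl, List.mem_toFinset, List.mem_cons] at hp
  simp only [Equiv.Perm.mul_apply]
  rw [Equiv.Perm.inv_eq_iff_eq]
  rcases hp with rfl | hp
  · have h1 := permOf_ptOf hs1 (idx_lt (k (g0 p)))
    rw [ptOf_idx, hsv, ptOf_idx] at h1
    exact h1
  · have h1 : g0 p = τ p := by
      have h2 : ∀ x ∈ [a, b, c, d, e], g0 x = τ x := List.map_inj_left.1 hmap0
      exact h2 p hp
    rw [h1]
    exact hfixB _ (List.mem_map_of_mem hp)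

end Cfsg.Agent.Lib.Helper28
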