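import Cfsg.Agent.Lib.Helper28.Sharp72
import Cfsg.Agent.Lib.Helper28.M11Pair
import Cfsg.Agent.S1600
import Cfsg.Agent.S0382
import Cfsg.Agent.S0383

/-!
The pointwise stabiliser of three points of a dodecad in the dodecad stabiliser.
-/

set_option autoImplicit false

namespace Cfsg.Agent.Lib.Helper28.M9

open Cfsg Finset Cfsg.Agent.Lib.Helper28 Cfsg.Agent.Lib.Helper28.M11Pair
open scoped Pointwise

theorem emb5 {a b c e f : GolayPt} (hab : a ≠ b) (hac : a ≠ c) (hae : a ≠ e) (haf : a ≠ f)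
    (hbc : b ≠ c) (hbe : b ≠ e) (hbf : b ≠ f) (hce : c ≠ e) (hcf : c ≠ f) (hef : e ≠ f) :
    ∃ x : Fin 5 ↪ GolayPt, x 0 = a ∧ x 1 = b ∧ x 2 = c ∧ x 3 = e ∧ x 4 = f := by
  refine ⟨⟨![a, b, c, e, f], ?_⟩, rfl, rfl, rfl, rfl, rfl⟩
  intro i j hij
  fin_cases i <;> fin_cases j <;> simp_all

variable {d : Finset GolayPt} (hd : d ∈ dodecads)

/-- restriction of the dodecad stabiliser to the dodecad -/
def R (d : Finset GolayPt) : ↥(MulAction.stabilizer M24 d) →* Equiv.Perm {a : GolayPt // a ∈ d} where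
  toFun g := (g.1.1 : Equiv.Perm GolayPt).subtypePerm (mem_of_smul_eq g.2)
  map_one' := by ext x; rfl
  map_mul' g h := by ext x; rfl

theorem R_apply (g : ↥(MulAction.stabilizer M24 d)) (x : {a : GolayPt // a ∈ d}) :
    ((R d g x : {a : GolayPt // a ∈ d}) : GolayPt) = (g.1.1 : Equiv.Perm GolayPt) x.1 := rfl

include hd in
theorem sign_R (g : ↥(MulAction.stabilizer M24 d)) : Equiv.Perm.sign (R d g) = 1 := by
  have hs := Cfsg.Agent.S0383.result d hd
  let σ : ↥(MulAction.stabilizer M24 d) →* ℤˣ := Equiv.Perm.sign.comp (R d)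
  rcases hs.eq_bot_or_eq_top_of_normal σ.ker inferInstance with hk | hk
  · exfalso
    have hinj : Function.Injective σ := (MonoidHom.ker_eq_bot_iff σ).1 hk
    have hle := Nat.card_le_card_of_injective σ hinj
    rw [Cfsg.Agent.S0382.result d hd] at hle
    have : Nat.card ℤˣ = 2 := by rw [Nat.card_eq_fintype_card]; rfl
    omega
  · have : g ∈ σ.ker := by rw [hk]; trivial
    exact this

variable {p q r : GolayPt} (hp : p ∈ d) (hq : q ∈ d) (hr : r ∈ d) (hpq : p ≠ q) (hpr : p ≠ r)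
  (hqr : q ≠ r)

/-- the group -/
abbrev H3 (d : Finset GolayPt) (p q r : GolayPt) : Subgroup ↥M24 :=
  MulAction.stabilizer Cfsg.M24 d ⊓ MulAction.stabilizer Cfsg.M24 p ⊓
    MulAction.stabilizer Cfsg.M24 q ⊓ MulAction.stabilizer Cfsg.M24 r

/-- the nine points -/
abbrev Om (d : Finset GolayPt) (p q r : GolayPt) : Type :=
  {a : {a : GolayPt // a ∈ d} // a.1 ≠ p ∧ a.1 ≠ q ∧ a.1 ≠ r}

theorem H3_fix (g : H3 d p q r) : (g.1.1 : Equiv.Perm GolayPt) • d = d ∧
    (g.1.1 : Equiv.Perm GolayPt) p = p ∧ (g.1.1 : Equiv.Perm GolayPt) q = q ∧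
    (g.1.1 : Equiv.Perm GolayPt) r = r := ⟨g.2.1.1.1, g.2.1.1.2, g.2.1.2, g.2.2⟩

/-- inclusion in the dodecad stabiliser -/
def toStab (g : H3 d p q r) : ↥(MulAction.stabilizer M24 d) := ⟨g.1, g.2.1.1.1⟩

theorem om_iff (g : H3 d p q r) (x : {a : GolayPt // a ∈ d}) :
    ((R d (toStab g) x).1 ≠ p ∧ (R d (toStab g) x).1 ≠ q ∧ (R d (toStab g) x).1 ≠ r) ↔
      (x.1 ≠ p ∧ x.1 ≠ q ∧ x.1 ≠ r) := by
  obtain ⟨_, h1, h2, h3⟩ := H3_fix g
  rw [R_apply]
  show ((g.1.1 : Equiv.Perm GolayPt) x.1 ≠ p ∧ (g.1.1 : Equiv.Perm GolayPt) x.1 ≠ q ∧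
    (g.1.1 : Equiv.Perm GolayPt) x.1 ≠ r) ↔ _
  rw [SteinerDer.ne_iff_of_fix h1, SteinerDer.ne_iff_of_fix h2, SteinerDer.ne_iff_of_fix h3]

/-- the action on the nine points -/
def rho (d : Finset GolayPt) (p q r : GolayPt) : H3 d p q r →* Equiv.Perm (Om d p q r) where
  toFun g := (R d (toStab g)).subtypePerm (om_iff g)
  map_one' := by ext x; rfl
  map_mul' g h := by ext x; rfl

theorem rho_apply (g : H3 d p q r) (x : Om d p q r) :
    ((rho d p q r g x).1.1 : GolayPt) = (g.1.1 : Equiv.Perm GolayPt) x.1.1 := rfl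

include hd hp hq hr hpq hpr hqr in
theorem card_Om : Fintype.card (Om d p q r) = 9 := by
  have e : Om d p q r ≃ {a : GolayPt // a ∈ d \ {p, q, r}} :=
    { toFun := fun x => ⟨x.1.1, by
        simp only [mem_sdiff, mem_insert, mem_singleton, not_or]
        exact ⟨x.1.2, x.2⟩⟩
      invFun := fun x => ⟨⟨x.1, (mem_sdiff.1 x.2).1⟩, by
        have := (mem_sdiff.1 x.2).2
        simpa only [mem_insert, mem_singleton, not_or] using this⟩
      left_inv := fun x => rfl
      right_inv := fun x => rfl }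
  rw [Fintype.card_congr e, Fintype.card_coe, Finset.card_sdiff_of_subset, hd.2]
  · rw [Finset.card_insert_of_notMem (by simp [hpq, hpr]), Finset.card_pair hqr]
  · intro x hx
    simp only [mem_insert, mem_singleton] at hx
    rcases hx with rfl | rfl | rfl <;> assumption

include hd hp hq hr hpq hpr hqr in
theorem hyp [Fintype (H3 d p q r)] :
    letI : MulAction (H3 d p q r) (Om d p q r) := MulAction.compHom _ (rho d p q r)
    Sharp72.Hyp (H3 d p q r) (Om d p q r) := by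
  letI : MulAction (H3 d p q r) (Om d p q r) := MulAction.compHom _ (rho d p q r)
  have hsm : ∀ (g : H3 d p q r) (x : Om d p q r), g • x = rho d p q r g x := fun g x => rfl
  refine ⟨(Cfsg.Agent.S1600.result d hd p q r hp hq hr hpq hpr hqr).1,
    card_Om hd hp hq hr hpq hpr hqr, ?_, ?_, ?_⟩
  · intro a b a' b' hab hab'
    obtain ⟨x, x0, x1, x2, x3, x4⟩ := emb5 hpq hpr a.2.1.symm b.2.1.symm hqr a.2.2.1.symm
      b.2.2.1.symm a.2.2.2.symm b.2.2.2.symm
      (fun h => hab (Subtype.ext (Subtype.ext h)))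
    obtain ⟨y, y0, y1, y2, y3, y4⟩ := emb5 hpq hpr a'.2.1.symm b'.2.1.symm hqr a'.2.2.1.symm
      b'.2.2.1.symm a'.2.2.2.symm b'.2.2.2.symm
      (fun h => hab' (Subtype.ext (Subtype.ext h)))
    obtain ⟨g, hg, _⟩ := Cfsg.Agent.S0384.result d hd x y
      (by intro i; fin_cases i <;> simp [x0, x1, x2, x3, x4, hp, hq, hr, a.1.2, b.1.2])
      (by intro i; fin_cases i <;> simp [y0, y1, y2, y3, y4, hp, hq, hr, a'.1.2, b'.1.2])
    have g0 := hg 0
    have g1 := hg 1
    have g2 := hg 2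
    have g3 := hg 3
    have g4 := hg 4
    rw [x0, y0] at g0
    rw [x1, y1] at g1
    rw [x2, y2] at g2
    rw [x3, y3] at g3
    rw [x4, y4] at g4
    refine ⟨⟨g.1, ⟨⟨⟨g.2, g0⟩, g1⟩, g2⟩⟩, ?_, ?_⟩
    · exact Subtype.ext (Subtype.ext g3)
    · exact Subtype.ext (Subtype.ext g4)
  · intro h a b hab ha hb
    obtain ⟨x, x0, x1, x2, x3, x4⟩ := emb5 hpq hpr a.2.1.symm b.2.1.symm hqr a.2.2.1.symm
      b.2.2.1.symm a.2.2.2.symm b.2.2.2.symm
      (fun h => hab (Subtype.ext (Subtype.ext h)))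
    have hx : ∀ i, x i ∈ d := by
      intro i; fin_cases i <;> simp [x0, x1, x2, x3, x4, hp, hq, hr, a.1.2, b.1.2]
    obtain ⟨g0, _, huniq⟩ := Cfsg.Agent.S0384.result d hd x x hx hx
    obtain ⟨_, f1, f2, f3⟩ := H3_fix h
    have ha' : (h.1.1 : Equiv.Perm GolayPt) a.1.1 = a.1.1 :=
      congrArg (fun z : Om d p q r => z.1.1) ha
    have hb' : (h.1.1 : Equiv.Perm GolayPt) b.1.1 = b.1.1 :=
      congrArg (fun z : Om d p q r => z.1.1) hb
    have h1 : toStab h = g0 := by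
      apply huniq
      intro i
      show (h.1.1 : Equiv.Perm GolayPt) (x i) = x i
      fin_cases i
      · show (h.1.1 : Equiv.Perm GolayPt) (x 0) = x 0
        rw [x0, f1]
      · show (h.1.1 : Equiv.Perm GolayPt) (x 1) = x 1
        rw [x1, f2]
      · show (h.1.1 : Equiv.Perm GolayPt) (x 2) = x 2
        rw [x2, f3]
      · show (h.1.1 : Equiv.Perm GolayPt) (x 3) = x 3
        rw [x3, ha']
      · show (h.1.1 : Equiv.Perm GolayPt) (x 4) = x 4
        rw [x4, hb']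
    have h2 : (1 : MulAction.stabilizer Cfsg.M24 d) = g0 := by
      apply huniq
      intro i
      rfl
    have h3 := congrArg Subtype.val (h1.trans h2.symm)
    exact Subtype.ext h3
  · intro h
    have e : (MulAction.toPerm h : Equiv.Perm (Om d p q r)) = rho d p q r h := Equiv.ext fun _ => rfl
    rw [e]
    show Equiv.Perm.sign ((R d (toStab h)).subtypePerm (om_iff h)) = 1
    rw [Equiv.Perm.sign_subtypePerm, sign_R hd]
    intro x hx
    obtain ⟨_, f1, f2, f3⟩ := H3_fix h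
    refine ⟨?_, ?_, ?_⟩
    · intro hxp
      apply hx
      apply Subtype.ext
      rw [R_apply]
      show (h.1.1 : Equiv.Perm GolayPt) x.1 = x.1
      rw [hxp, f1]
    · intro hxp
      apply hx
      apply Subtype.ext
      rw [R_apply]
      show (h.1.1 : Equiv.Perm GolayPt) x.1 = x.1
      rw [hxp, f2]
    · intro hxp
      apply hx
      apply Subtype.ext
      rw [R_apply]
      show (h.1.1 : Equiv.Perm GolayPt) x.1 = x.1
      rw [hxp, f3]

end Cfsg.Agent.Lib.Helper28.M9
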