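import Mathlib
import Cfsg.Prelude.Def_AxialAlgebras

/-! Commuting Majorana involutions: the types 2A and 2B. -/

set_option autoImplicit false

namespace Cfsg.Agent.Lib.Helper28.Majo

open Cfsg Cfsg.Axial

variable {V : Type*} [AddCommGroup V] [Module ℝ V]
variable {mul : V →ₗ[ℝ] V →ₗ[ℝ] V}

theorem mem_eigen {a x : V} {c : ℝ} : x ∈ eigen mul a c ↔ mul a x = c • x :=
  Module.End.mem_eigenspace_iff

theorem eigen_map (μ : V ≃ₗ[ℝ] V) (hμ : ∀ u v, μ (mul u v) = mul (μ u) (μ v)) (a : V) (c : ℝ) :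
    eigen mul (μ a) c = (eigen mul a c).map (μ : V →ₗ[ℝ] V) := by
  ext x
  rw [mem_eigen, Submodule.mem_map]
  constructor
  · intro h
    refine ⟨μ.symm x, mem_eigen.2 ?_, μ.apply_symm_apply x⟩
    apply μ.injective
    rw [hμ, μ.apply_symm_apply, h, map_smul, μ.apply_symm_apply]
  · rintro ⟨y, hy, rfl⟩
    show mul (μ a) (μ y) = c • μ y
    rw [← hμ, mem_eigen.1 hy, map_smul]

theorem eigenSum_map (μ : V ≃ₗ[ℝ] V) (hμ : ∀ u v, μ (mul u v) = mul (μ u) (μ v)) (a : V)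
    (S : Set ℝ) : eigenSum mul (μ a) S = (eigenSum mul a S).map (μ : V →ₗ[ℝ] V) := by
  unfold eigenSum
  simp only [Submodule.map_iSup, eigen_map μ hμ]

theorem pair_conj {B : LinearMap.BilinForm ℝ V} {μ ν : V ≃ₗ[ℝ] V} {a : V}
    (h : IsMajoranaPair mul B μ a)
    (hν : ∀ u v, ν (mul u v) = mul (ν u) (ν v)) (hc : μ * ν = ν * μ) :
    IsMajoranaPair mul B μ (ν a) := by
  obtain ⟨hom, iso, ⟨⟨ne, idem, span, fus⟩, prim⟩, ⟨fix, neg⟩⟩ := h
  have hc' : ∀ x, μ (ν x) = ν (μ x) := fun x => congrArg (fun f : V ≃ₗ[ℝ] V => f x) hc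
  refine ⟨hom, iso, ⟨⟨?_, ?_, ?_, ?_⟩, ?_⟩, ⟨?_, ?_⟩⟩
  · intro h0
    exact ne (ν.injective (by rw [h0, map_zero]))
  · rw [← hν, idem]
  · rw [eigenSum_map ν hν, span, Submodule.map_top, LinearMap.range_eq_top]
    exact ν.surjective
  · intro c hc d hd u hu v hv
    rw [eigen_map ν hν] at hu hv
    obtain ⟨u', hu', rfl⟩ := hu
    obtain ⟨v', hv', rfl⟩ := hv
    rw [eigenSum_map ν hν]
    exact ⟨mul u' v', fus c hc d hd u' hu' v' hv', hν u' v'⟩
  · rw [eigen_map ν hν, prim, Submodule.map_span, Set.image_singleton]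
    rfl
  · intro v hv
    rw [eigenSum_map ν hν] at hv
    obtain ⟨v', hv', rfl⟩ := hv
    show μ (ν v') = ν v'
    rw [hc']
    exact congrArg ν (fix v' hv')
  · intro v hv
    rw [eigen_map ν hν] at hv
    obtain ⟨v', hv', rfl⟩ := hv
    show μ (ν v') = - ν v'
    rw [hc', ← map_neg]
    exact congrArg ν (neg v' hv')

theorem decomp {a : V} (h : eigenSum mul a majoranaSpectrum = ⊤) (x : V) :
    ∃ x1 ∈ eigen mul a 1, ∃ x0 ∈ eigen mul a 0, ∃ x4 ∈ eigen mul a (1 / 4),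
      ∃ x32 ∈ eigen mul a (1 / 32), x = x1 + x0 + x4 + x32 := by
  have hx : x ∈ eigenSum mul a majoranaSpectrum := by rw [h]; trivial
  unfold eigenSum majoranaSpectrum at hx
  rw [iSup_insert, iSup_insert, iSup_insert, iSup_singleton] at hx
  obtain ⟨x1, h1, y, hy, rfl⟩ := Submodule.mem_sup.1 hx
  obtain ⟨x0, h0, z, hz, rfl⟩ := Submodule.mem_sup.1 hy
  obtain ⟨x4, h4, x32, h32, rfl⟩ := Submodule.mem_sup.1 hz
  exact ⟨x1, h1, x0, h0, x4, h4, x32, h32, by abel⟩

theorem eigen_le {a : V} {S : Set ℝ} {c : ℝ} (hc : c ∈ S) : eigen mul a c ≤ eigenSum mul a S :=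
  le_iSup₂ (f := fun c (_ : c ∈ S) => eigen mul a c) c hc

theorem law00 : monsterLaw (1 / 4 : ℝ) (1 / 32) 0 0 = {0} := by
  unfold monsterLaw
  norm_num

theorem law04 : monsterLaw (1 / 4 : ℝ) (1 / 32) 0 (1 / 4) = {1 / 4} := by
  unfold monsterLaw
  norm_num

theorem law44 : monsterLaw (1 / 4 : ℝ) (1 / 32) (1 / 4) (1 / 4) = {1, 0} := by
  unfold monsterLaw
  norm_num

theorem quarter_unique {a z1 z0 z4 y1 y0 y4 : V} (h1 : z1 ∈ eigen mul a 1)
    (h0 : z0 ∈ eigen mul a 0) (h4 : z4 ∈ eigen mul a (1 / 4)) (k1 : y1 ∈ eigen mul a 1)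
    (k0 : y0 ∈ eigen mul a 0) (k4 : y4 ∈ eigen mul a (1 / 4))
    (h : z1 + z0 + z4 = y1 + y0 + y4) : z4 = y4 := by
  rw [mem_eigen] at h1 h0 h4 k1 k0 k4
  have e1 := congrArg (mul a) h
  simp only [map_add, h1, h0, h4, k1, k0, k4] at e1
  have e2 := congrArg (mul a) e1
  simp only [map_add, map_smul, h1, h0, h4, k1, k0, k4] at e2
  have e3 : (3 / 16 : ℝ) • (z4 - y4) = 0 := by
    linear_combination (norm := module) e1 - e2
  rcases smul_eq_zero.1 e3 with h' | h'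
  · norm_num at h'
  · exact sub_eq_zero.1 h'

theorem half {B : LinearMap.BilinForm ℝ V} (hV : IsMajoranaAmbient mul B) {μ : V ≃ₗ[ℝ] V}
    {a b : V} (h : IsMajoranaPair mul B μ a) (hn : B a a = 1) (hb : μ b = b)
    (hbb : mul b b = b) :
    mul a (mul a b) = (1 / 4 : ℝ) • mul a b + (3 * B a b / 4) • a ∧
    mul (b + (3 * B a b) • a - (4 : ℝ) • mul a b) (mul a b - (B a b) • a) =
      ((2 - B a b) / 4) • (mul a b - (B a b) • a) := by
  obtain ⟨comm, symm, pos, assoc, -⟩ := hV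
  obtain ⟨hom, iso, ⟨⟨ne, idem, span, fus⟩, prim⟩, ⟨fix, neg⟩⟩ := h
  obtain ⟨x1, h1, u, h0, v, h4, w, h32, hdec⟩ := decomp span b
  have hfix : μ (x1 + u + v) = x1 + u + v := fix _ (Submodule.add_mem _ (Submodule.add_mem _
    (eigen_le (by simp) h1) (eigen_le (by simp) h0)) (eigen_le (by simp) h4))
  have hneg : μ w = -w := neg w h32
  have hw : w = 0 := by
    have e : μ b = x1 + u + v - w := by
      rw [hdec, map_add, hfix, hneg]; abel
    rw [hb, hdec] at e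
    have e2 : (2 : ℝ) • w = 0 := by linear_combination (norm := module) e
    rcases smul_eq_zero.1 e2 with h' | h'
    · norm_num at h'
    · exact h'
  subst hw
  rw [add_zero] at hdec
  have ha1 : a ∈ eigen mul a 1 := mem_eigen.2 (by rw [idem, one_smul])
  rw [prim] at h1
  obtain ⟨l, rfl⟩ := Submodule.mem_span_singleton.1 h1
  have hu : mul a u = 0 := by rw [mem_eigen.1 h0, zero_smul]
  have hv : mul a v = (1 / 4 : ℝ) • v := mem_eigen.1 h4
  have Bu : B a u = 0 := by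
    have := assoc a a u
    rw [idem, hu, map_zero] at this
    exact this.symm
  have Bv : B a v = 0 := by
    have := assoc a a v
    rw [idem, hv, map_smul, smul_eq_mul] at this
    linarith
  have hl : B a b = l := by
    rw [hdec, map_add, map_add, map_smul, hn, Bu, Bv]; simp
  have hab : mul a b = l • a + (1 / 4 : ℝ) • v := by
    rw [hdec, map_add, map_add, map_smul, idem, hu, hv, add_zero]
  have huu : u = b + (3 * l) • a - (4 : ℝ) • mul a b := by
    linear_combination (norm := module) -hdec + (4 : ℝ) • hab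
  have huu0 : mul u u ∈ eigen mul a 0 := by
    have := fus 0 (by simp [majoranaSpectrum]) 0 (by simp [majoranaSpectrum]) u h0 u h0
    rw [law00] at this
    unfold eigenSum at this
    rw [iSup_singleton] at this
    exact this
  have huv4 : mul u v ∈ eigen mul a (1 / 4) := by
    have := fus 0 (by simp [majoranaSpectrum]) (1 / 4) (by simp [majoranaSpectrum]) u h0 v h4
    rw [law04] at this
    unfold eigenSum at this
    rw [iSup_singleton] at this
    exact this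
  have hvv10 : ∃ y1 ∈ eigen mul a 1, ∃ y0 ∈ eigen mul a 0, mul v v = y1 + y0 := by
    have := fus (1 / 4) (by simp [majoranaSpectrum]) (1 / 4) (by simp [majoranaSpectrum]) v h4 v h4
    rw [law44] at this
    unfold eigenSum at this
    rw [iSup_insert, iSup_singleton] at this
    obtain ⟨y1, hy1, y0, hy0, e⟩ := Submodule.mem_sup.1 this
    exact ⟨y1, hy1, y0, hy0, e.symm⟩
  have hexp : mul b b = (l ^ 2) • a + (l / 2) • v + mul u u + (2 : ℝ) • mul u v + mul v v := by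
    have hua : mul u a = 0 := by rw [comm, hu]
    have hva : mul v a = (1 / 4 : ℝ) • v := by rw [comm, hv]
    have hvu : mul v u = mul u v := comm _ _
    rw [hdec]
    simp only [map_add, map_smul, LinearMap.add_apply, LinearMap.smul_apply, idem, hu, hv, hua,
      hva, hvu]
    module
  obtain ⟨y1, hy1, y0, hy0, hvvd⟩ := hvv10
  have hq := quarter_unique (a := a) (z1 := l • a) (z0 := u) (z4 := v) (y1 := (l ^ 2) • a + y1)
    (y0 := mul u u + y0) (y4 := (l / 2) • v + (2 : ℝ) • mul u v)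
    (Submodule.smul_mem _ _ ha1) h0 h4
    (Submodule.add_mem _ (Submodule.smul_mem _ _ ha1) hy1)
    (Submodule.add_mem _ huu0 hy0)
    (Submodule.add_mem _ (Submodule.smul_mem _ _ h4) (Submodule.smul_mem _ _ huv4))
    (by
      calc l • a + u + v = b := hdec.symm
        _ = mul b b := hbb.symm
        _ = _ := by rw [hexp, hvvd]; module)
  have huv : mul u v = ((2 - l) / 4) • v := by
    linear_combination (norm := module) (-(1 / 2 : ℝ)) • hq
  constructor
  · rw [hl, hab, map_add, map_smul, map_smul, idem, hv]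
    module
  · have e : mul a b - l • a = (1 / 4 : ℝ) • v := by rw [hab]; module
    rw [hl, ← huu, e, map_smul, huv]
    module

theorem main {B : LinearMap.BilinForm ℝ V} (hV : IsMajoranaAmbient mul B) (μ₀ μ₁ : V ≃ₗ[ℝ] V)
    (a₀ a₁ : V) (h₀ : IsMajoranaPair mul B μ₀ a₀) (h₁ : IsMajoranaPair mul B μ₁ a₁)
    (hu₀ : ∀ a : V, IsMajoranaPair mul B μ₀ a → a = a₀)
    (hu₁ : ∀ a : V, IsMajoranaPair mul B μ₁ a → a = a₁) (hn₀ : B a₀ a₀ = 1) (hn₁ : B a₁ a₁ = 1)
    (hc : μ₀ * μ₁ = μ₁ * μ₀) (hne : a₀ ≠ a₁) :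
    (B a₀ a₁ = 0 ∧ mul a₀ a₁ = 0) ∨ (B a₀ a₁ = 1 / 8 ∧
      mul (a₀ + a₁ - (8 : ℝ) • mul a₀ a₁) (a₀ + a₁ - (8 : ℝ) • mul a₀ a₁) =
        a₀ + a₁ - (8 : ℝ) • mul a₀ a₁ ∧
      mul a₀ (a₀ + a₁ - (8 : ℝ) • mul a₀ a₁) =
        (1 / 8 : ℝ) • (a₀ + (a₀ + a₁ - (8 : ℝ) • mul a₀ a₁) - a₁) ∧
      mul a₁ (a₀ + a₁ - (8 : ℝ) • mul a₀ a₁) =
        (1 / 8 : ℝ) • (a₁ + (a₀ + a₁ - (8 : ℝ) • mul a₀ a₁) - a₀)) := by
  have f0 : μ₁ a₀ = a₀ := hu₀ _ (pair_conj h₀ h₁.1 hc)
  have f1 : μ₀ a₁ = a₁ := hu₁ _ (pair_conj h₁ h₀.1 hc.symm)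
  have idem₀ : mul a₀ a₀ = a₀ := h₀.2.2.1.1.2.1
  have idem₁ : mul a₁ a₁ = a₁ := h₁.2.2.1.1.2.1
  obtain ⟨A1, A2⟩ := half hV h₁ hn₁ f0 idem₀
  obtain ⟨B1, B2⟩ := half hV h₀ hn₀ f1 idem₁
  obtain ⟨comm, symm, pos, assoc, -⟩ := hV
  rw [symm a₁ a₀, comm a₁ a₀] at A1 A2
  generalize hl : B a₀ a₁ = l at *
  generalize hp : mul a₀ a₁ = p at *
  have c0 : mul p a₀ = mul a₀ p := comm _ _
  have c1 : mul p a₁ = mul a₁ p := comm _ _
  have c10 : mul a₁ a₀ = p := by rw [comm, hp]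
  simp only [map_add, map_sub, map_smul, LinearMap.add_apply, LinearMap.sub_apply,
    LinearMap.smul_apply, idem₀, idem₁, c0, c1, c10, hp, A1, B1] at A2 B2
  have E2 : (4 : ℝ) • mul p p = (l - 1 / 4) • p + (3 * l / 4) • a₀ + (2 * l ^ 2 + l / 2) • a₁ := by
    linear_combination (norm := module) (-1 : ℝ) • A2
  have E2' : (4 : ℝ) • mul p p = (l - 1 / 4) • p + (3 * l / 4) • a₁ + (2 * l ^ 2 + l / 2) • a₀ := by
    linear_combination (norm := module) (-1 : ℝ) • B2
  have E3 : (l / 4 - 2 * l ^ 2) • (a₀ - a₁) = 0 := by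
    linear_combination (norm := module) E2' - E2
  have hl2 : l / 4 - 2 * l ^ 2 = 0 := by
    rcases smul_eq_zero.1 E3 with h | h
    · exact h
    · exact absurd (sub_eq_zero.1 h) hne
  have hl3 : l = 0 ∨ l = 1 / 8 := by
    have : l * (1 / 8 - l) = 0 := by linarith
    rcases mul_eq_zero.1 this with h | h
    · exact Or.inl h
    · exact Or.inr (by linarith)
  rcases hl3 with h | h
  · left
    refine ⟨h, ?_⟩
    by_contra hp0
    have h1 := pos p hp0
    have h2 : B p p = 0 := by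
      have e1 := assoc a₀ a₁ p
      rw [hp, A1, h] at e1
      have e2 := assoc a₀ a₀ a₁
      rw [hp, idem₀, hl, h] at e2
      rw [← e1, map_add, map_smul, map_smul, e2]
      simp
    linarith
  · right
    refine ⟨h, ?_, ?_, ?_⟩
    · simp only [map_add, map_sub, map_smul, LinearMap.add_apply, LinearMap.sub_apply,
        LinearMap.smul_apply, idem₀, idem₁, c0, c1, c10, hp, A1, B1]
      rw [h] at E2
      rw [h]
      linear_combination (norm := module) (16 : ℝ) • E2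
    · simp only [map_add, map_sub, map_smul, idem₀, hp, B1]
      rw [h]
      module
    · simp only [map_add, map_sub, map_smul, idem₁, c10, A1]
      rw [h]
      module

end Cfsg.Agent.Lib.Helper28.Majo
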