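import Mathlib
import Cfsg.Prelude.Def_Sporadic_a
import Cfsg.Agent.Lib.Helper28.SteinerDer

/-!
The projective plane over a field with four elements as a Steiner system, with the action of PSL.
-/

set_option autoImplicit false

namespace Cfsg.Agent.Lib.Helper28.PG24

open Cfsg Finset Projectivization Configuration
open scoped LinearAlgebra.Projectivization Matrix

variable {F : Type} [Field F] [Fintype F]

noncomputable instance : Fintype (ℙ F (Fin 3 → F)) := Fintype.ofFinite _

noncomputable instance : DecidableEq (ℙ F (Fin 3 → F)) := Classical.decEq _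

/-- the points on a line -/
noncomputable def lineSet (l : ℙ F (Fin 3 → F)) : Finset (ℙ F (Fin 3 → F)) := by
  classical exact univ.filter (fun p => orthogonal p l)

theorem mem_lineSet (p l : ℙ F (Fin 3 → F)) : p ∈ lineSet l ↔ orthogonal p l := by
  simp [lineSet]

/-- the line system -/
def Lines (F : Type) [Field F] [Fintype F] : Set (Finset (ℙ F (Fin 3 → F))) := Set.range lineSet

theorem card_points (hF : Fintype.card F = 4) : Fintype.card (ℙ F (Fin 3 → F)) = 21 := by
  rw [← Nat.card_eq_fintype_card, Projectivization.card_of_finrank F (Fin 3 → F) (n := 3) (by simp),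
    Nat.card_eq_fintype_card, hF]
  decide

theorem order_eq (hF : Fintype.card F = 4) [DecidableEq F] :
    ProjectivePlane.order (ℙ F (Fin 3 → F)) (ℙ F (Fin 3 → F)) = 4 := by
  have h := ProjectivePlane.card_points (ℙ F (Fin 3 → F)) (ℙ F (Fin 3 → F))
  rw [card_points hF] at h
  nlinarith

theorem card_lineSet (hF : Fintype.card F = 4) (l : ℙ F (Fin 3 → F)) : (lineSet l).card = 5 := by
  classical
  have h := ProjectivePlane.pointCount_eq (ℙ F (Fin 3 → F)) l
  rw [order_eq hF, pointCount, Nat.card_eq_fintype_card, Fintype.card_subtype] at h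
  have e : lineSet l = univ.filter (fun x => x ∈ l) := by
    ext p
    simp [mem_lineSet, ofField.mem_iff]
  rw [e]
  convert h using 2

theorem steiner (hF : Fintype.card F = 4) : IsSteinerSystem 2 5 (Lines F) := by
  classical
  refine ⟨?_, ?_⟩
  · rintro _ ⟨l, rfl⟩
    exact card_lineSet hF l
  · intro s hs
    obtain ⟨a, b, hab, rfl⟩ := Finset.card_eq_two.1 hs
    obtain ⟨l, ⟨hl1, hl2⟩, hl3⟩ := HasLines.existsUnique_line (ℙ F (Fin 3 → F)) (ℙ F (Fin 3 → F)) a b hab
    refine ⟨lineSet l, ⟨⟨l, rfl⟩, ?_⟩, ?_⟩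
    · intro x hx
      simp only [mem_insert, mem_singleton] at hx
      rcases hx with rfl | rfl
      · exact (mem_lineSet _ _).2 hl1
      · exact (mem_lineSet _ _).2 hl2
    · rintro _ ⟨⟨l', rfl⟩, hsub⟩
      rw [hl3 l' ⟨(mem_lineSet _ _).1 (hsub (by simp)), (mem_lineSet _ _).1 (hsub (by simp))⟩]

theorem orthogonal_smul (g : Matrix.SpecialLinearGroup (Fin 3) F) (p l : ℙ F (Fin 3 → F)) :
    orthogonal (g • p) ((g⁻¹).transpose • l) ↔ orthogonal p l := by
  induction p using Projectivization.ind with | _ v hv =>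
  induction l using Projectivization.ind with | _ w hw =>
  rw [Projectivization.smul_mk, Projectivization.smul_mk, orthogonal_mk, orthogonal_mk]
  have e : (g • v) ⬝ᵥ ((g⁻¹).transpose • w) = v ⬝ᵥ w := by
    show (g.1 *ᵥ v) ⬝ᵥ ((g⁻¹).1ᵀ *ᵥ w) = v ⬝ᵥ w
    rw [Matrix.mulVec_transpose, dotProduct_comm, ← Matrix.dotProduct_mulVec, Matrix.mulVec_mulVec,
      ← Matrix.SpecialLinearGroup.coe_mul, inv_mul_cancel, Matrix.SpecialLinearGroup.coe_one,
      Matrix.one_mulVec, dotProduct_comm]
  rw [e]

theorem image_lineSet (g : Matrix.SpecialLinearGroup (Fin 3) F) (l : ℙ F (Fin 3 → F)) :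
    (lineSet l).image (fun p => g • p) = lineSet ((g⁻¹).transpose • l) := by
  ext p
  rw [Finset.mem_image, mem_lineSet]
  constructor
  · rintro ⟨a, ha, rfl⟩
    rw [orthogonal_smul]
    exact (mem_lineSet _ _).1 ha
  · intro h
    refine ⟨g⁻¹ • p, ?_, smul_inv_smul g p⟩
    rw [mem_lineSet, ← orthogonal_smul g, smul_inv_smul]
    exact h

theorem toPerm_mem (x : Matrix.ProjectiveSpecialLinearGroup (Fin 3) F) :
    PSLAction.toPermHom x ∈ setSystemAut (Lines F) := by
  obtain ⟨g, rfl⟩ := QuotientGroup.mk_surjective x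
  apply SteinerDer.mem_aut_of_forall
  rintro _ ⟨l, rfl⟩
  exact ⟨_, (image_lineSet g l).symm⟩

/-- the action on the plane -/
noncomputable def pslHom (F : Type) [Field F] [Fintype F] :
    Matrix.ProjectiveSpecialLinearGroup (Fin 3) F →* setSystemAut (Lines F) :=
  (PSLAction.toPermHom (K := F) (ι := Fin 3)).codRestrict _ toPerm_mem

theorem pslHom_injective : Function.Injective (pslHom F) := by
  intro x y h
  exact Matrix.ProjectiveSpecialLinearGroup.toPermHom_injective (congrArg Subtype.val h)

end Cfsg.Agent.Lib.Helper28.PG24
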