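import Cfsg.Agent.Lib.Helper28.SteinerDer

/-!
The action of a two-point stabiliser on the twice derived system.
-/

set_option autoImplicit false

namespace Cfsg.Agent.Lib.Helper28.SteinerDer

open Cfsg Cfsg.Agent.Lib.Helper28.SteinerAut
open scoped Pointwise

variable {α : Type*} [DecidableEq α]

/-- The action of a two-point stabiliser on the twice derived system. -/
def derHom2 [Finite α] {B : Set (Finset α)} (G : Subgroup (Equiv.Perm α))
    (hG : G ≤ setSystemAut B) (p q : α) (hq : q ≠ p) :
    ↥(MulAction.stabilizer G p ⊓ MulAction.stabilizer G q) →*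
      setSystemAut (der (der B p) ⟨q, hq⟩) where
  toFun g := derHom (setSystemAut (der B p)) le_rfl ⟨q, hq⟩
    ⟨derHom G hG p ⟨g.1, g.2.1⟩, Subtype.ext g.2.2⟩
  map_one' := by ext x; rfl
  map_mul' g h := by ext x; rfl

theorem derHom2_injective [Finite α] {B : Set (Finset α)} (G : Subgroup (Equiv.Perm α))
    (hG : G ≤ setSystemAut B) (p q : α) (hq : q ≠ p) :
    Function.Injective (derHom2 G hG p q hq) := by
  intro g h hgh
  have h1 := derHom_injective (setSystemAut (der B p)) le_rfl ⟨q, hq⟩ hgh
  have h2 := derHom_injective G hG p (congrArg Subtype.val h1)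
  exact Subtype.ext (Subtype.mk.inj h2)

end Cfsg.Agent.Lib.Helper28.SteinerDer
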