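import Cfsg.Agent.Lib.Helper28.PG24
import Cfsg.Agent.Lib.Helper28.SteinerDer2
import Cfsg.Agent.Lib.Helper28.SteinerFacts
import Cfsg.Agent.Lib.Helper28.M24Pts
import Cfsg.Agent.S0249
import Cfsg.Agent.S0243
import Cfsg.Agent.S5626
import Cfsg.Agent.S0351
import Cfsg.Agent.S0363
import Cfsg.Agent.S0369

/-!
The three-point stabiliser of the group of the length-24 code is PSL(3,4).
-/

set_option autoImplicit false

namespace Cfsg.Agent.Lib.Helper28.PSL34

open Cfsg Finset Cfsg.Agent.Lib.Helper28 Cfsg.Agent.Lib.Helper28.SteinerDer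
  Cfsg.Agent.Lib.Helper28.SteinerAut
open scoped Pointwise

section der3

variable {α : Type*} [DecidableEq α]

/-- The action of a three-point stabiliser on the three times derived system. -/
def derHom3 [Finite α] {B : Set (Finset α)} (G : Subgroup (Equiv.Perm α))
    (hG : G ≤ setSystemAut B) (p q r : α) (hq : q ≠ p) (hr : r ≠ p) (hrq : r ≠ q) :
    ↥(MulAction.stabilizer G p ⊓ MulAction.stabilizer G q ⊓ MulAction.stabilizer G r) →*
      setSystemAut (der (der (der B p) ⟨q, hq⟩) ⟨⟨r, hr⟩, fun h => hrq (congrArg Subtype.val h)⟩) where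
  toFun g := derHom (setSystemAut (der (der B p) ⟨q, hq⟩)) le_rfl
    ⟨⟨r, hr⟩, fun h => hrq (congrArg Subtype.val h)⟩
    ⟨derHom2 G hG p q hq ⟨g.1, g.2.1⟩, Subtype.ext (Subtype.ext g.2.2)⟩
  map_one' := by ext x; rfl
  map_mul' g h := by ext x; rfl

theorem derHom3_injective [Finite α] {B : Set (Finset α)} (G : Subgroup (Equiv.Perm α))
    (hG : G ≤ setSystemAut B) (p q r : α) (hq : q ≠ p) (hr : r ≠ p) (hrq : r ≠ q) :
    Function.Injective (derHom3 G hG p q r hq hr hrq) := by
  intro g h hgh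
  have h1 := derHom_injective (setSystemAut (der (der B p) ⟨q, hq⟩)) le_rfl _ hgh
  have h2 := derHom2_injective G hG p q hq (congrArg Subtype.val h1)
  exact Subtype.ext (Subtype.mk.inj h2)

end der3

theorem card_offdiag3 : (Finset.univ.filter fun x : GolayPt × GolayPt × GolayPt =>
    x.1 ≠ x.2.1 ∧ x.1 ≠ x.2.2 ∧ x.2.1 ≠ x.2.2).card = 12144 := by
  decide +kernel

theorem card_stabilizer_pt3 {p q r : GolayPt} (hpq : p ≠ q) (hpr : p ≠ r) (hqr : q ≠ r) :
    Nat.card ↥(MulAction.stabilizer M24 p ⊓ MulAction.stabilizer M24 q ⊓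
      MulAction.stabilizer M24 r) = 20160 := by
  have e : MulAction.stabilizer M24 p ⊓ MulAction.stabilizer M24 q ⊓ MulAction.stabilizer M24 r
      = MulAction.stabilizer M24 (p, q, r) := by
    ext g
    simp [MulAction.mem_stabilizer_iff, Prod.ext_iff, and_assoc]
  rw [e]
  have h := card_stabilizer_mul_ncard_orbit (p, q, r)
  have h2 : MulAction.orbit M24 (p, q, r) =
      ↑(Finset.univ.filter fun x : GolayPt × GolayPt × GolayPt =>
        x.1 ≠ x.2.1 ∧ x.1 ≠ x.2.2 ∧ x.2.1 ≠ x.2.2) := by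
    ext ⟨a, b, c⟩
    simp only [Finset.coe_filter, Finset.mem_univ, true_and, Set.mem_ofPred_eq]
    constructor
    · rintro ⟨g, hg⟩
      have h1 : (g : Equiv.Perm GolayPt) p = a := congrArg Prod.fst hg
      have h2 : (g : Equiv.Perm GolayPt) q = b := congrArg (fun x => x.2.1) hg
      have h3 : (g : Equiv.Perm GolayPt) r = c := congrArg (fun x => x.2.2) hg
      rw [← h1, ← h2, ← h3]
      exact ⟨fun h => hpq ((g : Equiv.Perm GolayPt).injective h),
        fun h => hpr ((g : Equiv.Perm GolayPt).injective h),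
        fun h => hqr ((g : Equiv.Perm GolayPt).injective h)⟩
    · rintro ⟨hab, hac, hbc⟩
      obtain ⟨g, hg, h⟩ := exists_M24_map_list [p, q, r] [a, b, c] rfl (by simp)
        (by simp [hpq, hpr, hqr]) (by simp [hab, hac, hbc])
      simp only [List.map_cons, List.map_nil, List.cons.injEq, and_true] at h
      exact ⟨⟨g, hg⟩, Prod.ext h.1 (Prod.ext h.2.1 h.2.2)⟩
  rw [h2, Set.ncard_coe_finset, card_offdiag3] at h
  omega

/-- two subgroups of index 6, one of them simple of order 20160, coincide -/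
theorem eq_of_index6 {A : Type*} [Group A] (H1 H2 : Subgroup A) (hA : Nat.card A = 120960)
    (h1 : Nat.card H1 = 20160) (h2 : Nat.card H2 = 20160) (hs : IsSimpleGroup H2) : H2 = H1 := by
  have : Finite A := Nat.finite_of_card_ne_zero (by rw [hA]; decide)
  have hidx : H1.index = 6 := by
    have := Subgroup.card_mul_index H1
    rw [h1, hA] at this
    omega
  let ψ : H2 →* Equiv.Perm (A ⧸ H1) := (MulAction.toPermHom A (A ⧸ H1)).comp H2.subtype
  have hker : ψ.ker = ⊤ := by
    rcases hs.eq_bot_or_eq_top_of_normal ψ.ker inferInstance with hk | hk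
    · exfalso
      have hinj : Function.Injective ψ := (MonoidHom.ker_eq_bot_iff ψ).1 hk
      have hle := Nat.card_le_card_of_injective ψ hinj
      have hc : Nat.card (Equiv.Perm (A ⧸ H1)) = 720 := by
        classical
        have : Fintype (A ⧸ H1) := Fintype.ofFinite _
        rw [Nat.card_eq_fintype_card, Fintype.card_perm, ← Nat.card_eq_fintype_card]
        have : Nat.card (A ⧸ H1) = 6 := hidx
        rw [this]
        rfl
      rw [h2, hc] at hle
      omega
    · exact hk
  have hle : H2 ≤ H1 := by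
    intro x hx
    have hx' : (⟨x, hx⟩ : H2) ∈ ψ.ker := by rw [hker]; trivial
    rw [MonoidHom.mem_ker] at hx'
    have h3 := DFunLike.congr_fun hx' ((1 : A) : A ⧸ H1)
    have h4 : ((x * 1 : A) : A ⧸ H1) = ((1 : A) : A ⧸ H1) := h3
    rw [mul_one, QuotientGroup.eq] at h4
    simpa using H1.inv_mem h4
  exact Subgroup.eq_of_le_of_card_ge hle (by rw [h1, h2])

theorem card_psl (F : Type) [Field F] [Fintype F] (hF : Fintype.card F = 4) :
    Nat.card (Matrix.ProjectiveSpecialLinearGroup (Fin 3) F) = 20160 := by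
  have h := Cfsg.Agent.S0243.result hF 3 (by norm_num)
  have h2 : ∏ i : Fin 3, (4 ^ 3 - 4 ^ (i : ℕ)) = 181440 := by decide
  rw [h2] at h
  have h3 : Nat.gcd 3 (4 - 1) = 3 := by decide
  rw [h3] at h
  omega

theorem main (p q r : GolayPt) (hpq : p ≠ q) (hpr : p ≠ r) (hqr : q ≠ r) (F : Type) [Field F]
    [Fintype F] (hF : Fintype.card F = 4) :
    Nonempty (↥(MulAction.stabilizer Cfsg.M24 p ⊓ MulAction.stabilizer Cfsg.M24 q ⊓
      MulAction.stabilizer Cfsg.M24 r) ≃* Matrix.ProjectiveSpecialLinearGroup (Fin 3) F) := by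
  have hc : Fintype.card Cfsg.GolayPt = 24 := by decide
  have hD1 := Cfsg.Agent.S0351.result (t := 4) (k := 7) Cfsg.Agent.S0363.result p
  have hc23 : Fintype.card {a : Cfsg.GolayPt // a ≠ p} = 23 := by
    rw [Fintype.card_subtype_compl, Fintype.card_subtype_eq, hc]
  have hD2 := Cfsg.Agent.S0351.result (t := 3) (k := 6) hD1 ⟨q, hpq.symm⟩
  have hc22 : Fintype.card {a : {a : Cfsg.GolayPt // a ≠ p} // a ≠ ⟨q, hpq.symm⟩} = 22 := by
    rw [Fintype.card_subtype_compl, Fintype.card_subtype_eq, hc23]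
  have hD3 := Cfsg.Agent.S0351.result (t := 2) (k := 5) hD2
    ⟨⟨r, hpr.symm⟩, fun h => hqr.symm (congrArg Subtype.val h)⟩
  have hc21 : Fintype.card {a : {a : {a : Cfsg.GolayPt // a ≠ p} // a ≠ ⟨q, hpq.symm⟩} //
      a ≠ ⟨⟨r, hpr.symm⟩, fun h => hqr.symm (congrArg Subtype.val h)⟩} = 21 := by
    rw [Fintype.card_subtype_compl, Fintype.card_subtype_eq, hc22]
  obtain ⟨e, he⟩ := Cfsg.Agent.S5626.result hc21 (PG24.card_points hF) hD3 (PG24.steiner hF)
  let ψ := derHom3 Cfsg.M24 (le_of_eq Cfsg.Agent.S0369.result) p q r hpq.symm hpr.symm hqr.symm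
  have hψ : Function.Injective ψ := derHom3_injective _ _ _ _ _ _ _ _
  let φ := autEquiv e he
  let f := φ.toMonoidHom.comp ψ
  have hf : Function.Injective f := φ.injective.comp hψ
  have hc1 : Nat.card f.range = 20160 := by
    rw [← Nat.card_congr (MonoidHom.ofInjective hf).toEquiv]
    exact card_stabilizer_pt3 hpq hpr hqr
  have hc2 : Nat.card (PG24.pslHom F).range = 20160 := by
    rw [← Nat.card_congr (MonoidHom.ofInjective PG24.pslHom_injective).toEquiv]
    exact card_psl F hF
  have hs : IsSimpleGroup (PG24.pslHom F).range := by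
    have := Cfsg.Agent.S0249.result (F := F) 3 le_rfl
    exact (MonoidHom.ofInjective PG24.pslHom_injective).symm.isSimpleGroup
  have heq := eq_of_index6 f.range (PG24.pslHom F).range
    (SteinerFacts.card_aut21 (PG24.card_points hF) (PG24.steiner hF)) hc1 hc2 hs
  exact ⟨(MonoidHom.ofInjective hf).trans ((MulEquiv.subgroupCongr heq.symm).trans
    (MonoidHom.ofInjective PG24.pslHom_injective).symm)⟩

end Cfsg.Agent.Lib.Helper28.PSL34
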