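import Cfsg.Agent.Lib.Helper28.SteinerC
import Cfsg.Agent.Lib.Helper28.SteinerCert21

/-!
Arcs in the projective plane of order four: general lemmas and the concrete model.
-/

set_option autoImplicit false

namespace Cfsg.Agent.Lib.Helper28.Plane4

open Cfsg Cfsg.Agent.Lib.Helper28.SteinerU Cfsg.Agent.Lib.Helper28.SteinerC

/-- No three points of `S` on a member of `L`. -/
def Arc {α : Type*} [DecidableEq α] (L : Set (Finset α)) (S : Finset α) : Prop :=
  ∀ l ∈ L, (l ∩ S).card ≤ 2

section Transport

variable {α β : Type*} [DecidableEq α] [DecidableEq β]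

theorem arc_image {L : Set (Finset α)} {L' : Set (Finset β)} (e : α ≃ β)
    (he : (fun b => b.image e) '' L = L') (S : Finset α) : Arc L' (S.image e) ↔ Arc L S := by
  constructor
  · intro h l hl
    have := h (l.image e) (he ▸ ⟨l, hl, rfl⟩)
    rwa [← Finset.image_inter _ _ e.injective, Finset.card_image_of_injective _ e.injective] at this
  · intro h l' hl'
    rw [← he] at hl'
    obtain ⟨l, hl, rfl⟩ := hl'
    show (l.image e ∩ S.image e).card ≤ 2
    rw [← Finset.image_inter _ _ e.injective, Finset.card_image_of_injective _ e.injective]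
    exact h l hl

theorem ncard_arcs {L : Set (Finset α)} {L' : Set (Finset β)} (e : α ≃ β)
    (he : (fun b => b.image e) '' L = L') (n : ℕ) :
    {S : Finset α | S.card = n ∧ Arc L S}.ncard = {S : Finset β | S.card = n ∧ Arc L' S}.ncard := by
  rw [← Set.ncard_image_of_injective _ (Finset.image_injective e.injective)]
  congr 1
  ext S'
  constructor
  · rintro ⟨S, ⟨h1, h2⟩, rfl⟩
    exact ⟨by rw [Finset.card_image_of_injective _ e.injective, h1], (arc_image e he S).mpr h2⟩
  · rintro ⟨h1, h2⟩
    refine ⟨S'.image e.symm, ⟨by rw [Finset.card_image_of_injective _ e.symm.injective, h1], ?_⟩,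
      image_image_symm e S'⟩
    rw [← arc_image e he, image_image_symm]
    exact h2

theorem existsUnique_transport {L : Set (Finset α)} {L' : Set (Finset β)} (e : α ≃ β)
    (he : (fun b => b.image e) '' L = L')
    (h : ∀ S : Finset β, (S.card = 4 ∧ Arc L' S) → ∃! H : Finset β, (H.card = 6 ∧ Arc L' H) ∧ S ⊆ H)
    (S : Finset α) (hS : S.card = 4 ∧ Arc L S) :
    ∃! H : Finset α, (H.card = 6 ∧ Arc L H) ∧ S ⊆ H := by
  obtain ⟨H', ⟨⟨h1, h2⟩, h3⟩, huniq⟩ := h (S.image e)
    ⟨by rw [Finset.card_image_of_injective _ e.injective, hS.1], (arc_image e he S).mpr hS.2⟩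
  refine ⟨H'.image e.symm, ⟨⟨by rw [Finset.card_image_of_injective _ e.symm.injective, h1], ?_⟩, ?_⟩,
    ?_⟩
  · rw [← arc_image e he, image_image_symm]; exact h2
  · intro x hx
    rw [Finset.mem_image]
    exact ⟨e x, h3 (Finset.mem_image_of_mem _ hx), e.symm_apply_apply x⟩
  · rintro H ⟨⟨g1, g2⟩, g3⟩
    have := huniq (H.image e)
      ⟨⟨by rw [Finset.card_image_of_injective _ e.injective, g1], (arc_image e he H).mpr g2⟩,
        Finset.image_subset_image g3⟩
    rw [← this, image_symm_image]

end Transport

/-- Double counting: the number of hyperovals. -/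
theorem hyperoval_count {α : Type*} [Fintype α] [DecidableEq α] (L : Set (Finset α))
    (h1 : {S : Finset α | S.card = 4 ∧ Arc L S}.ncard = 2520)
    (h3 : ∀ S : Finset α, (S.card = 4 ∧ Arc L S) →
      ∃! H : Finset α, (H.card = 6 ∧ Arc L H) ∧ S ⊆ H) :
    {H : Finset α | H.card = 6 ∧ Arc L H}.ncard = 168 := by
  classical
  let A : Finset (Finset α) := Finset.univ.filter (fun S => S.card = 4 ∧ Arc L S)
  let Hs : Finset (Finset α) := Finset.univ.filter (fun H => H.card = 6 ∧ Arc L H)
  have hA : A.card = 2520 := by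
    rw [← h1, ← Set.ncard_coe_finset]; congr 1; ext S; simp [A]
  have hH : {H : Finset α | H.card = 6 ∧ Arc L H}.ncard = Hs.card := by
    rw [← Set.ncard_coe_finset]; congr 1; ext S; simp [Hs]
  have key := Finset.sum_card_bipartiteAbove_eq_sum_card_bipartiteBelow (s := A) (t := Hs)
    (fun S H => S ⊆ H)
  have hl : ∀ S ∈ A, (Hs.bipartiteAbove (fun S H => S ⊆ H) S).card = 1 := by
    intro S hS
    have hS' : S.card = 4 ∧ Arc L S := by simpa [A] using hS
    obtain ⟨H, hH1, hH2⟩ := h3 S hS'
    rw [Finset.card_eq_one]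
    refine ⟨H, ?_⟩
    ext H'
    simp only [Finset.bipartiteAbove, Finset.mem_filter, Finset.mem_singleton, Hs,
      Finset.mem_univ, true_and]
    constructor
    · intro h; exact hH2 H' h
    · rintro rfl; exact hH1
  have hr : ∀ H ∈ Hs, (A.bipartiteBelow (fun S H => S ⊆ H) H).card = 15 := by
    intro H hH'
    have hH'' : H.card = 6 ∧ Arc L H := by simpa [Hs] using hH'
    have : A.bipartiteBelow (fun S H => S ⊆ H) H = H.powersetCard 4 := by
      ext S
      simp only [Finset.bipartiteBelow, Finset.mem_filter, A, Finset.mem_univ, true_and,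
        Finset.mem_powersetCard]
      constructor
      · rintro ⟨⟨g1, _⟩, g3⟩; exact ⟨g3, g1⟩
      · rintro ⟨g1, g2⟩
        refine ⟨⟨g2, ?_⟩, g1⟩
        intro l hl
        exact (Finset.card_le_card (Finset.inter_subset_inter_left g1)).trans (hH''.2 l hl)
    rw [this, Finset.card_powersetCard, hH''.1]
    rfl
  rw [Finset.sum_congr rfl hl, Finset.sum_congr rfl hr, Finset.sum_const, Finset.sum_const, hA,
    smul_eq_mul, smul_eq_mul] at key
  rw [hH]
  omega

/-- The concrete plane. -/
def Lst : Set (Finset (Fin 21)) :=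
  {s | ∃ j < 21, blk (fld Cfsg.Agent.Lib.Helper28.SteinerCert21.W j) = s}

theorem iso_table {α : Type*} [Fintype α] [DecidableEq α] (hα : Fintype.card α = 21)
    {L : Set (Finset α)} (hL : IsSteinerSystem 2 5 L) : SetSystemIso L Lst := by
  have h := run_sound (v := 21) (by decide)
    (hA_basic (by intro n hn; interval_cases n <;> decide) (by decide))
    Cfsg.Agent.Lib.Helper28.SteinerCert21.steps [] 0 (by simp)
    Cfsg.Agent.Lib.Helper28.SteinerCert21.cert
  let e := (Fintype.equivFinOfCardEq hα).symm
  exact iso_trans (iso_symm (pre_iso e L)) (h _ (pre_steiner e hL) (by simp))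

/-- The lines as masks. -/
def lines : List ℕ := [31, 481, 7681, 122881, 139810, 149764, 168008, 197776, 274564, 279618, 295696, 329768, 533768, 544816, 559234, 590404, 1058896, 1065608, 1082404, 1118466, 1966081]

theorem lines_eq : lines = (List.range 21).map (fld Cfsg.Agent.Lib.Helper28.SteinerCert21.W) := by
  decide +kernel

theorem mem_Lst_iff (s : Finset (Fin 21)) : s ∈ Lst ↔ ∃ ℓ ∈ lines, blk ℓ = s := by
  simp [Lst, lines_eq]

def arcL (c : List (Fin 21)) : Bool :=
  lines.all (fun ℓ => decide (c.countP (fun i => ℓ.testBit i.val) ≤ 2))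

theorem arcL_iff (c : List (Fin 21)) (hc : c.Nodup) : arcL c = true ↔ Arc Lst c.toFinset := by
  simp only [arcL, List.all_eq_true, decide_eq_true_eq, Arc]
  constructor
  · intro h l hl
    obtain ⟨ℓ, hℓ, rfl⟩ := (mem_Lst_iff l).mp hl
    rw [Finset.inter_comm, card_inter_blk c hc]
    exact h ℓ hℓ
  · intro h ℓ hℓ
    rw [← card_inter_blk c hc, Finset.inter_comm]
    exact h _ ((mem_Lst_iff _).mpr ⟨ℓ, hℓ, rfl⟩)

theorem length_of_mem_subs {α : Type*} : ∀ (l : List α) (n : ℕ) (c : List α), c ∈ subs n l →
    c.length = n := by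
  intro l
  induction l with
  | nil =>
    intro n c hc
    cases n with
    | zero => simp [subs] at hc; subst hc; rfl
    | succ n => simp [subs] at hc
  | cons a l ih =>
    intro n c hc
    cases n with
    | zero => simp [subs] at hc; subst hc; rfl
    | succ n =>
      simp only [subs, List.mem_append, List.mem_map] at hc
      rcases hc with ⟨d, hd, rfl⟩ | hc
      · simp [ih n d hd]
      · exact ih _ c hc

/-- Every subset is the set of entries of one of the enumerated lists. -/
theorem exists_subs {v : ℕ} (S : Finset (Fin v)) (n : ℕ) (hS : S.card = n) :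
    ∃ c ∈ subs n (List.finRange v), c.toFinset = S ∧ c.Nodup := by
  have hn : ((List.finRange v).filter (fun i => decide (i ∈ S))).Nodup :=
    (List.nodup_finRange v).filter _
  have ht : ((List.finRange v).filter (fun i => decide (i ∈ S))).toFinset = S := by
    ext j; simp
  exact ⟨_, mem_subs List.filter_sublist _ (by rw [← List.toFinset_card_of_nodup hn, ht, hS]),
    ht, hn⟩

/-- Counting subsets by enumeration. -/
theorem ncard_subs {v : ℕ} (n : ℕ) (P : List (Fin v) → Bool) (Q : Finset (Fin v) → Prop)
    (h : ∀ c : List (Fin v), c.Nodup → (P c = true ↔ Q c.toFinset)) :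
    {S : Finset (Fin v) | S.card = n ∧ Q S}.ncard
      = ((subs n (List.finRange v)).filter P).length := by
  classical
  have hnd := List.nodup_finRange v
  have hpw : ((subs n (List.finRange v)).filter P).Pairwise
      (fun c c' => c.toFinset ≠ c'.toFinset) := (subs_pairwise _ hnd n).filter _
  have hmapnd : (((subs n (List.finRange v)).filter P).map List.toFinset).Nodup := by
    rw [List.Nodup, List.pairwise_map]; exact hpw
  have hset : {S : Finset (Fin v) | S.card = n ∧ Q S}
      = ↑(((subs n (List.finRange v)).filter P).map List.toFinset).toFinset := by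
    ext S
    simp only [Set.mem_ofPred_eq, List.coe_toFinset, List.mem_map, List.mem_filter]
    constructor
    · rintro ⟨h1, h2⟩
      obtain ⟨c, hc, hcS, hcn⟩ := exists_subs S n h1
      exact ⟨c, ⟨hc, (h c hcn).mpr (hcS ▸ h2)⟩, hcS⟩
    · rintro ⟨c, ⟨hc, hP⟩, rfl⟩
      have hcn := subs_nodup_mem _ hnd n c hc
      refine ⟨?_, (h c hcn).mp hP⟩
      rw [List.toFinset_card_of_nodup hcn]
      exact length_of_mem_subs _ _ _ hc
  rw [hset, Set.ncard_coe_finset, List.toFinset_card_of_nodup hmapnd, List.length_map]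

end Cfsg.Agent.Lib.Helper28.Plane4
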