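import Cfsg.Agent.Lib.Helper28.Plane4

set_option autoImplicit false

namespace Cfsg.Agent.Lib.Helper28.Plane4

open Cfsg Cfsg.Agent.Lib.Helper28.SteinerU

set_option maxRecDepth 100000 in
theorem count4 : ((subs 4 (List.finRange 21)).filter arcL).length = 2520 := by decide +kernel

end Cfsg.Agent.Lib.Helper28.Plane4
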