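import Cfsg.Agent.Lib.Helper28.Plane4

set_option autoImplicit false

namespace Cfsg.Agent.Lib.Helper28.Plane4

open Cfsg Cfsg.Agent.Lib.Helper28.SteinerU Cfsg.Agent.Lib.Helper28.SteinerC

/-- The union of the secants of `c`. -/
def secU (c : List (Fin 21)) : ℕ :=
  lines.foldr (fun ℓ acc => if c.countP (fun i => ℓ.testBit i.val) == 2 then acc ||| ℓ else acc) 0

def chk (c : List (Fin 21)) : Bool :=
  match (List.finRange 21).filter (fun i => !(secU c).testBit i.val) with
  | [x, y] => decide (x :: y :: c).Nodup && arcL (x :: y :: c)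
  | _ => false

set_option maxRecDepth 100000 in
theorem chk_all : (subs 4 (List.finRange 21)).all (fun c => !arcL c || chk c) = true := by
  decide +kernel

end Cfsg.Agent.Lib.Helper28.Plane4
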