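import Cfsg.Agent.Lib.Helper28.Plane4A
import Cfsg.Agent.Lib.Helper28.Plane4B

set_option autoImplicit false

namespace Cfsg.Agent.Lib.Helper28.Plane4

open Cfsg Cfsg.Agent.Lib.Helper28.SteinerU Cfsg.Agent.Lib.Helper28.SteinerC

theorem testBit_foldr_sec (c : List (Fin 21)) (ls : List ℕ) (z : ℕ) :
    (ls.foldr (fun (ℓ : ℕ) acc => if c.countP (fun i => ℓ.testBit i.val) == 2 then acc ||| ℓ else acc)
      0).testBit z = true ↔
      ∃ ℓ ∈ ls, c.countP (fun i => ℓ.testBit i.val) = 2 ∧ ℓ.testBit z = true := by
  induction ls with
  | nil => simp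
  | cons a ls ih =>
    rw [List.foldr_cons]
    by_cases h : c.countP (fun i => a.testBit i.val) = 2
    · rw [if_pos (by simpa using h), Nat.testBit_or, Bool.or_eq_true, ih]
      simp only [List.mem_cons, exists_eq_or_imp, h, true_and]
      exact or_comm
    · rw [if_neg (by simpa using h), ih]
      simp only [List.mem_cons, exists_eq_or_imp, h, false_and, false_or]

theorem unique_hyperoval (S : Finset (Fin 21)) (hS : S.card = 4 ∧ Arc Lst S) :
    ∃! H : Finset (Fin 21), (H.card = 6 ∧ Arc Lst H) ∧ S ⊆ H := by
  obtain ⟨c, hc, hcS, hcn⟩ := exists_subs S 4 hS.1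
  have h1 := List.all_eq_true.mp chk_all c hc
  have hlen : c.length = 4 := length_of_mem_subs _ _ _ hc
  have harc : arcL c = true := (arcL_iff c hcn).mpr (hcS ▸ hS.2)
  rw [harc] at h1
  simp only [Bool.not_true, Bool.false_or] at h1
  unfold chk at h1
  split at h1
  · rename_i x y hxy
    rw [Bool.and_eq_true, decide_eq_true_eq] at h1
    obtain ⟨hnd, harc6⟩ := h1
    refine ⟨(x :: y :: c).toFinset, ⟨⟨by rw [List.toFinset_card_of_nodup hnd]; simp [hlen], (arcL_iff _ hnd).mp harc6⟩, ?_⟩,
      ?_⟩
    · intro z hz
      rw [← hcS] at hz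
      simp only [List.toFinset_cons, Finset.mem_insert]
      exact Or.inr (Or.inr hz)
    · rintro H ⟨⟨hH6, hHarc⟩, hSH⟩
      apply Finset.eq_of_subset_of_card_le
      · intro z hz
        by_cases hzS : z ∈ S
        · rw [← hcS] at hzS
          simp only [List.toFinset_cons, Finset.mem_insert]
          exact Or.inr (Or.inr hzS)
        · have hz2 : z ∈ (List.finRange 21).filter (fun i => !(secU c).testBit i.val) := by
            rw [List.mem_filter]
            refine ⟨List.mem_finRange z, ?_⟩
            rw [Bool.not_eq_true', Bool.eq_false_iff]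
            intro h3
            obtain ⟨ℓ, hℓ, hcount, hzℓ⟩ := (testBit_foldr_sec c lines z.val).mp h3
            have h4 := hHarc (blk ℓ) ((mem_Lst_iff _).mpr ⟨ℓ, hℓ, rfl⟩)
            have h5 : insert z (S ∩ blk ℓ) ⊆ blk ℓ ∩ H := by
              intro w hw
              rw [Finset.mem_insert] at hw
              rcases hw with rfl | hw
              · exact Finset.mem_inter.mpr ⟨mem_blk.mpr hzℓ, hz⟩
              · rw [Finset.mem_inter] at hw
                exact Finset.mem_inter.mpr ⟨hw.2, hSH hw.1⟩
            have h6 : (insert z (S ∩ blk ℓ)).card = 3 := by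
              rw [Finset.card_insert_of_notMem (fun h => hzS (Finset.mem_inter.mp h).1), ← hcS,
                card_inter_blk c hcn, hcount]
            have := Finset.card_le_card h5
            omega
          rw [hxy] at hz2
          simp only [List.mem_cons, List.not_mem_nil, or_false] at hz2
          simp only [List.toFinset_cons, Finset.mem_insert]
          rcases hz2 with h | h
          · exact Or.inl h
          · exact Or.inr (Or.inl h)
      · rw [List.toFinset_card_of_nodup hnd, hH6]; simp [hlen]
  · exact absurd h1 (by simp)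

end Cfsg.Agent.Lib.Helper28.Plane4
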