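import Cfsg.Agent.Lib.Helper28.Plane4
import Cfsg.Agent.Lib.Helper28.SteinerDer
import Cfsg.Agent.Lib.Helper3.Steiner

/-!
A collineation of a plane of order four fixing a hyperoval pointwise is trivial.
-/

set_option autoImplicit false

namespace Cfsg.Agent.Lib.Helper28.Plane4

open Cfsg Cfsg.Agent.Lib.Helper28.SteinerU Cfsg.Agent.Lib.Helper28.SteinerDer
open Cfsg.Agent.Lib.Helper3.Steiner

variable {α : Type*} [Fintype α] [DecidableEq α]

/-- No line is tangent to a hyperoval. -/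
theorem no_tangent (hα : Fintype.card α = 21) {L : Set (Finset α)} (hL : IsSteinerSystem 2 5 L)
    {H : Finset α} (hH : H.card = 6 ∧ Arc L H) {l : Finset α} (hl : l ∈ L) :
    (l ∩ H).card ≠ 1 := by
  have h1 := sum_choose_inter hL (by norm_num) H 1 (by norm_num)
  have h2 := sum_choose_inter hL (by norm_num) H 2 (by norm_num)
  rw [hα, hH.1] at h1 h2
  have e1 : (6 : ℕ).choose 1 * ((21 - 1).choose (2 - 1) / (5 - 1).choose (2 - 1)) = 30 := by decide
  have e2 : (6 : ℕ).choose 2 * ((21 - 2).choose (2 - 2) / (5 - 2).choose (2 - 2)) = 15 := by decide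
  rw [e1] at h1
  rw [e2] at h2
  have hle : ∀ c ∈ blocks L, 2 * (c ∩ H).card.choose 2 ≤ (c ∩ H).card.choose 1 := by
    intro c hc
    have := hH.2 c (mem_blocks.mp hc)
    interval_cases (c ∩ H).card <;> decide
  have hsum : ∑ c ∈ blocks L, 2 * (c ∩ H).card.choose 2 = ∑ c ∈ blocks L, (c ∩ H).card.choose 1 := by
    have h30 : 2 * 15 = 30 := rfl
    rw [← Finset.mul_sum, h1, h2, h30]
  have := (Finset.sum_eq_sum_iff_of_le hle).mp hsum l (mem_blocks.mpr hl)
  intro h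
  rw [h] at this
  revert this
  decide

omit [Fintype α] in
theorem image_line_eq {L : Set (Finset α)} (hL : IsSteinerSystem 2 5 L) {H : Finset α}
    {g : Equiv.Perm α} (hg : g ∈ setSystemAut L) (hfix : ∀ p ∈ H, g p = p) {l : Finset α}
    (hl : l ∈ L) (h2 : (l ∩ H).card = 2) : l.image g = l := by
  obtain ⟨x, _, hx⟩ := hL.2 (l ∩ H) h2
  have h3 := hx l ⟨hl, Finset.inter_subset_left⟩
  have h4 := hx (l.image g) ⟨image_mem_of_mem_aut hg hl, by
    intro p hp
    rw [Finset.mem_inter] at hp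
    exact Finset.mem_image.mpr ⟨p, hp.1, hfix p hp.2⟩⟩
  rw [h4, h3]

theorem rigid (hα : Fintype.card α = 21) {L : Set (Finset α)} (hL : IsSteinerSystem 2 5 L)
    {H : Finset α} (hH : H.card = 6 ∧ Arc L H) {g : Equiv.Perm α} (hg : g ∈ setSystemAut L)
    (hfix : ∀ p ∈ H, g p = p) : g = 1 := by
  ext x
  show g x = x
  by_cases hxH : x ∈ H
  · exact hfix x hxH
  have key : ∀ h ∈ H, ∃ l ∈ L, x ∈ l ∧ h ∈ l ∧ (l ∩ H).card = 2 := by
    intro h hh
    have hne : x ≠ h := fun e => hxH (e ▸ hh)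
    obtain ⟨l, ⟨hl, hsub⟩, _⟩ := hL.2 {x, h} (Finset.card_pair hne)
    have hxl : x ∈ l := hsub (by simp)
    have hhl : h ∈ l := hsub (by simp)
    refine ⟨l, hl, hxl, hhl, ?_⟩
    have h1 := hH.2 l hl
    have h2 := no_tangent hα hL hH hl
    have h3 : 0 < (l ∩ H).card := Finset.card_pos.mpr ⟨h, Finset.mem_inter.mpr ⟨hhl, hh⟩⟩
    omega
  obtain ⟨h1, hh1⟩ : H.Nonempty := Finset.card_pos.mp (by rw [hH.1]; norm_num)
  obtain ⟨l1, hl1, hx1, _, hc1⟩ := key h1 hh1
  obtain ⟨h3, hh3, hh3l⟩ : ∃ h3 ∈ H, h3 ∉ l1 := by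
    by_contra hcon
    push Not at hcon
    have : H ⊆ l1 ∩ H := fun p hp => Finset.mem_inter.mpr ⟨hcon p hp, hp⟩
    have := Finset.card_le_card this
    rw [hH.1, hc1] at this
    omega
  obtain ⟨l2, hl2, hx2, hh3l2, hc2⟩ := key h3 hh3
  have hne : l1 ≠ l2 := fun e => hh3l (e ▸ hh3l2)
  have hg1 : g x ∈ l1 := by
    rw [← image_line_eq hL hg hfix hl1 hc1]; exact Finset.mem_image_of_mem _ hx1
  have hg2 : g x ∈ l2 := by
    rw [← image_line_eq hL hg hfix hl2 hc2]; exact Finset.mem_image_of_mem _ hx2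
  have hlt : (l1 ∩ l2).card < 2 := by
    rcases inter_lt_or_eq hL hl1 hl2 with h | h
    · exact h
    · exact absurd h hne
  exact Finset.card_le_one.mp (by omega) _ (Finset.mem_inter.mpr ⟨hg1, hg2⟩) _
    (Finset.mem_inter.mpr ⟨hx1, hx2⟩)

end Cfsg.Agent.Lib.Helper28.Plane4
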