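import Cfsg.Agent.Lib.Helper28.Plane4D

/-!
Every permutation of a hyperoval extends to a unique collineation.
-/

set_option autoImplicit false

namespace Cfsg.Agent.Lib.Helper28.Plane4

open Cfsg Cfsg.Agent.Lib.Helper28.SteinerU Cfsg.Agent.Lib.Helper28.SteinerDer
open Cfsg.Agent.Lib.Helper28.SteinerAut
open scoped Pointwise

variable {α : Type*} [Fintype α] [DecidableEq α]

omit [Fintype α] in
theorem mem_iff_of_image_eq {H : Finset α} {g : Equiv.Perm α} (h : H.image g = H) (x : α) :
    g x ∈ H ↔ x ∈ H := by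
  constructor
  · intro hx
    rw [← h, Finset.mem_image] at hx
    obtain ⟨b, hb, hba⟩ := hx
    rwa [← g.injective hba]
  · intro hx
    rw [← h]
    exact Finset.mem_image_of_mem _ hx

theorem extend (hα : Fintype.card α = 21) {L : Set (Finset α)} (hL : IsSteinerSystem 2 5 L)
    {H : Finset α} (hH : H.card = 6 ∧ Arc L H)
    (h168 : {H : Finset α | H.card = 6 ∧ Arc L H}.ncard = 168)
    (hcard : Nat.card (setSystemAut L) = 120960) (σ : Equiv.Perm ↥H) :
    ∃! g : Equiv.Perm α, g ∈ setSystemAut L ∧ ∀ p : ↥H, g p = σ p := by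
  classical
  have horb : MulAction.orbit (setSystemAut L) H ⊆ {H' : Finset α | H'.card = 6 ∧ Arc L H'} := by
    rintro _ ⟨g, rfl⟩
    show (H.image (g : Equiv.Perm α)).card = 6 ∧ Arc L (H.image (g : Equiv.Perm α))
    exact ⟨by rw [Finset.card_image_of_injective _ (g : Equiv.Perm α).injective, hH.1],
      (arc_image (g : Equiv.Perm α) ((mem_aut_iff _).mp g.2) H).mpr hH.2⟩
  have h1 : Nat.card (MulAction.orbit (setSystemAut L) H) ≤ 168 := by
    rw [Nat.card_coe_set_eq]
    exact (Set.ncard_le_ncard horb (Set.toFinite _)).trans_eq h168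
  have h2 : Nat.card (MulAction.orbit (setSystemAut L) H) *
      Nat.card (MulAction.stabilizer (setSystemAut L) H) = 120960 := by
    have := MulAction.card_orbit_mul_card_stabilizer_eq_card_group (setSystemAut L) H
    rw [← Nat.card_eq_fintype_card, ← Nat.card_eq_fintype_card, ← Nat.card_eq_fintype_card,
      hcard] at this
    exact this
  have h3 : 720 ≤ Nat.card (MulAction.stabilizer (setSystemAut L) H) := by
    by_contra hlt
    push Not at hlt
    have : Nat.card (MulAction.orbit (setSystemAut L) H) *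
        Nat.card (MulAction.stabilizer (setSystemAut L) H) ≤ 168 * 719 :=
      Nat.mul_le_mul h1 (by omega)
    omega
  have hmem : ∀ g : MulAction.stabilizer (setSystemAut L) H, ∀ x,
      (g.1.1 : Equiv.Perm α) x ∈ H ↔ x ∈ H := fun g => mem_iff_of_image_eq g.2
  let ρ : MulAction.stabilizer (setSystemAut L) H →* Equiv.Perm ↥H :=
    { toFun := fun g => (g.1.1 : Equiv.Perm α).subtypePerm (hmem g)
      map_one' := by ext x; rfl
      map_mul' := fun g h => by ext x; rfl }
  have hρ : ∀ (g : MulAction.stabilizer (setSystemAut L) H) (p : ↥H),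
      ((ρ g p : ↥H) : α) = (g.1.1 : Equiv.Perm α) p := fun _ _ => rfl
  have hinj : Function.Injective ρ := by
    rw [injective_iff_map_eq_one]
    intro g hg
    apply Subtype.ext
    apply Subtype.ext
    apply rigid hα hL hH g.1.2
    intro p hp
    have := hρ g ⟨p, hp⟩
    rw [hg] at this
    exact this.symm
  have hbij : Function.Bijective ρ := by
    apply hinj.bijective_of_nat_card_le
    rw [Nat.card_eq_fintype_card, Fintype.card_perm, Fintype.card_coe, hH.1]
    exact h3
  obtain ⟨g, hg⟩ := hbij.2 σ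
  have hgσ : ∀ p : ↥H, (g.1.1 : Equiv.Perm α) p = σ p := by
    intro p
    rw [← hg]
    exact (hρ g p).symm
  refine ⟨g.1.1, ⟨g.1.2, hgσ⟩, ?_⟩
  rintro g' ⟨hg', hfix'⟩
  have h4 : (g.1.1 : Equiv.Perm α)⁻¹ * g' = 1 := by
    apply rigid hα hL hH ((setSystemAut L).mul_mem ((setSystemAut L).inv_mem g.1.2) hg')
    intro p hp
    show (g.1.1 : Equiv.Perm α)⁻¹ (g' p) = p
    rw [hfix' ⟨p, hp⟩, ← hgσ ⟨p, hp⟩]
    simp
  exact (inv_mul_eq_one.mp h4).symm

end Cfsg.Agent.Lib.Helper28.Plane4
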