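import Cfsg.Agent.Lib.Helper28.HSGraphA

/-!
A rank 3 group on 100 points with subdegrees 1, 22, 77, 2-transitive on the suborbit of length 22:
the orbital graph is strongly regular with parameters (100,22,0,6).
-/

set_option autoImplicit false

namespace Cfsg.Agent.Lib.Helper28.RankHS

open Cfsg Finset Cfsg.Agent.Lib.Helper28 Cfsg.Agent.Lib.Helper28.HSGraph

open Classical in
/-- the hypotheses -/
structure Setup {Ω : Type*} [Fintype Ω] (G : Subgroup (Equiv.Perm Ω)) (a b c : Ω) : Prop where
  card : Fintype.card Ω = 100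
  trans : ∀ x y, ∃ g ∈ G, g x = y
  hb : (univ.filter (fun y => ∃ g ∈ G, g a = a ∧ g b = y)).card = 22
  hc : (univ.filter (fun y => ∃ g ∈ G, g a = a ∧ g c = y)).card = 77
  two : ∀ y y', (∃ g ∈ G, g a = a ∧ g b = y) → (∃ g ∈ G, g a = a ∧ g b = y') → y ≠ b → y' ≠ b →
    ∃ k ∈ G, k a = a ∧ k b = b ∧ k y = y'

variable {Ω : Type*} [Fintype Ω] {G : Subgroup (Equiv.Perm Ω)} {a b c : Ω}

/-- the orbital -/
def rel (G : Subgroup (Equiv.Perm Ω)) (a b : Ω) (x y : Ω) : Prop := ∃ g ∈ G, g a = x ∧ g b = y

omit [Fintype Ω] in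
theorem rel_smul {x y : Ω} (h : rel G a b x y) {t : Equiv.Perm Ω} (ht : t ∈ G) :
    rel G a b (t x) (t y) := by
  obtain ⟨g, hg, rfl, rfl⟩ := h
  exact ⟨t * g, G.mul_mem ht hg, rfl, rfl⟩

omit [Fintype Ω] in
theorem rel_smul_iff {x y : Ω} {t : Equiv.Perm Ω} (ht : t ∈ G) :
    rel G a b (t x) (t y) ↔ rel G a b x y := by
  refine ⟨fun h => ?_, fun h => rel_smul h ht⟩
  have := rel_smul h (G.inv_mem ht)
  simpa using this

variable (S : Setup G a b c)

include S in
theorem b_ne_a : b ≠ a := by
  classical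
  rintro rfl
  have h := S.hb
  have : univ.filter (fun y => ∃ g ∈ G, g b = b ∧ g b = y) ⊆ {b} := by
    intro y hy
    obtain ⟨g, _, h1, h2⟩ := (Finset.mem_filter.1 hy).2
    rw [Finset.mem_singleton, ← h2, h1]
  have h2 := Finset.card_le_card this
  rw [Finset.card_singleton] at h2
  have h3 : (univ.filter (fun y => ∃ g ∈ G, g b = b ∧ g b = y)).card = 22 := by
    convert h
  omega

include S in
theorem c_not_rel : ¬ rel G a b a c := by
  classical
  rintro ⟨g, hg, h1, h2⟩
  have : univ.filter (fun y => ∃ g ∈ G, g a = a ∧ g c = y)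
      ⊆ univ.filter (fun y => ∃ g ∈ G, g a = a ∧ g b = y) := by
    intro y hy
    obtain ⟨k, hk, k1, k2⟩ := (Finset.mem_filter.1 hy).2
    refine Finset.mem_filter.2 ⟨Finset.mem_univ _, k * g, G.mul_mem hk hg, ?_, ?_⟩
    · rw [Equiv.Perm.mul_apply, h1, k1]
    · rw [Equiv.Perm.mul_apply, h2, k2]
  have h2 := Finset.card_le_card this
  have e1 : (univ.filter (fun y => ∃ g ∈ G, g a = a ∧ g b = y)).card = 22 := by convert S.hb
  have e2 : (univ.filter (fun y => ∃ g ∈ G, g a = a ∧ g c = y)).card = 77 := by convert S.hc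
  omega

include S in
theorem c_ne_a : c ≠ a := by
  classical
  rintro rfl
  have : univ.filter (fun y => ∃ g ∈ G, g c = c ∧ g c = y) ⊆ {c} := by
    intro y hy
    obtain ⟨g, _, h1, h2⟩ := (Finset.mem_filter.1 hy).2
    rw [Finset.mem_singleton, ← h2, h1]
  have h2 := Finset.card_le_card this
  rw [Finset.card_singleton] at h2
  have h3 : (univ.filter (fun y => ∃ g ∈ G, g c = c ∧ g c = y)).card = 77 := by
    convert S.hc
  omega

include S in
/-- the three suborbits cover everything -/
theorem cover (y : Ω) : y = a ∨ rel G a b a y ∨ ∃ g ∈ G, g a = a ∧ g c = y := by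
  classical
  have e1 : (univ.filter (fun y => ∃ g ∈ G, g a = a ∧ g b = y)).card = 22 := by convert S.hb
  have e2 : (univ.filter (fun y => ∃ g ∈ G, g a = a ∧ g c = y)).card = 77 := by convert S.hc
  have hdisj : Disjoint (univ.filter (fun y => ∃ g ∈ G, g a = a ∧ g b = y))
      (univ.filter (fun y => ∃ g ∈ G, g a = a ∧ g c = y)) := by
    rw [Finset.disjoint_left]
    intro z hz hz'
    obtain ⟨g, hg, g1, g2⟩ := (Finset.mem_filter.1 hz).2
    obtain ⟨k, hk, k1, k2⟩ := (Finset.mem_filter.1 hz').2
    apply c_not_rel S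
    refine ⟨k⁻¹ * g, G.mul_mem (G.inv_mem hk) hg, ?_, ?_⟩
    · rw [Equiv.Perm.mul_apply, g1, Equiv.Perm.inv_eq_iff_eq, k1]
    · rw [Equiv.Perm.mul_apply, g2, Equiv.Perm.inv_eq_iff_eq, k2]
  have hnot : a ∉ univ.filter (fun y => ∃ g ∈ G, g a = a ∧ g b = y) ∪
      univ.filter (fun y => ∃ g ∈ G, g a = a ∧ g c = y) := by
    rw [Finset.mem_union, not_or]
    constructor
    · intro h
      obtain ⟨g, _, g1, g2⟩ := (Finset.mem_filter.1 h).2
      exact b_ne_a S (g.injective (g2.trans g1.symm))
    · intro h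
      obtain ⟨g, _, g1, g2⟩ := (Finset.mem_filter.1 h).2
      exact c_ne_a S (g.injective (g2.trans g1.symm))
  have huniv : insert a (univ.filter (fun y => ∃ g ∈ G, g a = a ∧ g b = y) ∪
      univ.filter (fun y => ∃ g ∈ G, g a = a ∧ g c = y)) = univ := by
    apply Finset.eq_univ_of_card
    rw [Finset.card_insert_of_notMem hnot, Finset.card_union_of_disjoint hdisj, e1, e2, S.card]
  have := Finset.mem_univ y
  rw [← huniv, Finset.mem_insert, Finset.mem_union, Finset.mem_filter, Finset.mem_filter] at this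
  rcases this with h | h | h
  · exact Or.inl h
  · exact Or.inr (Or.inl h.2)
  · exact Or.inr (Or.inr h.2)

include S in
open Classical in
theorem card_out (x : Ω) : (univ.filter (fun y => rel G a b x y)).card = 22 := by
  obtain ⟨t, ht, rfl⟩ := S.trans a x
  have e1 : (univ.filter (fun y => rel G a b a y)).card = 22 := by
    unfold rel
    convert S.hb
  rw [← e1, ← Finset.card_image_of_injective (univ.filter (fun y => rel G a b a y)) t.injective]
  congr 1
  ext y
  simp only [Finset.mem_filter, Finset.mem_univ, true_and, Finset.mem_image]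
  constructor
  · intro h
    refine ⟨t⁻¹ y, ?_, by simp⟩
    rw [← rel_smul_iff ht]
    simpa using h
  · rintro ⟨z, hz, rfl⟩
    exact rel_smul hz ht

include S in
open Classical in
theorem card_in_eq (y : Ω) : (univ.filter (fun x => rel G a b x y)).card
    = (univ.filter (fun x => rel G a b x a)).card := by
  obtain ⟨t, ht, rfl⟩ := S.trans a y
  rw [← Finset.card_image_of_injective (univ.filter (fun x => rel G a b x a)) t.injective]
  congr 1
  ext x
  simp only [Finset.mem_filter, Finset.mem_univ, true_and, Finset.mem_image]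
  constructor
  · intro h
    refine ⟨t⁻¹ x, ?_, by simp⟩
    rw [← rel_smul_iff ht]
    simpa using h
  · rintro ⟨z, hz, rfl⟩
    exact rel_smul hz ht

include S in
open Classical in
theorem card_in : (univ.filter (fun x => rel G a b x a)).card = 22 := by
  have h := Finset.sum_card_bipartiteAbove_eq_sum_card_bipartiteBelow (s := (univ : Finset Ω))
    (t := (univ : Finset Ω)) (rel G a b)
  have h1 : ∀ x ∈ (univ : Finset Ω), ((univ : Finset Ω).bipartiteAbove (rel G a b) x).card = 22 :=
    fun x _ => card_out S x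
  have h2 : ∀ y ∈ (univ : Finset Ω), ((univ : Finset Ω).bipartiteBelow (rel G a b) y).card
      = (univ.filter (fun x => rel G a b x a)).card := fun y _ => card_in_eq S y
  rw [Finset.sum_congr rfl h1, Finset.sum_congr rfl h2, Finset.sum_const, Finset.sum_const,
    Finset.card_univ, S.card, smul_eq_mul, smul_eq_mul] at h
  omega

include S in
theorem rel_ba : rel G a b b a := by
  classical
  obtain ⟨y, hy⟩ : (univ.filter (fun x => rel G a b x a)).Nonempty :=
    Finset.card_pos.1 (by rw [card_in S]; norm_num)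
  have hy' : rel G a b y a := (Finset.mem_filter.1 hy).2
  rcases cover S y with rfl | ⟨g, hg, g1, g2⟩ | ⟨g, hg, g1, g2⟩
  · obtain ⟨g, _, g1, g2⟩ := hy'
    exact absurd (g.injective (g2.trans g1.symm)) (b_ne_a S)
  · rw [← g2] at hy'
    nth_rewrite 2 [← g1] at hy'
    exact (rel_smul_iff hg).1 hy'
  · exfalso
    rw [← g2] at hy'
    nth_rewrite 2 [← g1] at hy'
    have hca := (rel_smul_iff hg).1 hy'
    have : univ.filter (fun y => ∃ g ∈ G, g a = a ∧ g c = y)
        ⊆ univ.filter (fun x => rel G a b x a) := by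
      intro z hz
      obtain ⟨k, hk, k1, k2⟩ := (Finset.mem_filter.1 hz).2
      refine Finset.mem_filter.2 ⟨Finset.mem_univ _, ?_⟩
      have := rel_smul hca hk
      rwa [k1, k2] at this
    have h2 := Finset.card_le_card this
    have e2 : (univ.filter (fun y => ∃ g ∈ G, g a = a ∧ g c = y)).card = 77 := by convert S.hc
    rw [card_in S] at h2
    omega

include S in
theorem rel_symm {x y : Ω} (h : rel G a b x y) : rel G a b y x := by
  obtain ⟨g, hg, rfl, rfl⟩ := h
  exact rel_smul (rel_ba S) hg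

include S in
theorem rel_irrefl (x : Ω) : ¬ rel G a b x x := by
  rintro ⟨g, _, g1, g2⟩
  exact b_ne_a S (g.injective (g2.trans g1.symm))

/-- the orbital graph -/
def gr : SimpleGraph Ω where
  Adj := rel G a b
  symm := ⟨fun _ _ h => rel_symm S h⟩
  loopless := ⟨fun x h => rel_irrefl S x h⟩

theorem gr_adj (x y : Ω) : (gr S).Adj x y ↔ rel G a b x y := Iff.rfl

include S in
/-- rank 3 -/
theorem rank3 (x y y' : Ω) (hy : y ≠ x) (hy' : y' ≠ x) (h : rel G a b x y ↔ rel G a b x y') :
    ∃ g ∈ G, g x = x ∧ g y = y' := by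
  obtain ⟨t, ht, rfl⟩ := S.trans a x
  have key : ∀ z z', z ≠ a → z' ≠ a → (rel G a b a z ↔ rel G a b a z') →
      ∃ g ∈ G, g a = a ∧ g z = z' := by
    intro z z' hz hz' hiff
    rcases cover S z with h1 | ⟨g, hg, g1, g2⟩ | ⟨g, hg, g1, g2⟩
    · exact absurd h1 hz
    · obtain ⟨k, hk, k1, k2⟩ := hiff.1 ⟨g, hg, g1, g2⟩
      refine ⟨k * g⁻¹, G.mul_mem hk (G.inv_mem hg), ?_, ?_⟩
      · rw [Equiv.Perm.mul_apply, Equiv.Perm.inv_eq_iff_eq.2 g1.symm, k1]
      · rw [Equiv.Perm.mul_apply, Equiv.Perm.inv_eq_iff_eq.2 g2.symm, k2]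
    · rcases cover S z' with h1 | h1 | ⟨k, hk, k1, k2⟩
      · exact absurd h1 hz'
      · exfalso
        obtain ⟨l, hl, l1, l2⟩ := hiff.2 h1
        apply c_not_rel S
        refine ⟨g⁻¹ * l, G.mul_mem (G.inv_mem hg) hl, ?_, ?_⟩
        · rw [Equiv.Perm.mul_apply, l1, Equiv.Perm.inv_eq_iff_eq, g1]
        · rw [Equiv.Perm.mul_apply, l2, Equiv.Perm.inv_eq_iff_eq, g2]
      · refine ⟨k * g⁻¹, G.mul_mem hk (G.inv_mem hg), ?_, ?_⟩
        · rw [Equiv.Perm.mul_apply, Equiv.Perm.inv_eq_iff_eq.2 g1.symm, k1]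
        · rw [Equiv.Perm.mul_apply, Equiv.Perm.inv_eq_iff_eq.2 g2.symm, k2]
  obtain ⟨g, hg, g1, g2⟩ := key (t⁻¹ y) (t⁻¹ y') (by
      intro e; apply hy; rw [← e]; simp) (by
      intro e; apply hy'; rw [← e]; simp) (by
      rw [← rel_smul_iff ht, ← rel_smul_iff (x := a) (y := t⁻¹ y') ht]
      simpa using h)
  refine ⟨t * g * t⁻¹, G.mul_mem (G.mul_mem ht hg) (G.inv_mem ht), ?_, ?_⟩
  · simp [g1]
  · simp only [Equiv.Perm.mul_apply]
    rw [g2]
    simp

open Classical in
/-- number of common neighbours -/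
noncomputable def cn (G : Subgroup (Equiv.Perm Ω)) (a b x y : Ω) : ℕ :=
  (univ.filter (fun u => rel G a b x u ∧ rel G a b y u)).card

theorem cn_smul (x y : Ω) {t : Equiv.Perm Ω} (ht : t ∈ G) :
    cn G a b (t x) (t y) = cn G a b x y := by
  classical
  unfold cn
  rw [← Finset.card_image_of_injective (univ.filter (fun u => rel G a b x u ∧ rel G a b y u))
    t.injective]
  congr 1
  ext u
  simp only [Finset.mem_filter, Finset.mem_univ, true_and, Finset.mem_image]
  constructor
  · rintro ⟨h1, h2⟩
    refine ⟨t⁻¹ u, ⟨?_, ?_⟩, by simp⟩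
    · rw [← rel_smul_iff ht]
      simpa using h1
    · rw [← rel_smul_iff ht]
      simpa using h2
  · rintro ⟨z, ⟨h1, h2⟩, rfl⟩
    exact ⟨rel_smul h1 ht, rel_smul h2 ht⟩

theorem cn_adj {x y : Ω} (h : rel G a b x y) : cn G a b x y = cn G a b a b := by
  obtain ⟨g, hg, rfl, rfl⟩ := h
  exact cn_smul a b hg

include S in
theorem cn_nadj {x y : Ω} (hxy : x ≠ y) (h : ¬ rel G a b x y) : cn G a b x y = cn G a b a c := by
  obtain ⟨t, ht, rfl⟩ := S.trans a x
  rcases cover S (t⁻¹ y) with h1 | h1 | ⟨k, hk, k1, k2⟩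
  · exfalso
    apply hxy
    rw [← h1]; simp
  · exfalso
    apply h
    have := rel_smul h1 ht
    simpa using this
  · have e : y = (t * k) c := by
      rw [Equiv.Perm.mul_apply, k2]; simp
    have e' : t a = (t * k) a := by
      rw [Equiv.Perm.mul_apply, k1]
    rw [e, e']
    exact cn_smul a c (G.mul_mem ht hk)

include S in
/-- no triangles -/
theorem no_common (y : Ω) (h1 : rel G a b a y) (h2 : rel G a b b y) : False := by
  classical
  have hyb : y ≠ b := by
    rintro rfl
    exact rel_irrefl S _ h2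
  -- all neighbours of `a` other than `b` are neighbours of `b`
  have hE : ∀ y', rel G a b a y' → y' ≠ b → rel G a b b y' := by
    intro y' hy' hne
    obtain ⟨k, hk, k1, k2, k3⟩ := S.two y y' h1 hy' hyb hne
    have := rel_smul h2 hk
    rwa [k2, k3] at this
  have hE' : ∀ x y z, rel G a b x y → rel G a b x z → z ≠ y → rel G a b y z := by
    rintro _ _ z ⟨g, hg, rfl, rfl⟩ hz hne
    have h3 : rel G a b a (g⁻¹ z) := by
      rw [← rel_smul_iff hg]
      simpa using hz
    have h4 := hE _ h3 (by
      intro e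
      apply hne
      rw [← e]; simp)
    have := rel_smul h4 hg
    simpa using this
  let f : Ω → Finset Ω := fun x => insert x (univ.filter (fun y => rel G a b x y))
  have hfc : ∀ x, (f x).card = 23 := by
    intro x
    rw [Finset.card_insert_of_notMem, card_out S]
    simp only [Finset.mem_filter, Finset.mem_univ, true_and]
    exact rel_irrefl S x
  have hmem : ∀ x z, z ∈ f x ↔ z = x ∨ rel G a b x z := by
    intro x z
    simp [f]
  have hfeq : ∀ x y, y ∈ f x → f y = f x := by
    intro x y hy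
    rcases (hmem x y).1 hy with rfl | hxy
    · rfl
    · symm
      apply Finset.eq_of_subset_of_card_le
      · intro z hz
        rw [hmem]
        rcases (hmem x z).1 hz with rfl | hxz
        · exact Or.inr (rel_symm S hxy)
        · by_cases hzy : z = y
          · exact Or.inl hzy
          · exact Or.inr (hE' x y z hxy hxz hzy)
      · rw [hfc, hfc]
  have h1 := Finset.card_eq_sum_card_fiberwise (f := f) (s := univ) (t := univ.image f)
    (fun x _ => Finset.mem_image_of_mem _ (Finset.mem_univ x))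
  have hfib : ∀ T ∈ univ.image f, (univ.filter (fun x => f x = T)).card = 23 := by
    intro T hT
    obtain ⟨x0, _, rfl⟩ := Finset.mem_image.1 hT
    rw [← hfc x0]
    congr 1
    ext x
    simp only [Finset.mem_filter, Finset.mem_univ, true_and]
    constructor
    · intro h
      rw [← h, hmem]
      exact Or.inl rfl
    · exact hfeq x0 x
  rw [Finset.sum_congr rfl hfib, Finset.sum_const, smul_eq_mul, Finset.card_univ, S.card] at h1
  omega

open Classical in
theorem isHSG : IsHSG (gr S) := by
  have htri : ∀ u v w, rel G a b u v → rel G a b v w → ¬ rel G a b u w := by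
    rintro _ _ w ⟨g, hg, rfl, rfl⟩ h1 h2
    apply no_common S (g⁻¹ w)
    · rw [← rel_smul_iff hg]
      simpa using h2
    · rw [← rel_smul_iff hg]
      simpa using h1
  have hsrg : (gr S).IsSRGWith 100 22 0 (cn G a b a c) :=
    { card := S.card
      regular := fun v => by
        rw [← card_out S v, ← SimpleGraph.card_neighborFinset_eq_degree]
        congr 1
        ext u
        simp [gr_adj]
      of_adj := fun u w h3 => by
        rw [card_cn, Finset.card_eq_zero]
        ext t
        simp only [mem_filter, mem_univ, true_and, notMem_empty, iff_false, not_and]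
        intro h1 h2
        exact htri u t w h1 (rel_symm S h2) h3
      of_not_adj := fun v w hvw hn => by
        rw [card_cn]
        exact cn_nadj S hvw hn }
  have hpar := SimpleGraph.IsSRGWith.param_eq (gr S) hsrg (by norm_num)
  have hmu : cn G a b a c = 6 := by omega
  exact
    { card := S.card
      deg := fun v => card_out S v
      tri := htri
      mu := fun v w hvw hn => by
        rw [← hmu]
        exact cn_nadj S hvw hn }

end Cfsg.Agent.Lib.Helper28.RankHS
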