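import Cfsg.Agent.Lib.Helper28.RankHS1
import Cfsg.Agent.Lib.Helper28.HSOut4
import Cfsg.Agent.S0430

/-!
A rank 3 group on 100 points with subdegrees 1, 22, 77, 2-transitive on the suborbit of length 22 and
of the right order is the Higman-Sims group.
-/

set_option autoImplicit false

namespace Cfsg.Agent.Lib.Helper28.RankHS

open Cfsg Cfsg.Spor Finset Cfsg.Agent.Lib.Helper28 Cfsg.Agent.Lib.Helper28.HSGraph
  Cfsg.Agent.Lib.Helper28.HSOut

theorem eq_of_index_two {A : Type*} [Group A] (H K : Subgroup A) (hH : H.index = 2)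
    (hK : K.index = 2) (hs : IsSimpleGroup H) (hc : 2 < Nat.card H) : H = K := by
  have hN : K.Normal := Subgroup.normal_of_index_eq_two hK
  let f : H →* A ⧸ K := (QuotientGroup.mk' K).comp H.subtype
  have hle : H ≤ K := by
    rcases hs.eq_bot_or_eq_top_of_normal f.ker inferInstance with h1 | h1
    · exfalso
      have hinj : Function.Injective f := (MonoidHom.ker_eq_bot_iff f).1 h1
      have : Finite (A ⧸ K) := by
        apply Nat.finite_of_card_ne_zero
        have : Nat.card (A ⧸ K) = 2 := hK
        omega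
      have h2 := Nat.card_le_card_of_injective f hinj
      have h3 : Nat.card (A ⧸ K) = 2 := hK
      omega
    · intro x hx
      have : (⟨x, hx⟩ : H) ∈ f.ker := by rw [h1]; trivial
      rw [MonoidHom.mem_ker] at this
      exact (QuotientGroup.eq_one_iff x).1 this
  apply le_antisymm hle
  have h1 := Subgroup.relIndex_mul_index hle
  rw [hH, hK] at h1
  exact Subgroup.relIndex_eq_one.1 (by omega)

theorem actHom_injective {v w : leechLattice} (hv : sqNorm (v : GolayPt → ℤ) = 48)
    (hw : sqNorm (w : GolayPt → ℤ) = 48)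
    (hvw : dotInt (v : GolayPt → ℤ) (w : GolayPt → ℤ) = -32) :
    Function.Injective (actHom v w) := by
  have hc : (X v w).ncard = 100 := (Cfsg.Agent.S1583.result v w hv hw hvw).1
  obtain ⟨hsimple, hcard⟩ := Cfsg.Agent.S0405.result _ _ hv hw hvw
  rw [← MonoidHom.ker_eq_bot_iff]
  rcases hsimple.eq_bot_or_eq_top_of_normal (actHom v w).ker inferInstance with h1 | h1
  · exact h1
  · exfalso
    obtain ⟨x, hx⟩ : (X v w).Nonempty := Set.nonempty_of_ncard_ne_zero (by
          rw [hc]; decide)
    obtain ⟨y, hy, hyx⟩ := Set.exists_ne_of_one_lt_ncard (s := X v w) (by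
      rw [hc]; decide) x
    obtain ⟨g, g1, g2, g3⟩ := (Cfsg.Agent.S1583.result _ _ hv hw hvw).2 x hx y hy
    have hg : (⟨g, g1, g2⟩ : K v w) ∈ (actHom v w).ker := by rw [h1]; trivial
    rw [MonoidHom.mem_ker] at hg
    have h3 := DFunLike.congr_fun hg ⟨x, hx⟩
    have h4 := congrArg Subtype.val h3
    exact hyx (g3.symm.trans h4)

variable {Ω : Type*} [Fintype Ω] {G : Subgroup (Equiv.Perm Ω)} {a b c : Ω}

theorem iso_HS (S : Setup G a b c) (hcard : Nat.card G = 44352000) : Nonempty (G ≃* Spor.HS) := by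
  classical
  have hΓ := isHSG S
  obtain ⟨_, _, hcA⟩ := graph_facts hΓ
  let ι : G →* (gr S ≃g gr S) :=
    { toFun := fun g => ⟨g.1, fun {x y} => rel_smul_iff g.2⟩
      map_one' := rfl
      map_mul' := fun _ _ => rfl }
  have hι : Function.Injective ι := by
    intro g h hgh
    apply Subtype.ext
    apply Equiv.ext
    intro x
    exact DFunLike.congr_fun hgh x
  obtain ⟨hv, hw, hvw⟩ := wHS_facts
  have hc : (X leechV wHS).ncard = 100 := (Cfsg.Agent.S1583.result _ _ hv hw hvw).1
  have hfin : (X leechV wHS).Finite := Set.finite_of_ncard_ne_zero (by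
    rw [hc]; decide)
  have : Fintype ↥(X leechV wHS) := hfin.fintype
  obtain ⟨ψ⟩ := Cfsg.Agent.S0430.result (srg_of_isHSG (gam_isHSG hv hw hvw)) (srg_of_isHSG hΓ)
  let φ := (conjHom ψ).comp (actHom leechV wHS)
  have hφ : Function.Injective φ := (conjHom_injective ψ).comp (actHom_injective hv hw hvw)
  obtain ⟨hsimple, hcardK⟩ := Cfsg.Agent.S0405.result _ _ hv hw hvw
  have c1 : Nat.card φ.range = 44352000 := by
    rw [← Nat.card_congr (MonoidHom.ofInjective hφ).toEquiv]
    exact hcardK
  have c2 : Nat.card ι.range = 44352000 := by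
    rw [← Nat.card_congr (MonoidHom.ofInjective hι).toEquiv]
    exact hcard
  have i1 : φ.range.index = 2 := by
    have := Subgroup.card_mul_index φ.range
    rw [c1, hcA] at this
    omega
  have i2 : ι.range.index = 2 := by
    have := Subgroup.card_mul_index ι.range
    rw [c2, hcA] at this
    omega
  have heq : φ.range = ι.range := eq_of_index_two _ _ i1 i2
    ((MonoidHom.ofInjective hφ).symm.isSimpleGroup) (by rw [c1]; norm_num)
  exact ⟨(MonoidHom.ofInjective hι).trans ((MulEquiv.subgroupCongr heq.symm).trans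
    ((MonoidHom.ofInjective hφ).symm.trans equivK.symm))⟩

end Cfsg.Agent.Lib.Helper28.RankHS
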