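import Cfsg.Agent.Lib.Helper3.AutM22
import Cfsg.Agent.Lib.Helper3.AutIdx
import Cfsg.Agent.Lib.Helper28.M24Chain

/-!
A transitive action of degree 22 of the Mathieu group M22 is 2-transitive.
-/

set_option autoImplicit false

namespace Cfsg.Agent.Lib.Helper28.RankHS

open Cfsg Cfsg.Spor Finset Cfsg.Agent.Lib.Helper28 Cfsg.Agent.Lib.Helper3.AutNorm
  Cfsg.Agent.Lib.Helper3.AutM22 Cfsg.Agent.Lib.Helper3.AutIdx

theorem two_trans {Ga Ω : Type*} [Group Ga] [MulAction Ga Ω] (e : Ga ≃* Spor.M22) (b : Ω)
    (hb : (MulAction.orbit Ga b).ncard = 22) (h h' : Ga) (hh : h • b ≠ b) (hh' : h' • b ≠ b) :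
    ∃ k : Ga, k • b = b ∧ k • (h • b) = h' • b := by
  classical
  have hG := mem_M22_iff
  have hFc : ({none, some 0} : Finset GolayPt).card = 2 := by decide
  have hcG : Nat.card Ga = 443520 := by rw [Nat.card_congr e.toEquiv, card_M22]
  have hcS : Nat.card (MulAction.stabilizer Ga b) = 20160 := by
    have h1 := Subgroup.card_mul_index (MulAction.stabilizer Ga b)
    rw [MulAction.index_stabilizer, hb, hcG] at h1
    omega
  have hinj : Function.Injective ((Spor.M22.subtype).comp e.toMonoidHom) :=
    Spor.M22.subtype_injective.comp e.injective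
  obtain ⟨x0, hx0, hx1, hfix⟩ := fixes_point_22
    ((MulAction.stabilizer Ga b).map ((Spor.M22.subtype).comp e.toMonoidHom))
    (by
      rintro _ ⟨s, _, rfl⟩
      exact ((hG _).1 (e s).2).1) none (some 0) (by simp)
    (by
      rintro _ ⟨s, _, rfl⟩
      exact ((hG _).1 (e s).2).2 none (by simp))
    (by
      rintro _ ⟨s, _, rfl⟩
      exact ((hG _).1 (e s).2).2 (some 0) (by simp))
    (by rw [Subgroup.card_map_of_injective hinj, hcS])
  have hxF : x0 ∉ ({none, some 0} : Finset GolayPt) := by simp [hx0, hx1]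
  have hi : ∀ s : Ga, s • b = b → ((e s : Spor.M22) : Equiv.Perm GolayPt) x0 = x0 := by
    intro s hs
    exact hfix _ ⟨s, hs, rfl⟩
  have hcT : Nat.card (MulAction.stabilizer Spor.M22 x0) = 20160 := by
    have h1 := Subgroup.card_mul_index (MulAction.stabilizer Spor.M22 x0)
    rw [index_stab Spor.M22 _ hFc.le hG hxF, hFc, card_M22] at h1
    omega
  have : Finite Spor.M22 := Nat.finite_of_card_ne_zero (by rw [card_M22]; norm_num)
  have heq : (MulAction.stabilizer Ga b).map e.toMonoidHom = MulAction.stabilizer Spor.M22 x0 := by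
    apply Subgroup.eq_of_le_of_card_ge
    · rintro _ ⟨s, hs, rfl⟩
      exact hi s hs
    · rw [Subgroup.card_map_of_injective e.injective, hcS, hcT]
  have hii : ∀ s : Ga, ((e s : Spor.M22) : Equiv.Perm GolayPt) x0 = x0 → s • b = b := by
    intro s hs
    have h1 : e s ∈ MulAction.stabilizer Spor.M22 x0 := hs
    rw [← heq] at h1
    obtain ⟨s', hs', h2⟩ := h1
    have : s' = s := e.injective h2
    rw [← this]
    exact hs'
  have hnotF : ∀ s : Ga, ((e s : Spor.M22) : Equiv.Perm GolayPt) x0 ∉ ({none, some 0} : Finset GolayPt) := by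
    intro s hmem
    apply hxF
    have h1 := ((hG _).1 (e s).2).2 _ hmem
    have h2 := ((e s : Spor.M22) : Equiv.Perm GolayPt).injective h1
    rw [← h2]
    exact hmem
  obtain ⟨m, hm, hmap⟩ := exists_map Spor.M22 _ hG
    (xs := [x0, ((e h : Spor.M22) : Equiv.Perm GolayPt) x0])
    (ys := [x0, ((e h' : Spor.M22) : Equiv.Perm GolayPt) x0]) rfl (by rw [hFc]; simp)
    (by
      simp only [List.nodup_cons, List.mem_singleton, List.not_mem_nil, not_false_eq_true,
        List.nodup_nil, and_true]
      exact fun h1 => hh (hii h h1.symm))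
    (by
      simp only [List.nodup_cons, List.mem_singleton, List.not_mem_nil, not_false_eq_true,
        List.nodup_nil, and_true]
      exact fun h1 => hh' (hii h' h1.symm))
    (by
      intro x hx
      simp only [List.mem_cons, List.not_mem_nil, or_false] at hx
      rcases hx with rfl | rfl
      · exact hxF
      · exact hnotF h)
    (by
      intro x hx
      simp only [List.mem_cons, List.not_mem_nil, or_false] at hx
      rcases hx with rfl | rfl
      · exact hxF
      · exact hnotF h')
  simp only [List.map_cons, List.map_nil, List.cons.injEq, and_true] at hmap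
  obtain ⟨m1, m2⟩ := hmap
  refine ⟨e.symm ⟨m, hm⟩, hii _ (by rw [e.apply_symm_apply]; exact m1), ?_⟩
  have h3 : (h'⁻¹ * e.symm ⟨m, hm⟩ * h) • b = b := by
    apply hii
    rw [map_mul, map_mul, e.apply_symm_apply, map_inv]
    show ((e h' : Spor.M22) : Equiv.Perm GolayPt)⁻¹ (m (((e h : Spor.M22) : Equiv.Perm GolayPt) x0)) = x0
    rw [m2]
    simp
  rw [mul_smul, mul_smul, inv_smul_eq_iff] at h3
  exact h3

end Cfsg.Agent.Lib.Helper28.RankHS
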