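import Mathlib
import Cfsg.Agent.H17.UniqueP

/-!
A sharply 2-transitive group of degree 9 consisting of even permutations.
-/

set_option autoImplicit false

namespace Cfsg.Agent.Lib.Helper28.Sharp72

open Finset

variable {H Ω : Type*} [Group H] [MulAction H Ω] [Fintype H] [Fintype Ω] [DecidableEq H]
  [DecidableEq Ω]

/-- the hypotheses -/
structure Hyp (H Ω : Type*) [Group H] [MulAction H Ω] [Fintype H] [Fintype Ω] [DecidableEq Ω] :
    Prop where
  cardH : Nat.card H = 72
  cardΩ : Fintype.card Ω = 9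
  trans2 : ∀ a b a' b' : Ω, a ≠ b → a' ≠ b' → ∃ h : H, h • a = a' ∧ h • b = b'
  sharp : ∀ (h : H) (a b : Ω), a ≠ b → h • a = a → h • b = b → h = 1
  sign : ∀ h : H, Equiv.Perm.sign (MulAction.toPerm h : Equiv.Perm Ω) = 1

variable (hyp : Hyp H Ω)

include hyp in
theorem exists_ne' (a : Ω) : ∃ b, b ≠ a := by
  have : Nontrivial Ω := Fintype.one_lt_card_iff_nontrivial.1 (by rw [hyp.cardΩ]; decide)
  exact exists_ne a

include hyp in
theorem card_stab (ω : Ω) : Nat.card (MulAction.stabilizer H ω) = 8 := by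
  have h1 := Subgroup.card_mul_index (MulAction.stabilizer H ω)
  have h2 : MulAction.orbit H ω = Set.univ := by
    ext y
    simp only [Set.mem_univ, iff_true]
    obtain ⟨b, hb⟩ := exists_ne' hyp ω
    obtain ⟨b', hb'⟩ := exists_ne' hyp y
    obtain ⟨h, h1, _⟩ := hyp.trans2 ω b y b' hb.symm hb'.symm
    exact ⟨h, h1⟩
  rw [MulAction.index_stabilizer, h2, Set.ncard_univ, Nat.card_eq_fintype_card (α := Ω), hyp.cardΩ,
    hyp.cardH] at h1
  omega

/-- identity and fixed-point-free elements -/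
def S (H Ω : Type*) [Group H] [MulAction H Ω] [Fintype H] [Fintype Ω] [DecidableEq H]
    [DecidableEq Ω] : Finset H :=
  univ.filter (fun h => h = 1 ∨ ∀ ω : Ω, h • ω ≠ ω)

omit [DecidableEq H] [DecidableEq Ω] [Fintype H] [Fintype Ω] in
theorem mem_S [Fintype H] [Fintype Ω] [DecidableEq H] [DecidableEq Ω] {h : H} :
    h ∈ S H Ω ↔ h = 1 ∨ ∀ ω : Ω, h • ω ≠ ω := by simp [S]

include hyp in
theorem card_S : (S H Ω).card = 9 := by
  let T : Ω → Finset H := fun ω => (univ.filter (fun h : H => h • ω = ω)).erase 1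
  have hT : ∀ ω, (T ω).card = 7 := by
    intro ω
    have h1 : (univ.filter (fun h : H => h • ω = ω)).card = 8 := by
      rw [← card_stab hyp ω, Nat.card_eq_fintype_card, Fintype.card_subtype]
      congr 1
    rw [Finset.card_erase_of_mem (by simp), h1]
  have hdisj : ((univ : Finset Ω) : Set Ω).PairwiseDisjoint T := by
    intro a _ b _ hab
    rw [Function.onFun, Finset.disjoint_left]
    intro h ha hb
    simp only [T, mem_erase, mem_filter, mem_univ, true_and] at ha hb
    exact ha.1 (hyp.sharp h a b hab ha.2 hb.2)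
  have hU : (univ.biUnion T).card = 63 := by
    rw [Finset.card_biUnion hdisj, Finset.sum_congr rfl (fun ω _ => hT ω)]
    simp [hyp.cardΩ]
  have hS : S H Ω = univ \ univ.biUnion T := by
    ext h
    simp only [mem_S, mem_sdiff, mem_univ, true_and, mem_biUnion, T, mem_erase, mem_filter,
      not_exists, not_and]
    constructor
    · rintro (rfl | h1) ω h2
      · exact (h2 rfl).elim
      · exact h1 ω
    · intro h1
      by_cases h0 : h = 1
      · exact Or.inl h0
      · exact Or.inr fun ω => h1 ω h0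
  rw [hS, Finset.card_sdiff_of_subset (Finset.subset_univ _), hU, Finset.card_univ,
    ← Nat.card_eq_fintype_card, hyp.cardH]

theorem eq_one_of_mem_S {h : H} (hS : h ∈ S H Ω) {ω : Ω} (hω : h • ω = ω) : h = 1 := by
  rcases mem_S.1 hS with h1 | h1
  · exact h1
  · exact (h1 ω hω).elim

theorem conj_mem_S {h : H} (hS : h ∈ S H Ω) (g : H) : g * h * g⁻¹ ∈ S H Ω := by
  rcases mem_S.1 hS with rfl | h1
  · simp [mem_S]
  · refine mem_S.2 (Or.inr fun ω hω => h1 (g⁻¹ • ω) ?_)
    rw [mul_smul, mul_smul, smul_eq_iff_eq_inv_smul] at hω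
    exact hω

instance : Fact (Nat.Prime 3) := ⟨by decide⟩

omit [MulAction H Ω] [Fintype H] [DecidableEq H] in
theorem orderOf_dvd_of_mem {K : Subgroup H} {x : H} (hx : x ∈ K) : orderOf x ∣ Nat.card K := by
  have := orderOf_dvd_natCard (⟨x, hx⟩ : K)
  rwa [Subgroup.orderOf_mk] at this

include hyp in
theorem card_syl3 (Q : Sylow 3 H) : Nat.card Q = 9 := by
  rw [Sylow.card_eq_multiplicity, hyp.cardH]
  have : (72 : ℕ).factorization 3 = 2 := by decide +kernel
  rw [this]; rfl

include hyp in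
theorem card_syl2 (P : Sylow 2 H) : Nat.card P = 8 := by
  rw [Sylow.card_eq_multiplicity, hyp.cardH]
  have : (72 : ℕ).factorization 2 = 3 := by decide +kernel
  rw [this]; rfl

include hyp in
theorem syl3_eq (Q : Sylow 3 H) (x : H) : x ∈ Q ↔ x ∈ S H Ω := by
  classical
  have hsub : (univ.filter (fun x => x ∈ Q)) ⊆ S H Ω := by
    intro x hx
    simp only [mem_filter, mem_univ, true_and] at hx
    rw [mem_S]
    by_contra hcon
    push Not at hcon
    obtain ⟨h1, ω, hω⟩ := hcon
    have o1 : orderOf x ∣ 9 := by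
      have := orderOf_dvd_of_mem (K := (Q : Subgroup H)) hx
      rwa [card_syl3 hyp Q] at this
    have o2 : orderOf x ∣ 8 := by
      have := orderOf_dvd_of_mem (K := MulAction.stabilizer H ω) (MulAction.mem_stabilizer_iff.2 hω)
      rwa [card_stab hyp ω] at this
    have o3 : orderOf x ∣ 1 := by
      have := Nat.dvd_gcd o1 o2
      simpa using this
    exact h1 (orderOf_eq_one_iff.1 (Nat.dvd_one.1 o3))
  have hc : (univ.filter (fun x => x ∈ Q)).card = 9 := by
    rw [← card_syl3 hyp Q, Nat.card_eq_fintype_card, Fintype.card_subtype]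
    congr 1
  have heq := Finset.eq_of_subset_of_card_le hsub (by rw [hc, card_S hyp])
  rw [← heq]
  simp

include hyp in
theorem syl3_normal (Q : Sylow 3 H) : (Q : Subgroup H).Normal := by
  constructor
  intro n hn g
  exact (syl3_eq hyp Q _).2 (conj_mem_S ((syl3_eq hyp Q n).1 hn) g)

include hyp in
theorem syl3_exp (Q : Sylow 3 H) (x : H) (hx : x ∈ Q) : x ^ 3 = 1 := by
  by_cases hx1 : x = 1
  · rw [hx1, one_pow]
  obtain ⟨y, hy⟩ := exists_prime_orderOf_dvd_card' (G := Q) 3 (by rw [card_syl3 hyp Q]; decide)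
  have hy1 : (y : H) ≠ 1 := by
    intro h
    have : y = 1 := Subtype.ext h
    rw [this, orderOf_one] at hy
    omega
  have hΩ : Nonempty Ω := Fintype.card_pos_iff.1 (by rw [hyp.cardΩ]; decide)
  obtain ⟨ω⟩ := hΩ
  have hxω : x • ω ≠ ω := fun h => hx1 (eq_one_of_mem_S ((syl3_eq hyp Q x).1 hx) h)
  have hyω : (y : H) • ω ≠ ω := fun h => hy1 (eq_one_of_mem_S ((syl3_eq hyp Q y).1 y.2) h)
  obtain ⟨h, h1, h2⟩ := hyp.trans2 ω ((y : H) • ω) ω (x • ω) hyω.symm hxω.symm
  have hn := syl3_normal hyp Q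
  have hmem : x⁻¹ * (h * y * h⁻¹) ∈ (Q : Subgroup H) :=
    (Q : Subgroup H).mul_mem ((Q : Subgroup H).inv_mem hx) (hn.conj_mem _ y.2 h)
  have hfix : (x⁻¹ * (h * y * h⁻¹)) • ω = ω := by
    have h3 : h⁻¹ • ω = ω := by rw [inv_smul_eq_iff, h1]
    rw [mul_smul, mul_smul, mul_smul, h3, h2, inv_smul_smul]
  have h4 := eq_one_of_mem_S ((syl3_eq hyp Q _).1 hmem) hfix
  have h5 : x = h * y * h⁻¹ := by
    rw [inv_mul_eq_one] at h4
    exact h4
  have hy3 : (y : H) ^ 3 = 1 := by
    have := pow_orderOf_eq_one y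
    rw [hy] at this
    exact congrArg Subtype.val this
  rw [h5, conj_pow, hy3, mul_one, mul_inv_cancel]

include hyp in
/-- an element commuting with a non-identity element fixing `ω` fixes `ω` -/
theorem fix_of_commute {u x : H} (hu : u ≠ 1) {ω : Ω} (hω : u • ω = ω) (hc : x * u = u * x) :
    x • ω = ω := by
  by_contra hne
  apply hu
  apply hyp.sharp u ω (x • ω) (Ne.symm hne) hω
  rw [← mul_smul, ← hc, mul_smul, hω]

include hyp in
theorem exists_fix_of_not_mem {u : H} (hu : u ∉ S H Ω) : u ≠ 1 ∧ ∃ ω : Ω, u • ω = ω := by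
  rw [mem_S] at hu
  push Not at hu
  exact hu

include hyp in
theorem invert (Q : Sylow 3 H) {t : H} (ht : orderOf t = 2) {x : H} (hx : x ∈ Q) :
    t * x * t⁻¹ = x⁻¹ := by
  have hn := syl3_normal hyp Q
  have htS : t ∉ S H Ω := by
    intro h
    have h1 := orderOf_dvd_of_mem (K := (Q : Subgroup H)) ((syl3_eq hyp Q t).2 h)
    rw [card_syl3 hyp Q, ht] at h1
    omega
  obtain ⟨ht1, ω, hω⟩ := exists_fix_of_not_mem hyp htS
  have ht2 : t * t = 1 := by
    have := pow_orderOf_eq_one t
    rwa [ht, pow_two] at this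
  have htinv : t⁻¹ = t := inv_eq_of_mul_eq_one_left ht2
  have hx' : t * x * t⁻¹ ∈ (Q : Subgroup H) := hn.conj_mem _ hx t
  have hcomm : x * (t * x * t⁻¹) = (t * x * t⁻¹) * x := by
    have := IsPGroup.commutative_of_card_eq_prime_sq (p := 3) (G := Q)
      (by rw [card_syl3 hyp Q]; rfl) ⟨x, hx⟩ ⟨_, hx'⟩
    exact congrArg Subtype.val this
  have hz : x * (t * x * t⁻¹) ∈ (Q : Subgroup H) := (Q : Subgroup H).mul_mem hx hx'
  have hzc : (x * (t * x * t⁻¹)) * t = t * (x * (t * x * t⁻¹)) := by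
    conv_rhs => rw [hcomm]
    rw [htinv]
    have e1 : x * (t * x * t) * t = x * t * x * (t * t) := by group
    have e2 : t * (t * x * t * x) = (t * t) * x * t * x := by group
    rw [e1, e2, ht2, mul_one, one_mul]
  have hzω := fix_of_commute hyp ht1 hω hzc
  have hz1 := eq_one_of_mem_S ((syl3_eq hyp Q _).1 hz) hzω
  exact (eq_inv_of_mul_eq_one_right hz1)

include hyp in
theorem unique_invol (P : Sylow 2 H) {t t' : H} (htP : t ∈ P) (htP' : t' ∈ P)
    (ht : orderOf t = 2) (ht' : orderOf t' = 2) : t' = t := by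
  obtain ⟨Q⟩ : Nonempty (Sylow 3 H) := inferInstance
  have ht2 : t * t = 1 := by
    have := pow_orderOf_eq_one t
    rwa [ht, pow_two] at this
  by_contra hne
  have hu1 : t * t' ≠ 1 := by
    intro h
    apply hne
    have : t' = t⁻¹ := eq_inv_of_mul_eq_one_right h
    rw [this]
    exact inv_eq_of_mul_eq_one_left ht2
  have huS : t * t' ∉ S H Ω := by
    intro h
    have h1 := orderOf_dvd_of_mem (K := (Q : Subgroup H)) ((syl3_eq hyp Q _).2 h)
    have h2 := orderOf_dvd_of_mem (K := (P : Subgroup H)) ((P : Subgroup H).mul_mem htP htP')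
    rw [card_syl3 hyp Q] at h1
    rw [card_syl2 hyp P] at h2
    have h3 : orderOf (t * t') ∣ 1 := by
      have := Nat.dvd_gcd h1 h2
      simpa using this
    exact hu1 (orderOf_eq_one_iff.1 (Nat.dvd_one.1 h3))
  obtain ⟨_, ω, hω⟩ := exists_fix_of_not_mem hyp huS
  have hall : ∀ x ∈ Q, x = 1 := by
    intro x hx
    have h1 := invert hyp Q ht' hx
    have h2 := invert hyp Q ht ((Q : Subgroup H).inv_mem hx)
    rw [inv_inv] at h2
    have hc : x * (t * t') = (t * t') * x := by
      have e : t * t' * x * t'⁻¹ * t⁻¹ = x := by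
        have : t * t' * x * t'⁻¹ * t⁻¹ = t * (t' * x * t'⁻¹) * t⁻¹ := by group
        rw [this, h1, h2]
      calc x * (t * t') = (t * t' * x * t'⁻¹ * t⁻¹) * (t * t') := by rw [e]
        _ = (t * t') * x := by group
    exact eq_one_of_mem_S ((syl3_eq hyp Q x).1 hx) (fix_of_commute hyp hu1 hω hc)
  have hcard : Nat.card Q = 1 := by
    have : Subsingleton Q := ⟨fun a b => Subtype.ext ((hall a a.2).trans (hall b b.2).symm)⟩
    exact Nat.card_unique
  rw [card_syl3 hyp Q] at hcard
  omega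

include hyp in
theorem no_order8 (g : H) : orderOf g ≠ 8 := by
  intro hg
  have hinj : Function.Injective (MulAction.toPermHom H Ω) := by
    rw [injective_iff_map_eq_one]
    intro h hh
    have hΩ : Nonempty Ω := Fintype.card_pos_iff.1 (by rw [hyp.cardΩ]; decide)
    obtain ⟨ω⟩ := hΩ
    obtain ⟨b, hb⟩ := exists_ne' hyp ω
    exact hyp.sharp h ω b hb.symm (DFunLike.congr_fun hh ω) (DFunLike.congr_fun hh b)
  have ho : orderOf (MulAction.toPerm g : Equiv.Perm Ω) = 8 := by
    rw [← hg]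
    exact orderOf_injective (MulAction.toPermHom H Ω) hinj g
  set f : Equiv.Perm Ω := MulAction.toPerm g with hf
  have hl := Equiv.Perm.lcm_cycleType f
  rw [ho] at hl
  have h8 : 8 ∈ f.cycleType := by
    by_contra hn
    have : f.cycleType.lcm ∣ 4 := by
      apply Multiset.lcm_dvd.2
      intro n hn'
      have h1 : n ∣ 8 := by rw [← hl]; exact Multiset.dvd_lcm hn'
      have h2 : n ≠ 8 := fun e => hn (e ▸ hn')
      have h3 : n ≤ 8 := Nat.le_of_dvd (by decide) h1
      interval_cases n <;> omega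
    rw [hl] at this
    omega
  obtain ⟨s, hs⟩ := Multiset.exists_cons_of_mem h8
  have hsum := Equiv.Perm.sum_cycleType f
  have hle : f.support.card ≤ 9 := by
    rw [← hyp.cardΩ]; exact Finset.card_le_univ _
  have hs0 : s = 0 := by
    by_contra hne
    obtain ⟨n, hn⟩ := Multiset.exists_mem_of_ne_zero hne
    have h2 : 2 ≤ n := Equiv.Perm.two_le_of_mem_cycleType (σ := f) (by rw [hs]; exact Multiset.mem_cons_of_mem hn)
    have h3 : n ≤ s.sum := Multiset.single_le_sum (by intro x _; exact Nat.zero_le x) n hn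
    rw [hs, Multiset.sum_cons] at hsum
    omega
  have hsign := Equiv.Perm.sign_of_cycleType f
  rw [hs, hs0, hyp.sign g] at hsign
  revert hsign
  decide

include hyp in
theorem syl2_quaternion (P : Sylow 2 H) : Nonempty (P ≃* QuaternionGroup 2) := by
  have hu : Cfsg.Agent.H17.UOP 2 P := by
    intro x y hx hy
    have : (y : H) = x := unique_invol hyp P x.2 y.2 (by rwa [Subgroup.orderOf_coe])
      (by rwa [Subgroup.orderOf_coe])
    rw [Subtype.ext this]
    exact Subgroup.mem_zpowers x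
  rcases (Cfsg.Agent.H17.uop_iff P.isPGroup').1 hu with hc | ⟨_, n, ⟨e⟩⟩
  · exfalso
    obtain ⟨g, hg⟩ := hc.exists_generator
    have := orderOf_eq_card_of_forall_mem_zpowers hg
    rw [card_syl2 hyp P, ← Subgroup.orderOf_coe] at this
    exact no_order8 hyp _ this
  · have h1 := Nat.card_congr e.toEquiv
    rw [card_syl2 hyp P, Nat.card_eq_fintype_card, QuaternionGroup.card] at h1
    have hn : n = 1 := by
      rcases n with _ | _ | n
      · simp at h1
      · rfl
      · have : 4 ≤ 2 ^ (n + 1 + 1) := by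
          calc 4 = 2 ^ 2 := rfl
            _ ≤ 2 ^ (n + 1 + 1) := Nat.pow_le_pow_right (by decide) (by omega)
        omega
    subst hn
    exact ⟨e⟩

end Cfsg.Agent.Lib.Helper28.Sharp72
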