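import Mathlib
import Cfsg.Prelude.Def_SporadicCombinatorics

/-!
The ternary Golay code of length 12: explicit generators.
-/

set_option autoImplicit false

namespace Cfsg.Agent.Lib.Helper28.TGolay

open Cfsg Finset

abbrev W := ArrayPt → ZMod 3

/-- decidable membership test -/
def isW (x : W) : Prop :=
  ∃ s : ZMod 3, (∀ i : Fin 4, ∑ r : ZMod 3, x (i, r) = -s) ∧
    ∀ a b : ZMod 3, ∑ i : Fin 4,
      x (i, (a • (![0, 1, 1, 1] : Fin 4 → ZMod 3) + b • (![1, 0, 1, 2] : Fin 4 → ZMod 3) :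
        Fin 4 → ZMod 3) i) = s

instance : DecidablePred isW := fun x => by unfold isW; infer_instance

theorem mem_iff (x : W) : x ∈ ternaryGolayCode ↔ isW x := by
  show IsTernaryGolayWord x ↔ isW x
  unfold IsTernaryGolayWord isW tetracode
  constructor
  · rintro ⟨s, h1, h2⟩
    refine ⟨s, h1, fun a b => h2 _ ?_⟩
    rw [Submodule.mem_span_pair]
    exact ⟨a, b, rfl⟩
  · rintro ⟨s, h1, h2⟩
    refine ⟨s, h1, fun t ht => ?_⟩
    rw [Submodule.mem_span_pair] at ht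
    obtain ⟨a, b, rfl⟩ := ht
    exact h2 a b

/-- a word from the list of its entries -/
def ofL (l : List (ZMod 3)) : W := fun p => l.getD (3 * p.1.val + p.2.val) 0

theorem eq_ofL (x : W) : x = ofL [x (0, 0), x (0, 1), x (0, 2), x (1, 0), x (1, 1), x (1, 2),
    x (2, 0), x (2, 1), x (2, 2), x (3, 0), x (3, 1), x (3, 2)] := by
  funext ⟨i, r⟩
  fin_cases i <;> fin_cases r <;> rfl

/-- the generators -/
def G : Fin 6 → W := ![
  ofL [1, 0, 0, 0, 0, 1, 0, 0, 1, 1, 1, 2],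
  ofL [0, 1, 0, 0, 0, 1, 0, 2, 2, 2, 0, 2],
  ofL [0, 0, 1, 0, 0, 1, 0, 1, 0, 2, 1, 1],
  ofL [0, 0, 0, 1, 0, 2, 0, 2, 1, 2, 1, 0],
  ofL [0, 0, 0, 0, 1, 2, 0, 1, 2, 0, 1, 2],
  ofL [0, 0, 0, 0, 0, 0, 1, 1, 1, 2, 2, 2]]

/-- the information positions -/
def info : Fin 6 → ArrayPt := ![(0, 0), (0, 1), (0, 2), (1, 0), (1, 1), (2, 0)]

theorem G_isW : ∀ j, isW (G j) := by decide +kernel

theorem G_info : ∀ j k, G j (info k) = if j = k then 1 else 0 := by decide +kernel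

theorem zero_dec : ∀ a b c d e f : ZMod 3, isW (ofL [0, 0, 0, 0, 0, a, 0, b, c, d, e, f]) →
    a = 0 ∧ b = 0 ∧ c = 0 ∧ d = 0 ∧ e = 0 ∧ f = 0 := by decide +kernel

theorem eq_zero_of_info {x : W} (hx : x ∈ ternaryGolayCode) (h : ∀ k, x (info k) = 0) : x = 0 := by
  rw [mem_iff] at hx
  have h0 : x (0, 0) = 0 := h 0
  have h1 : x (0, 1) = 0 := h 1
  have h2 : x (0, 2) = 0 := h 2
  have h3 : x (1, 0) = 0 := h 3
  have h4 : x (1, 1) = 0 := h 4
  have h5 : x (2, 0) = 0 := h 5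
  rw [eq_ofL x, h0, h1, h2, h3, h4, h5] at hx
  obtain ⟨a, b, c, d, e, f⟩ := zero_dec _ _ _ _ _ _ hx
  rw [eq_ofL x, h0, h1, h2, h3, h4, h5, a, b, c, d, e, f]
  funext ⟨i, r⟩
  fin_cases i <;> fin_cases r <;> rfl

/-- the encoder -/
def enc (m : Fin 6 → ZMod 3) : W := ∑ j, m j • G j

theorem enc_mem (m : Fin 6 → ZMod 3) : enc m ∈ ternaryGolayCode :=
  Submodule.sum_mem _ (fun j _ => Submodule.smul_mem _ _ ((mem_iff _).2 (G_isW j)))

theorem enc_info (m : Fin 6 → ZMod 3) (k : Fin 6) : enc m (info k) = m k := by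
  unfold enc
  rw [Finset.sum_apply]
  simp only [Pi.smul_apply, smul_eq_mul, G_info]
  simp

theorem eq_enc {x : W} (hx : x ∈ ternaryGolayCode) : x = enc (fun k => x (info k)) := by
  have h := eq_zero_of_info (x := x - enc (fun k => x (info k)))
    (Submodule.sub_mem _ hx (enc_mem _)) (by
      intro k
      rw [Pi.sub_apply, enc_info, sub_self])
  exact sub_eq_zero.1 h

theorem enc_injective : Function.Injective enc := by
  intro m m' h
  funext k
  rw [← enc_info m k, h, enc_info]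

theorem eq_of_info {x y : W} (hx : x ∈ ternaryGolayCode) (hy : y ∈ ternaryGolayCode)
    (h : ∀ k, x (info k) = y (info k)) : x = y := by
  rw [eq_enc hx, eq_enc hy]
  congr 1
  funext k
  exact h k

end Cfsg.Agent.Lib.Helper28.TGolay
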