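import Cfsg.Agent.Lib.Helper28.TGolay

/-!
The ternary Golay code of length 12: enumeration of the 729 words.
-/

set_option autoImplicit false

namespace Cfsg.Agent.Lib.Helper28.TGolay

open Cfsg Finset

/-- the parameter space -/
abbrev P6 := ZMod 3 × ZMod 3 × ZMod 3 × ZMod 3 × ZMod 3 × ZMod 3

/-- explicit encoder -/
def e6 (m : P6) : W :=
  ofL [m.1, m.2.1, m.2.2.1, m.2.2.2.1, m.2.2.2.2.1,
    m.1 + m.2.1 + m.2.2.1 + 2 * m.2.2.2.1 + 2 * m.2.2.2.2.1, m.2.2.2.2.2,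
    2 * m.2.1 + m.2.2.1 + 2 * m.2.2.2.1 + m.2.2.2.2.1 + m.2.2.2.2.2,
    m.1 + 2 * m.2.1 + m.2.2.2.1 + 2 * m.2.2.2.2.1 + m.2.2.2.2.2,
    m.1 + 2 * m.2.1 + 2 * m.2.2.1 + 2 * m.2.2.2.1 + 2 * m.2.2.2.2.2,
    m.1 + m.2.2.1 + m.2.2.2.1 + m.2.2.2.2.1 + 2 * m.2.2.2.2.2,
    2 * m.1 + 2 * m.2.1 + m.2.2.1 + 2 * m.2.2.2.2.1 + 2 * m.2.2.2.2.2]

theorem e6_isW : ∀ m : P6, isW (e6 m) := by decide +kernel

theorem e6_mem (m : P6) : e6 m ∈ ternaryGolayCode := (mem_iff _).2 (e6_isW m)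

theorem eq_e6 {x : W} (hx : x ∈ ternaryGolayCode) :
    x = e6 (x (0, 0), x (0, 1), x (0, 2), x (1, 0), x (1, 1), x (2, 0)) := by
  apply eq_of_info hx (e6_mem _)
  intro k
  fin_cases k <;> rfl

theorem e6_injective : Function.Injective e6 := by
  intro m m' h
  have h0 := congrFun h (0, 0)
  have h1 := congrFun h (0, 1)
  have h2 := congrFun h (0, 2)
  have h3 := congrFun h (1, 0)
  have h4 := congrFun h (1, 1)
  have h5 := congrFun h (2, 0)
  exact Prod.ext h0 (Prod.ext h1 (Prod.ext h2 (Prod.ext h3 (Prod.ext h4 h5))))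

theorem card_code : Nat.card ↥ternaryGolayCode = 729 := by
  have e : P6 ≃ ↥ternaryGolayCode := Equiv.ofBijective (fun m => ⟨e6 m, e6_mem m⟩) ⟨by
    intro m m' h
    exact e6_injective (congrArg Subtype.val h), by
    rintro ⟨x, hx⟩
    exact ⟨_, Subtype.ext (eq_e6 hx).symm⟩⟩
  rw [← Nat.card_congr e, Nat.card_eq_fintype_card]
  decide +kernel

theorem count (P : W → Prop) [DecidablePred P] :
    {x : W | x ∈ ternaryGolayCode ∧ P x}.ncard = (univ.filter (fun m : P6 => P (e6 m))).card := by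
  rw [← Set.ncard_coe_finset, ← Set.ncard_image_of_injective _ e6_injective]
  congr 1
  ext x
  simp only [Set.mem_ofPred_eq, Set.mem_image, Finset.coe_filter, Finset.mem_univ, true_and]
  constructor
  · rintro ⟨hx, hP⟩
    refine ⟨_, ?_, (eq_e6 hx).symm⟩
    rw [← eq_e6 hx]
    exact hP
  · rintro ⟨m, hm, rfl⟩
    exact ⟨e6_mem m, hm⟩

theorem wts : ∀ m : P6, e6 m = 0 ∨ (ternarySupport (e6 m)).card = 6 ∨
    (ternarySupport (e6 m)).card = 9 ∨ (ternarySupport (e6 m)).card = 12 := by decide +kernel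

theorem c6 : (univ.filter (fun m : P6 => (ternarySupport (e6 m)).card = 6)).card = 264 := by
  decide +kernel

theorem c9 : (univ.filter (fun m : P6 => (ternarySupport (e6 m)).card = 9)).card = 440 := by
  decide +kernel

theorem c12 : (univ.filter (fun m : P6 => (ternarySupport (e6 m)).card = 12)).card = 24 := by
  decide +kernel

end Cfsg.Agent.Lib.Helper28.TGolay
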