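import Cfsg.Agent.Lib.Helper28.TGolay2

/-!
The hexads of the ternary Golay code form a Steiner system S(5,6,12).
-/

set_option autoImplicit false

namespace Cfsg.Agent.Lib.Helper28.TGolay

open Cfsg Finset

theorem mem_supp (x : W) (p : ArrayPt) : p ∈ ternarySupport x ↔ x p ≠ 0 := by
  simp [ternarySupport]

theorem eq_zero_of_card_lt {y : W} (hy : y ∈ ternaryGolayCode) (h : (ternarySupport y).card < 6) :
    y = 0 := by
  rw [eq_e6 hy] at h ⊢
  rcases wts _ with h1 | h1 | h1 | h1
  · exact h1
  · omega
  · omega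
  · omega

theorem supp_neg (x : W) : ternarySupport (-x) = ternarySupport x := by
  ext p
  rw [mem_supp, mem_supp, Pi.neg_apply, neg_ne_zero]

theorem zmod3 : ∀ u v : ZMod 3, u ≠ 0 → v ≠ 0 → u ≠ v → u + v = 0 := by decide

/-- two words of weight six whose supports share five points are equal or opposite -/
theorem eq_or_neg {x x' : W} (hx : x ∈ ternaryGolayCode) (hx' : x' ∈ ternaryGolayCode)
    (h6 : (ternarySupport x).card = 6) (h6' : (ternarySupport x').card = 6)
    (h5 : 5 ≤ (ternarySupport x ∩ ternarySupport x').card) : x' = x ∨ x' = -x := by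
  set I := ternarySupport x ∩ ternarySupport x' with hI
  set U := ternarySupport x ∪ ternarySupport x' with hU
  have hUc : U.card + I.card = 12 := by
    rw [hU, hI, Finset.card_union_add_card_inter, h6, h6']
  have hsplit := Finset.card_filter_add_card_filter_not (s := I) (fun i => x i = x' i)
  have hIU : I ⊆ U := fun p hp => Finset.mem_union_left _ (Finset.mem_inter.1 hp).1
  by_cases hc : 3 ≤ (I.filter (fun i => x i = x' i)).card
  · left
    have hsub : ternarySupport (x - x') ⊆ U \ I.filter (fun i => x i = x' i) := by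
      intro p hp
      rw [mem_supp, Pi.sub_apply, sub_ne_zero] at hp
      refine Finset.mem_sdiff.2 ⟨?_, fun h => hp (Finset.mem_filter.1 h).2⟩
      rw [hU, Finset.mem_union, mem_supp, mem_supp]
      by_contra hcon
      push Not at hcon
      exact hp (hcon.1.trans hcon.2.symm)
    have h1 := Finset.card_le_card hsub
    rw [Finset.card_sdiff_of_subset ((Finset.filter_subset _ _).trans hIU)] at h1
    have h2 := eq_zero_of_card_lt (Submodule.sub_mem _ hx hx') (by omega)
    exact (sub_eq_zero.1 h2).symm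
  · right
    have hsub : ternarySupport (x + x') ⊆ U \ I.filter (fun i => ¬ x i = x' i) := by
      intro p hp
      rw [mem_supp, Pi.add_apply] at hp
      refine Finset.mem_sdiff.2 ⟨?_, fun h => hp ?_⟩
      · rw [hU, Finset.mem_union, mem_supp, mem_supp]
        by_contra hcon
        push Not at hcon
        apply hp
        rw [hcon.1, hcon.2, add_zero]
      · obtain ⟨h3, h4⟩ := Finset.mem_filter.1 h
        obtain ⟨h5, h6⟩ := Finset.mem_inter.1 h3
        exact zmod3 _ _ ((mem_supp _ _).1 h5) ((mem_supp _ _).1 h6) h4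
    have h1 := Finset.card_le_card hsub
    rw [Finset.card_sdiff_of_subset ((Finset.filter_subset _ _).trans hIU)] at h1
    have h2 := eq_zero_of_card_lt (Submodule.add_mem _ hx hx') (by omega)
    exact (eq_neg_of_add_eq_zero_right h2)

/-- the parameters of the words of weight six -/
def M6 : Finset P6 := univ.filter (fun m : P6 => (ternarySupport (e6 m)).card = 6)

/-- the hexads -/
def HX : Finset (Finset ArrayPt) := M6.image (fun m => ternarySupport (e6 m))

theorem coe_HX : (HX : Set (Finset ArrayPt)) =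
    {h : Finset ArrayPt | ∃ x ∈ ternaryGolayCode, ternarySupport x = h ∧ h.card = 6} := by
  ext h
  simp only [HX, M6, Finset.coe_image, Set.mem_image, Finset.coe_filter, Finset.mem_univ, true_and,
    Set.mem_ofPred_eq]
  constructor
  · rintro ⟨m, hm, rfl⟩
    exact ⟨e6 m, e6_mem m, rfl, hm⟩
  · rintro ⟨x, hx, rfl, h6⟩
    refine ⟨_, ?_, by rw [← eq_e6 hx]⟩
    rw [← eq_e6 hx]
    exact h6

theorem e6_neg : ∀ m : P6, e6 (-m) = - e6 m := by decide +kernel

theorem zmod3' : ∀ u : ZMod 3, u = -u → u = 0 := by decide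

theorem card_HX : HX.card = 132 := by
  have h1 := Finset.card_eq_sum_card_fiberwise (f := fun m => ternarySupport (e6 m)) (s := M6)
    (t := HX) (fun m hm => Finset.mem_image_of_mem _ hm)
  have hfib : ∀ h ∈ HX, (M6.filter (fun m => ternarySupport (e6 m) = h)).card = 2 := by
    intro h hh
    obtain ⟨m0, hm0, rfl⟩ := Finset.mem_image.1 hh
    have h6 : (ternarySupport (e6 m0)).card = 6 := (Finset.mem_filter.1 hm0).2
    have hne : -m0 ≠ m0 := by
      intro hneg
      obtain ⟨p, hp⟩ : (ternarySupport (e6 m0)).Nonempty := Finset.card_pos.1 (by omega)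
      rw [mem_supp] at hp
      apply hp
      apply zmod3'
      have := congrFun (e6_neg m0) p
      rw [hneg] at this
      exact this
    have : M6.filter (fun m => ternarySupport (e6 m) = ternarySupport (e6 m0)) = {-m0, m0} := by
      ext m
      simp only [Finset.mem_filter, Finset.mem_insert, Finset.mem_singleton]
      constructor
      · rintro ⟨hm, hs⟩
        have hm6 : (ternarySupport (e6 m)).card = 6 := (Finset.mem_filter.1 hm).2
        rcases eq_or_neg (e6_mem m0) (e6_mem m) h6 hm6 (by rw [hs, Finset.inter_self, h6]; norm_num)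
          with h | h
        · exact Or.inr (e6_injective h)
        · rw [← e6_neg] at h
          exact Or.inl (e6_injective h)
      · rintro (rfl | rfl)
        · have : ternarySupport (e6 (-m0)) = ternarySupport (e6 m0) := by rw [e6_neg, supp_neg]
          exact ⟨Finset.mem_filter.2 ⟨Finset.mem_univ _, by rw [this]; exact h6⟩, this⟩
        · exact ⟨hm0, rfl⟩
    rw [this, Finset.card_pair hne]
  rw [Finset.sum_congr rfl hfib, Finset.sum_const, smul_eq_mul] at h1
  have h2 : M6.card = 264 := c6
  omega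

theorem HX_card6 {h : Finset ArrayPt} (hh : h ∈ HX) : h.card = 6 := by
  obtain ⟨m0, hm0, rfl⟩ := Finset.mem_image.1 hh
  exact (Finset.mem_filter.1 hm0).2

theorem HX_unique {h h' : Finset ArrayPt} (hh : h ∈ HX) (hh' : h' ∈ HX) {s : Finset ArrayPt}
    (hs : s.card = 5) (h1 : s ⊆ h) (h2 : s ⊆ h') : h = h' := by
  obtain ⟨m, hm, rfl⟩ := Finset.mem_image.1 hh
  obtain ⟨m', hm', rfl⟩ := Finset.mem_image.1 hh'
  rcases eq_or_neg (e6_mem m) (e6_mem m') (Finset.mem_filter.1 hm).2 (Finset.mem_filter.1 hm').2 (by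
    rw [← hs]
    exact Finset.card_le_card (Finset.subset_inter h1 h2)) with h | h
  · simp only [h]
  · simp only [h, supp_neg]

theorem exists_of_count (HH : Finset (Finset ArrayPt)) (hc : HH.card = 132)
    (h6 : ∀ h ∈ HH, h.card = 6)
    (huniq : ∀ h ∈ HH, ∀ h' ∈ HH, ∀ s : Finset ArrayPt, s.card = 5 → s ⊆ h → s ⊆ h' → h = h')
    {s : Finset ArrayPt} (hs : s.card = 5) : ∃ h ∈ HH, s ⊆ h := by
  have hcard : (HH.biUnion (fun h => Finset.powersetCard 5 h)).card = 792 := by
    rw [Finset.card_biUnion]
    · rw [Finset.sum_congr rfl (fun h hh => by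
        rw [Finset.card_powersetCard, h6 h hh]), Finset.sum_const, hc]
      rfl
    · intro h hh h' hh' hne
      show Disjoint (Finset.powersetCard 5 h) (Finset.powersetCard 5 h')
      rw [Finset.disjoint_left]
      intro t ht ht'
      obtain ⟨a1, a2⟩ := Finset.mem_powersetCard.1 ht
      obtain ⟨b1, _⟩ := Finset.mem_powersetCard.1 ht'
      exact hne (huniq h hh h' hh' t a2 a1 b1)
  have heq : HH.biUnion (fun h => Finset.powersetCard 5 h) = Finset.powersetCard 5 univ := by
    apply Finset.eq_of_subset_of_card_le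
    · intro t ht
      obtain ⟨h, _, h2⟩ := Finset.mem_biUnion.1 ht
      exact Finset.mem_powersetCard.2 ⟨Finset.subset_univ _, (Finset.mem_powersetCard.1 h2).2⟩
    · rw [hcard, Finset.card_powersetCard]
      have h12 : (univ : Finset ArrayPt).card = 12 := by decide +kernel
      rw [h12]
      exact le_of_eq (by decide +kernel)
  have : s ∈ Finset.powersetCard 5 (univ : Finset ArrayPt) :=
    Finset.mem_powersetCard.2 ⟨Finset.subset_univ _, hs⟩
  rw [← heq] at this
  obtain ⟨h, h1, h2⟩ := Finset.mem_biUnion.1 this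
  exact ⟨h, h1, (Finset.mem_powersetCard.1 h2).1⟩

theorem HX_exists {s : Finset ArrayPt} (hs : s.card = 5) : ∃ h ∈ HX, s ⊆ h :=
  exists_of_count HX card_HX (fun _ hh => HX_card6 hh)
    (fun _ hh _ hh' _ h5 h1 h2 => HX_unique hh hh' h5 h1 h2) hs

theorem steiner : IsSteinerSystem 5 6 (HX : Set (Finset ArrayPt)) := by
  refine ⟨fun b hb => HX_card6 hb, fun s hs => ?_⟩
  obtain ⟨h, h1, h2⟩ := HX_exists hs
  exact ⟨h, ⟨h1, h2⟩, fun h' ⟨g1, g2⟩ => HX_unique g1 h1 hs g2 h2⟩

end Cfsg.Agent.Lib.Helper28.TGolay
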