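import Cfsg.Agent.Lib.Helper28.TGolay4
import Cfsg.Agent.Lib.Helper28.SteinerFacts
import Cfsg.Agent.Lib.Helper28.SteinerDer
import Cfsg.Agent.S1593

/-! The monomial automorphism group of the length-12 ternary code. -/

set_option autoImplicit false

namespace Cfsg.Agent.Lib.Helper28.TGolay

open Cfsg Finset

/-- the monomial map preserves the code -/
def Pres (σ : Equiv.Perm ArrayPt) (c : ArrayPt → (ZMod 3)ˣ) : Prop :=
  ∀ x ∈ ternaryGolayCode, monomialMap σ c x ∈ ternaryGolayCode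

theorem mono_apply (σ : Equiv.Perm ArrayPt) (c : ArrayPt → (ZMod 3)ˣ) (x : W) (p : ArrayPt) :
    monomialMap σ c x p = ((c p : (ZMod 3)ˣ) : ZMod 3) * x (σ.symm p) := rfl

/-- the monomial map as a linear map -/
def monoLin (σ : Equiv.Perm ArrayPt) (c : ArrayPt → (ZMod 3)ˣ) : W →ₗ[ZMod 3] W where
  toFun := monomialMap σ c
  map_add' := by
    intro x y; funext p; simp only [mono_apply, Pi.add_apply, mul_add]
  map_smul' := by
    intro a x; funext p
    simp only [mono_apply, Pi.smul_apply, smul_eq_mul, RingHom.id_apply]; ring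

theorem pres_of_G {σ : Equiv.Perm ArrayPt} {c : ArrayPt → (ZMod 3)ˣ}
    (h : ∀ j, monomialMap σ c (G j) ∈ ternaryGolayCode) : Pres σ c := by
  intro x hx
  rw [eq_enc hx]
  show monoLin σ c (enc _) ∈ _
  unfold enc
  rw [map_sum]
  refine Submodule.sum_mem _ (fun j _ => ?_)
  rw [map_smul]
  exact Submodule.smul_mem _ _ (h j)

theorem pres_prm (i : Fin 5) (t : ArrayPt) : Pres (prm i t) (fS i t) :=
  pres_of_G (fun j => (mem_iff _).2 (tbl_isW i t j))

theorem pres_one : Pres 1 (fun _ => 1) := by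
  intro x hx
  have : monomialMap (1 : Equiv.Perm ArrayPt) (fun _ => (1 : (ZMod 3)ˣ)) x = x := by
    funext p
    show (((1 : (ZMod 3)ˣ)) : ZMod 3) * x p = x p
    rw [Units.val_one, one_mul]
  rw [this]; exact hx

theorem pres_mul {σ τ : Equiv.Perm ArrayPt} {c d : ArrayPt → (ZMod 3)ˣ} (h1 : Pres σ c)
    (h2 : Pres τ d) : Pres (τ * σ) (fun p => d p * c (τ.symm p)) := by
  intro x hx
  have : monomialMap (τ * σ) (fun p => d p * c (τ.symm p)) x =
      monomialMap τ d (monomialMap σ c x) := by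
    funext p
    simp only [mono_apply, Units.val_mul, mul_assoc]
    rfl
  rw [this]; exact h2 _ (h1 _ hx)

/-- the permutation parts -/
def PS : Set (Equiv.Perm ArrayPt) := {σ | ∃ c, Pres σ c}

theorem supp_mono (σ : Equiv.Perm ArrayPt) (c : ArrayPt → (ZMod 3)ˣ) (x : W) :
    ternarySupport (monomialMap σ c x) = (ternarySupport x).image σ := by
  ext p
  rw [mem_supp, Finset.mem_image, mono_apply]
  constructor
  · intro h
    exact ⟨σ.symm p, (mem_supp _ _).2 (right_ne_zero_of_mul h), σ.apply_symm_apply p⟩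
  · rintro ⟨q, hq, rfl⟩
    rw [σ.symm_apply_apply]
    exact mul_ne_zero (Units.ne_zero _) ((mem_supp _ _).1 hq)

theorem PS_subset :
    PS ⊆ (setSystemAut (HX : Set (Finset ArrayPt)) : Set (Equiv.Perm ArrayPt)) := by
  rintro σ ⟨c, hc⟩
  apply SteinerDer.mem_aut_of_forall
  intro b hb
  rw [coe_HX] at hb ⊢
  obtain ⟨x, hx, rfl, h6⟩ := hb
  exact ⟨monomialMap σ c x, hc x hx, supp_mono σ c x, by
    rw [Finset.card_image_of_injective _ σ.injective]; exact h6⟩

theorem exists_PS (t : Fin 5 → ArrayPt) (ht : Function.Injective t) :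
    ∀ k : ℕ, k ≤ 5 → ∃ π ∈ PS, ∀ i : Fin 5, i.val < k → π (bs i) = t i := by
  intro k
  induction k with
  | zero => intro _; exact ⟨1, ⟨_, pres_one⟩, fun i hi => absurd hi (Nat.not_lt_zero _)⟩
  | succ k ih =>
    intro hk
    obtain ⟨π, ⟨c, hc⟩, hπ⟩ := ih (by omega)
    obtain ⟨kk, hkk⟩ : ∃ kk : Fin 5, kk.val = k := ⟨⟨k, by omega⟩, rfl⟩
    have hs : ∀ j : Fin 5, j < kk → π.symm (t kk) ≠ bs j := by
      intro j hj h
      have h1 : t kk = π (bs j) := by rw [← h, π.apply_symm_apply]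
      rw [hπ j (by rw [← hkk]; exact hj)] at h1
      exact absurd (ht h1) (ne_of_gt hj)
    obtain ⟨h1, h2⟩ := tbl_spec kk (π.symm (t kk)) hs
    refine ⟨π * prm kk (π.symm (t kk)), ⟨_, pres_mul (pres_prm _ _) hc⟩, ?_⟩
    intro i hi
    rcases Nat.lt_succ_iff_lt_or_eq.1 hi with hi | hi
    · show π (fF kk _ (bs i)) = t i
      rw [h2 i (by show i.val < kk.val; rw [hkk]; exact hi), hπ i hi]
    · have : i = kk := Fin.ext (hi.trans hkk.symm)
      subst this
      show π (fF i _ (bs i)) = t i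
      rw [h1, π.apply_symm_apply]

theorem card_A : Nat.card (setSystemAut (HX : Set (Finset ArrayPt))) = 95040 :=
  SteinerFacts.card_aut12 (α := ArrayPt) (by decide) steiner

theorem PS_eq :
    PS = (setSystemAut (HX : Set (Finset ArrayPt)) : Set (Equiv.Perm ArrayPt)) := by
  apply Set.eq_of_subset_of_ncard_le PS_subset _ (Set.toFinite _)
  have hA : ((setSystemAut (HX : Set (Finset ArrayPt)) :
      Set (Equiv.Perm ArrayPt))).ncard = 95040 :=
    (_root_.Nat.card_coe_set_eq _).symm.trans card_A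
  rw [hA]
  choose f hf1 hf2 using fun t : Fin 5 ↪ ArrayPt => exists_PS t t.injective 5 le_rfl
  have hinj : Function.Injective (fun t : Fin 5 ↪ ArrayPt => (⟨f t, hf1 t⟩ : PS)) := by
    intro t t' h
    have h1 : f t = f t' := congrArg Subtype.val h
    apply DFunLike.ext
    intro i
    rw [← hf2 t i i.isLt, ← hf2 t' i i.isLt, h1]
  have h2 := Nat.card_le_card_of_injective _ hinj
  have h3 : Nat.card (Fin 5 ↪ ArrayPt) = 95040 := by
    rw [Nat.card_eq_fintype_card, Fintype.card_embedding_eq]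
    decide
  rw [h3, _root_.Nat.card_coe_set_eq] at h2
  exact h2

theorem mono_injective (σ : Equiv.Perm ArrayPt) (c : ArrayPt → (ZMod 3)ˣ) :
    Function.Injective (monomialMap σ c : W → W) := by
  intro x y h
  funext q
  have := congrFun h (σ q)
  simp only [mono_apply, σ.symm_apply_apply] at this
  exact mul_left_cancel₀ (Units.ne_zero _) this

theorem pres_surj {σ : Equiv.Perm ArrayPt} {c : ArrayPt → (ZMod 3)ˣ} (h : Pres σ c) {x : W}
    (hx : x ∈ ternaryGolayCode) : ∃ y ∈ ternaryGolayCode, monomialMap σ c y = x := by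
  let T : ↥ternaryGolayCode → ↥ternaryGolayCode := fun y => ⟨monomialMap σ c y.1, h _ y.2⟩
  have hT : Function.Injective T := by
    intro y y' hy
    exact Subtype.ext (mono_injective σ c (congrArg Subtype.val hy))
  obtain ⟨y, hy⟩ := (Finite.injective_iff_surjective.1 hT) ⟨x, hx⟩
  exact ⟨y.1, y.2, congrArg Subtype.val hy⟩

theorem pres_unique {σ : Equiv.Perm ArrayPt} {c c' : ArrayPt → (ZMod 3)ˣ} (h : Pres σ c)
    (h' : Pres σ c') : ∃ u : (ZMod 3)ˣ, ∀ p, c' p = u * c p := by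
  have h1 : ∀ x ∈ ternaryGolayCode,
      monomialMap 1 (fun p => c' p * (c p)⁻¹) x ∈ ternaryGolayCode := by
    intro x hx
    obtain ⟨y, hy, rfl⟩ := pres_surj h hx
    have : monomialMap 1 (fun p => c' p * (c p)⁻¹) (monomialMap σ c y) = monomialMap σ c' y := by
      funext p
      show (((c' p * (c p)⁻¹ : (ZMod 3)ˣ)) : ZMod 3) * (((c p : (ZMod 3)ˣ) : ZMod 3) *
        y (σ.symm p)) = ((c' p : (ZMod 3)ˣ) : ZMod 3) * y (σ.symm p)
      rw [← mul_assoc, ← Units.val_mul, inv_mul_cancel_right]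
    rw [this]; exact h' y hy
  rcases Cfsg.Agent.S1593.result _ h1 with h2 | h2
  · exact ⟨1, fun p => by rw [one_mul]; exact mul_inv_eq_one.1 (h2 p)⟩
  · exact ⟨-1, fun p => mul_inv_eq_iff_eq_mul.1 (h2 p)⟩

theorem pres_smul {σ : Equiv.Perm ArrayPt} {c : ArrayPt → (ZMod 3)ˣ} (h : Pres σ c)
    (u : (ZMod 3)ˣ) : Pres σ (fun p => u * c p) := by
  intro x hx
  have : monomialMap σ (fun p => u * c p) x = (u : ZMod 3) • monomialMap σ c x := by
    funext p
    simp only [mono_apply, Units.val_mul, Pi.smul_apply, smul_eq_mul, mul_assoc]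
  rw [this]; exact Submodule.smul_mem _ _ (h x hx)

theorem card_pres : Nat.card {f : Equiv.Perm ArrayPt × (ArrayPt → (ZMod 3)ˣ) //
    ∀ x ∈ ternaryGolayCode, monomialMap f.1 f.2 x ∈ ternaryGolayCode} = 190080 := by
  choose cc hcc using fun σ : PS => σ.2
  let Φ : PS × (ZMod 3)ˣ → {f : Equiv.Perm ArrayPt × (ArrayPt → (ZMod 3)ˣ) //
      ∀ x ∈ ternaryGolayCode, monomialMap f.1 f.2 x ∈ ternaryGolayCode} :=
    fun a => ⟨(a.1.1, fun p => a.2 * cc a.1 p), pres_smul (hcc a.1) a.2⟩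
  have hΦ : Function.Bijective Φ := by
    constructor
    · rintro ⟨σ, u⟩ ⟨σ', u'⟩ h
      have h1 : σ.1 = σ'.1 := congrArg (fun f => f.1.1) h
      have h1' : σ = σ' := Subtype.ext h1
      subst h1'
      have h2 : (fun p => u * cc σ p) = (fun p => u' * cc σ p) := congrArg (fun f => f.1.2) h
      have h3 := congrFun h2 (0, 0)
      rw [mul_right_cancel h3]
    · rintro ⟨⟨σ, c'⟩, h⟩
      obtain ⟨u, hu⟩ := pres_unique (hcc ⟨σ, ⟨c', h⟩⟩) h
      exact ⟨(⟨σ, ⟨c', h⟩⟩, u), Subtype.ext (Prod.ext rfl (funext fun p => (hu p).symm))⟩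
  rw [← Nat.card_congr (Equiv.ofBijective Φ hΦ), Nat.card_prod]
  have h1 : Nat.card PS = 95040 := by
    rw [PS_eq]; exact card_A
  have h2 : Nat.card (ZMod 3)ˣ = 2 := by
    rw [Nat.card_eq_fintype_card]; decide
  rw [h1, h2]

end Cfsg.Agent.Lib.Helper28.TGolay
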